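import Cfsg.Agent.H3.OIdx.Translates

/-!
Counting lemmas for the local analysis: scalings of an additive subgroup of the field and the
size of isotropic subgroups of pairs.
-/

set_option autoImplicit false

namespace Cfsg.Agent.H3.OIdx

open QuadraticMap hiding sq
open Module

variable {F V : Type*} [Field F] [Finite F]

open scoped Pointwise in
/-- A proper non-zero additive subgroup of a finite field has many scalings. -/
theorem mul_le_scalings (Z : AddSubgroup F) (h0 : Z ≠ ⊥) (h1 : Z ≠ ⊤) :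
    (Nat.card F + 2) * Nat.card Z ≤
      {S : Set F | ∃ t : F, t ≠ 0 ∧ S = (t * ·) '' Z}.ncard * Nat.card F := by
  classical
  haveI := Fintype.ofFinite F
  let K : Subfield F :=
    { carrier := {x | ∀ z ∈ Z, x * z ∈ Z}
      zero_mem' := fun z _ => by rw [zero_mul]; exact zero_mem _
      one_mem' := fun z hz => by rwa [one_mul]
      add_mem' := fun {a b} ha hb z hz => by rw [add_mul]; exact add_mem (ha z hz) (hb z hz)
      neg_mem' := fun {a} ha z hz => by rw [neg_mul]; exact neg_mem (ha z hz)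
      mul_mem' := fun {a b} ha hb z hz => by rw [mul_assoc]; exact ha _ (hb z hz)
      inv_mem' := fun a ha z hz => by
        by_cases h : a = 0
        · rw [h, inv_zero, zero_mul]; exact zero_mem _
        obtain ⟨y, hy⟩ := ((Function.Injective.bijective_of_nat_card_le
          (f := fun x : Z => (⟨a * (x : F), ha _ x.2⟩ : Z))
          (fun x y hxy => Subtype.ext (mul_left_cancel₀ h (congrArg Subtype.val hxy)))
          le_rfl)).2 ⟨z, hz⟩
        rw [← show a * (y : F) = z from congrArg Subtype.val hy, ← mul_assoc,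
          inv_mul_cancel₀ h, one_mul]
        exact y.2 }
  obtain ⟨z₀, hz₀, hz0⟩ : ∃ z ∈ Z, z ≠ 0 := by
    by_contra! hall
    exact h0 ((AddSubgroup.eq_bot_iff_forall _).2 hall)
  let M : Submodule K F :=
    { carrier := Z
      add_mem' := fun ha hb => Z.add_mem ha hb
      zero_mem' := Z.zero_mem
      smul_mem' := fun c x hx => c.2 x hx }
  have hMlt : finrank K M < finrank K F := by
    refine Submodule.finrank_lt ?_
    intro hM
    exact h1 ((AddSubgroup.eq_top_iff' _).2 fun x => (show x ∈ M by rw [hM]; trivial))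
  have hZc : Nat.card Z = Nat.card K ^ finrank K M := by
    rw [← Module.natCard_eq_pow_finrank (K := K) (V := M)]
    rfl
  have hFc : Nat.card F = Nat.card K ^ finrank K F := Module.natCard_eq_pow_finrank
  have hM1 : 0 < finrank K M :=
    Module.finrank_pos_iff_exists_ne_zero.2
      ⟨⟨z₀, hz₀⟩, fun h => hz0 (congrArg Subtype.val h)⟩
  -- orbit counting
  have horb : {S : Set F | ∃ t : F, t ≠ 0 ∧ S = (t * ·) '' Z} =
      MulAction.orbit Fˣ (Z : Set F) := by
    ext S
    constructor
    · rintro ⟨t, ht, rfl⟩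
      exact ⟨Units.mk0 t ht, by ext x; simp [Set.mem_smul_set, Units.smul_def]⟩
    · rintro ⟨t, rfl⟩
      exact ⟨t, t.ne_zero, by ext x; simp [Set.mem_smul_set, Units.smul_def]⟩
  have hst : Nat.card (MulAction.stabilizer Fˣ (Z : Set F)) = Nat.card K - 1 := by
    rw [← Nat.card_units K]
    refine Nat.card_congr
      { toFun := fun t => Units.mk0 ⟨((t : Fˣ) : F), fun z hz => ?_⟩
          (fun h => (t : Fˣ).ne_zero (congrArg Subtype.val h))
        invFun := fun t => ⟨Units.mk0 ((t : K) : F) (fun h => t.ne_zero (Subtype.ext h)), ?_⟩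
        left_inv := fun t => Subtype.ext (Units.ext rfl)
        right_inv := fun t => Units.ext (Subtype.ext rfl) }
    · exact (MulAction.mem_stabilizer_iff.1 t.2).le (Set.smul_mem_smul_set hz)
    · rw [MulAction.mem_stabilizer_iff]
      refine Set.eq_of_subset_of_ncard_le ?_ ?_ (Set.toFinite _)
      · rintro _ ⟨z, hz, rfl⟩
        exact (t : K).2 z hz
      · rw [Set.ncard_smul_set]
  have hos : {S : Set F | ∃ t : F, t ≠ 0 ∧ S = (t * ·) '' Z}.ncard * (Nat.card K - 1) =
      Nat.card F - 1 := by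
    rw [← hst, horb, ← MulAction.index_stabilizer, Subgroup.index_mul_card, Nat.card_units]
  set r := {S : Set F | ∃ t : F, t ≠ 0 ∧ S = (t * ·) '' Z}.ncard
  set k := Nat.card K
  set q := Nat.card F
  have hk : 2 ≤ k := Finite.one_lt_card
  obtain ⟨j, hj⟩ : ∃ j, finrank K F = finrank K M + 1 + j := ⟨_, (Nat.add_sub_cancel' hMlt).symm⟩
  have hq : Nat.card Z * (k * k ^ j) = q := by
    rw [hZc, hFc, hj, pow_add, pow_add, pow_one, mul_assoc]
  have hkq : k * k ≤ q := by
    rw [hFc, ← sq]; exact Nat.pow_le_pow_right (by omega) (by omega)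
  have h2 : (q + 2) ≤ r * (k * k ^ j) := by
    refine le_trans ?_ (Nat.mul_le_mul_left r (Nat.le_mul_of_pos_right k (pow_pos (by omega) j)))
    obtain ⟨i, hi⟩ : ∃ i, k = i + 1 := ⟨k - 1, by omega⟩
    rw [hi, Nat.add_sub_cancel] at hos
    rw [hi] at hkq ⊢
    have hi1 : 1 ≤ i := by omega
    have hq1 : 1 ≤ q := le_trans (by nlinarith) hkq
    have h3 : i + 2 ≤ r := by
      by_contra hlt
      have h4 : r * i ≤ (i + 1) * i := Nat.mul_le_mul_right _ (by omega)
      have h5 : (i + 1) * i + 2 ≤ (i + 1) * (i + 1) := by nlinarith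
      omega
    rw [Nat.mul_succ]
    omega
  calc (q + 2) * Nat.card Z ≤ r * (k * k ^ j) * Nat.card Z := Nat.mul_le_mul_right _ h2
    _ = r * q := by rw [← hq]; ring

variable [AddCommGroup V] [Module F V] [FiniteDimensional F V] [Finite V] {Q : QuadraticForm F V}
  {L : LineFrame Q}

theorem beta_add_right (p r r' : V × V) : L.beta p (r + r') = L.beta p r + L.beta p r' := by
  simp [LineFrame.beta, polar_add_left, polar_add_right]; ring

theorem beta_add_left (p p' r : V × V) : L.beta (p + p') r = L.beta p r + L.beta p' r := by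
  simp [LineFrame.beta, polar_add_left, polar_add_right]; ring

theorem beta_smul_right (c : F) (p r : V × V) : L.beta p (c • r) = c * L.beta p r := by
  simp [LineFrame.beta, polar_smul_left, polar_smul_right]; ring

theorem beta_smul_left (c : F) (p r : V × V) : L.beta (c • p) r = c * L.beta p r := by
  simp [LineFrame.beta, polar_smul_left, polar_smul_right]; ring

theorem beta_swap (p r : V × V) : L.beta r p = -L.beta p r := by
  simp [LineFrame.beta]

theorem exists_beta_ne (hQ : (polarBilin Q).Nondegenerate) {p : V × V} (hp : p ∈ L.WW)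
    (hp0 : p ≠ 0) : ∃ r ∈ L.WW, L.beta p r = 1 := by
  have hd := H5.restrict_nondegenerate (L.W_inf_perp hQ)
  by_cases h1 : p.1 = 0
  · have h2 : p.2 ≠ 0 := fun h2 => hp0 (Prod.ext h1 h2)
    obtain ⟨y, hy⟩ := H5.exists_polar_eq_one hd (x := (⟨p.2, hp.2⟩ : L.W))
      (fun h => h2 (congrArg Subtype.val h))
    have hy' : polar Q p.2 (y : V) = 1 := hy
    exact ⟨(-(y : V), 0), ⟨neg_mem y.2, zero_mem _⟩, by
      simp [LineFrame.beta, polar_neg_right, hy']⟩
  · obtain ⟨y, hy⟩ := H5.exists_polar_eq_one hd (x := (⟨p.1, hp.1⟩ : L.W))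
      (fun h => h1 (congrArg Subtype.val h))
    have hy' : polar Q p.1 (y : V) = 1 := hy
    exact ⟨(0, (y : V)), ⟨zero_mem _, y.2⟩, by
      simp [LineFrame.beta, polar_comm (⇑Q) (y : V) p.1, hy']⟩

/-- Subgroups of pairs isotropic modulo a proper subgroup of the field are small. -/
theorem card_le_of_isotropic (hQ : (polarBilin Q).Nondegenerate) (Z : AddSubgroup F) (hZ : Z ≠ ⊤)
    (A : AddSubgroup (V × V)) (hA : (A : Set (V × V)) ⊆ L.WW)
    (hiso : ∀ p ∈ A, ∀ r ∈ A, L.beta p r ∈ Z) : Nat.card A ≤ Nat.card F ^ finrank F L.W := by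
  classical
  obtain ⟨x, hx⟩ : ∃ x, x ∉ Z := by
    by_contra! hall
    exact hZ ((AddSubgroup.eq_top_iff' _).2 hall)
  obtain ⟨ψ₀, hψ₀⟩ : ∃ ψ : AddChar (F ⧸ Z) ℂ, ψ (x : F ⧸ Z) ≠ 1 :=
    AddChar.exists_apply_ne_zero.2 (fun h => hx ((QuotientAddGroup.eq_zero_iff x).1 h))
  let P : AddSubgroup (V × V) := L.WW.toAddSubgroup
  let A' : AddSubgroup P := A.addSubgroupOf P
  have hAA : Nat.card A' = Nat.card A := Nat.card_congr
    (AddSubgroup.addSubgroupOfEquivOfLe (H := A) (K := P) hA).toEquiv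
  let Φ : A → AddChar (P ⧸ A') ℂ := fun a => ψ₀.compAddMonoidHom
    (QuotientAddGroup.lift A'
      ((QuotientAddGroup.mk' Z).comp
        { toFun := fun p : P => L.beta (a : V × V) (p : V × V)
          map_zero' := by simp [LineFrame.beta]
          map_add' := fun p r => beta_add_right _ _ _ })
      (fun p hp => (QuotientAddGroup.eq_zero_iff _).2 (hiso _ a.2 _ hp)))
  have hΦ : Function.Injective Φ := by
    intro a b hab
    by_contra hne
    obtain ⟨r, hr, hr1⟩ := exists_beta_ne (L := L) hQ (sub_mem (hA a.2) (hA b.2))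
      (fun h => hne (Subtype.ext (sub_eq_zero.1 h)))
    have h := DFunLike.congr_fun hab ((⟨x • r, Submodule.smul_mem _ x hr⟩ : P) : P ⧸ A')
    simp only [Φ, AddChar.compAddMonoidHom_apply, QuotientAddGroup.lift_mk] at h
    have hsub : L.beta (a : V × V) (x • r) = L.beta (b : V × V) (x • r) + x := by
      have h2 : L.beta ((a : V × V) - b) (x • r) = x := by
        rw [beta_smul_right, hr1, mul_one]
      rw [show (a : V × V) = b + ((a : V × V) - b) by abel, beta_add_left, h2]
    change ψ₀ ((L.beta (a : V × V) (x • r) : F) : F ⧸ Z) =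
      ψ₀ ((L.beta (b : V × V) (x • r) : F) : F ⧸ Z) at h
    rw [hsub, QuotientAddGroup.mk_add, AddChar.map_add_eq_mul] at h
    refine hψ₀ (mul_left_cancel₀ ?_ (h.trans (mul_one _).symm))
    exact (AddChar.val_isUnit ψ₀ _).ne_zero
  haveI : Fintype (P ⧸ A') := Fintype.ofFinite _
  have h1 : Nat.card A ≤ Nat.card (P ⧸ A') := by
    refine (Nat.card_le_card_of_injective Φ hΦ).trans (le_of_eq ?_)
    rw [Nat.card_eq_fintype_card, Nat.card_eq_fintype_card, AddChar.card_eq]
  have h2 := AddSubgroup.card_eq_card_quotient_mul_card_addSubgroup A'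
  have h3 : Nat.card P = (Nat.card F ^ finrank F L.W) ^ 2 := by
    have : Nat.card P = Nat.card (L.W × L.W) :=
      Nat.card_congr
        { toFun := fun p => (⟨p.1.1, p.2.1⟩, ⟨p.1.2, p.2.2⟩)
          invFun := fun p => ⟨(p.1, p.2), p.1.2, p.2.2⟩
          left_inv := fun p => rfl
          right_inv := fun p => rfl }
    rw [this, Nat.card_prod, Module.natCard_eq_pow_finrank (K := F) (V := L.W), sq]
  rw [hAA] at h2
  have h4 : Nat.card A * Nat.card A ≤ (Nat.card F ^ finrank F L.W) ^ 2 := by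
    rw [← h3, h2]; exact Nat.mul_le_mul_right _ h1
  rw [sq] at h4
  exact Nat.mul_self_le_mul_self_iff.1 h4

/-- The orbit inequality with both invariants. -/
theorem trans_mul_scalings_le (hQ : (polarBilin Q).Nondegenerate) (hn : 7 ≤ finrank F V)
    {H : Subgroup (H5.orth Q)} (hH : H ≤ H5.eichGroup Q) :
    (trans L (L.proj (H ⊓ L.rad) : Set (V × V))).ncard *
        {S : Set F | ∃ t : F, t ≠ 0 ∧ S = (t * ·) '' L.zset (H ⊓ L.rad)}.ncard *
        Nat.card F ^ (2 * finrank F L.W + 1) ≤
      H.relIndex (H5.eichGroup Q) *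
        (Nat.card (L.zset (H ⊓ L.rad)) * Nat.card (L.proj (H ⊓ L.rad))) := by
  set A := L.proj (H ⊓ L.rad)
  set Z := L.zset (H ⊓ L.rad)
  rw [← Nat.card_coe_set_eq, ← Nat.card_coe_set_eq, ← Nat.card_prod]
  choose l hl1 hlS using fun S : trans L (A : Set (V × V)) => S.2
  choose t ht0 htS using fun S : {S : Set F | ∃ t : F, t ≠ 0 ∧ S = (t * ·) '' Z} => S.2
  choose d hd using fun S : {S : Set F | ∃ t : F, t ≠ 0 ∧ S = (t * ·) '' Z} =>
    Lev.exists_lam L hQ hn (ht0 S)
  refine card_mul_le_index hH (fun x => (d x.2).comp (l x.1)) ?_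
  rintro ⟨S, T⟩ ⟨S', T'⟩ h
  simp only [Lev.comp, Prod.mk.injEq, hl1, mul_one, hd] at h
  obtain ⟨h1, h2⟩ := h
  obtain rfl : T = T' := Subtype.ext ((htS T).trans (h1.trans (htS T').symm))
  rw [Set.image_comp, Set.image_comp] at h2
  have hsub : ∀ l : Lev L, l.φ '' (A : Set (V × V)) ⊆ L.WW := by
    rintro l _ ⟨p, hp, rfl⟩
    exact l.maps p ⟨hp.1, hp.2.1⟩
  refine Prod.ext (Subtype.ext ?_) rfl
  change (S : Set (V × V)) = S'
  rw [hlS S, hlS S']
  exact ((d T).inj.image_eq_image_iff (hsub _) (hsub _)).1 h2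

end Cfsg.Agent.H3.OIdx
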