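import Cfsg.Agent.H3.OIdx.Orbits
import Cfsg.Agent.H4.Count
import Cfsg.Agent.H5.OmegaForms

/-!
Vectors of a given norm and singular points of the standard forms.
-/

set_option autoImplicit false

namespace Cfsg.Agent.H3.OIdx

open QuadraticMap hiding sq
open Module
open Cfsg.Agent.H5 (qPlus qOdd qMinus)
open Cfsg.Agent.H4 (numZeros numZeros_formula singularPoints)

/-- Singular points and zeros. -/
theorem singularPoints_mul_add_one {F V : Type*} [Field F] [Finite F] [AddCommGroup V]
    [Module F V] [Finite V] (Q : QuadraticForm F V) :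
    (singularPoints Q).ncard * (Nat.card F - 1) + 1 = Nat.card {x : V // Q x = 0} := by
  classical
  choose r hr0 hrq hr using fun L : singularPoints Q => L.2
  have h1 : Nat.card {x : V // x ≠ 0 ∧ Q x = 0} = (singularPoints Q).ncard * (Nat.card F - 1) := by
    rw [← Nat.card_coe_set_eq, ← Nat.card_units, ← Nat.card_prod]
    refine (Nat.card_eq_of_bijective (fun p : singularPoints Q × Fˣ => (⟨(p.2 : F) • r p.1,
      smul_ne_zero p.2.ne_zero (hr0 p.1), by rw [QuadraticMap.map_smul, hrq, smul_zero]⟩ :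
        {x : V // x ≠ 0 ∧ Q x = 0})) ⟨?_, ?_⟩).symm
    · rintro ⟨L, t⟩ ⟨L', t'⟩ hp
      have hp' : (t : F) • r L = (t' : F) • r L' := congrArg Subtype.val hp
      obtain rfl : L = L' := Subtype.ext (by
        rw [← hr L, ← hr L', ← Submodule.span_singleton_smul_eq t.isUnit (r L), hp',
          Submodule.span_singleton_smul_eq t'.isUnit (r L')])
      rw [Prod.mk.injEq]
      exact ⟨rfl, Units.ext (smul_left_injective F (hr0 L) hp')⟩
    · rintro ⟨x, hx0, hx⟩
      set L : singularPoints Q := ⟨Submodule.span F {x}, x, hx0, hx, rfl⟩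
      obtain ⟨t, ht⟩ := Submodule.mem_span_singleton.1
        ((hr L).ge (Submodule.mem_span_singleton_self x))
      exact ⟨(L, Units.mk0 t fun h0 => hx0 (by rw [← ht, h0, zero_smul])), Subtype.ext ht⟩
  rw [← h1]
  change Nat.card ↥{x : V | x ≠ 0 ∧ Q x = 0} + 1 = Nat.card ↥{x : V | Q x = 0}
  rw [Nat.card_coe_set_eq, Nat.card_coe_set_eq]
  rw [show {x : V | Q x = 0} = insert 0 {x : V | x ≠ 0 ∧ Q x = 0} by
      ext x
      by_cases hx : x = 0
      · simp [hx]
      · simp [hx],
    Set.ncard_insert_of_notMem (fun h => h.1 rfl) (Set.toFinite _)]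

variable {F : Type*} [Field F] [Fintype F]

open scoped Classical in
/-- Vectors of norm `c` of the odd form. -/
theorem card_norm_qOdd (m : ℕ) (c : F) :
    ((normSet (qOdd m F) c).ncard : ℤ) = (Fintype.card F : ℤ) ^ (2 * m) +
      (Fintype.card F : ℤ) ^ m * ((Nat.card {t : F // t ^ 2 = c} : ℤ) - 1) := by
  have e : {v : Unit ⊕ (Fin m ⊕ Fin m) → F // Cfsg.quadFormOdd m F v = c} ≃
      {p : F × (Fin m → F) × (Fin m → F) //
        (fun t : F => t ^ 2 - c) p.1 + ∑ i, p.2.1 i * p.2.2 i = 0} :=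
    { toFun := fun v => ⟨(v.1 (.inl ()), fun i => v.1 (.inr (.inl i)), fun i => v.1 (.inr (.inr i))),
          by simpa [Cfsg.quadFormOdd, sub_add_eq_add_sub, sub_eq_zero] using v.2⟩
      invFun := fun p => ⟨Sum.elim (fun _ => p.1.1) (Sum.elim p.1.2.1 p.1.2.2), by
          simpa [Cfsg.quadFormOdd, sub_add_eq_add_sub, sub_eq_zero] using p.2⟩
      left_inv := fun v => Subtype.ext (funext fun i => by rcases i with i | i | i <;> rfl)
      right_inv := fun p => Subtype.ext rfl }
  have hz : Nat.card {t : F // (fun t : F => t ^ 2 - c) t = 0} = Nat.card {t : F // t ^ 2 = c} :=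
    Nat.card_congr (Equiv.subtypeEquivRight fun t => sub_eq_zero)
  have h := numZeros_formula (fun t : F => t ^ 2 - c) m
  rw [numZeros, ← Nat.card_congr e, hz, Nat.card_eq_fintype_card (α := F)] at h
  have hset : (normSet (qOdd m F) c).ncard =
      Nat.card {v : Unit ⊕ (Fin m ⊕ Fin m) → F // Cfsg.quadFormOdd m F v = c} := by
    rw [← Nat.card_coe_set_eq]
    exact Nat.card_congr (Equiv.subtypeEquivRight fun v => by rw [← H5.coe_qOdd]; rfl)
  rw [hset]
  have hq : (Fintype.card F : ℤ) ≠ 0 := by exact_mod_cast Fintype.card_ne_zero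
  apply mul_left_cancel₀ hq
  linear_combination h

/-- Vectors of non-zero norm of the plus form. -/
theorem card_norm_qPlus (m : ℕ) {c : F} (hc : c ≠ 0) :
    (Fintype.card F : ℤ) * ((normSet (qPlus m F) c).ncard : ℤ) =
      (Fintype.card F : ℤ) ^ (2 * m) - (Fintype.card F : ℤ) ^ m := by
  have e : {v : Fin m ⊕ Fin m → F // Cfsg.quadFormPlus m F v = c} ≃
      {p : Unit × (Fin m → F) × (Fin m → F) //
        (fun _ : Unit => -c) p.1 + ∑ i, p.2.1 i * p.2.2 i = 0} :=
    { toFun := fun v => ⟨((), v.1 ∘ Sum.inl, v.1 ∘ Sum.inr), by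
          have h := v.2
          simp [Cfsg.quadFormPlus] at h ⊢
          linear_combination h⟩
      invFun := fun p => ⟨Sum.elim p.1.2.1 p.1.2.2, by
          have h := p.2
          simp [Cfsg.quadFormPlus] at h ⊢
          linear_combination h⟩
      left_inv := fun v => Subtype.ext (funext fun i => by rcases i with i | i <;> rfl)
      right_inv := fun p => Subtype.ext rfl }
  have h := numZeros_formula (fun _ : Unit => -c) m
  rw [numZeros, ← Nat.card_congr e] at h
  have hz : Nat.card {v : Unit // (fun _ : Unit => -c) v = 0} = 0 := by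
    haveI : IsEmpty {v : Unit // (fun _ : Unit => -c) v = 0} :=
      ⟨fun v => hc (neg_eq_zero.1 v.2)⟩
    exact Nat.card_of_isEmpty
  rw [hz] at h
  have hset : (normSet (qPlus m F) c).ncard =
      Nat.card {v : Fin m ⊕ Fin m → F // Cfsg.quadFormPlus m F v = c} := by
    rw [← Nat.card_coe_set_eq]
    exact Nat.card_congr (Equiv.subtypeEquivRight fun v => by rw [← H5.coe_qPlus]; rfl)
  rw [hset]
  simp at h
  linear_combination h

/-- A binary anisotropic form takes every value. -/
theorem exists_binary_eq {a b : F}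
    (hab : ∀ z₁ z₂ : F, z₁ ^ 2 + a * z₁ * z₂ + b * z₂ ^ 2 = 0 → z₁ = 0 ∧ z₂ = 0) (c : F) :
    ∃ z : F × F, z.1 ^ 2 + a * z.1 * z.2 + b * z.2 ^ 2 = c := by
  by_cases h2 : (2 : F) = 0
  · obtain ⟨s, hs⟩ := H5.isSquare_of_two_eq_zero h2 c
    exact ⟨(s, 0), by rw [hs]; ring⟩
  · obtain ⟨v, hv⟩ := H5.exists_norm_eq h2 (H5.qMinus_nondegenerate 0 hab)
      (by simp [Module.finrank_fintype_fun_eq_card]) c
    refine ⟨(v (.inr 0), v (.inr 1)), ?_⟩
    rw [← hv, H5.coe_qMinus]
    simp [Cfsg.quadFormMinus]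

/-- Vectors of a non-zero norm of the minus form. -/
theorem le_card_norm_qMinus (m : ℕ) {a b : F}
    (hab : ∀ z₁ z₂ : F, z₁ ^ 2 + a * z₁ * z₂ + b * z₂ ^ 2 = 0 → z₁ = 0 ∧ z₂ = 0) (c : F) :
    (Fintype.card F : ℤ) ^ (2 * m + 1) + (Fintype.card F : ℤ) ^ m -
      (Fintype.card F : ℤ) ^ (m + 1) ≤ ((normSet (qMinus m F a b) c).ncard : ℤ) := by
  let P : F × F → F := fun z => z.1 ^ 2 + a * z.1 * z.2 + b * z.2 ^ 2 - c
  have e : {v : (Fin m ⊕ Fin m) ⊕ Fin 2 → F // Cfsg.quadFormMinus m F a b v = c} ≃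
      {p : (F × F) × (Fin m → F) × (Fin m → F) // P p.1 + ∑ i, p.2.1 i * p.2.2 i = 0} :=
    { toFun := fun v => ⟨((v.1 (.inr 0), v.1 (.inr 1)), fun i => v.1 (.inl (.inl i)),
          fun i => v.1 (.inl (.inr i))), by
            have h := v.2
            simp [P, Cfsg.quadFormMinus] at h ⊢
            linear_combination h⟩
      invFun := fun p => ⟨Sum.elim (Sum.elim p.1.2.1 p.1.2.2) ![p.1.1.1, p.1.1.2], by
            have h := p.2
            simp [P, Cfsg.quadFormMinus] at h ⊢
            linear_combination h⟩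
      left_inv := fun v => Subtype.ext (funext fun i => by
        rcases i with (i | i) | i
        · rfl
        · rfl
        · fin_cases i <;> rfl)
      right_inv := fun p => Subtype.ext (by simp) }
  have hz : 1 ≤ Nat.card {z : F × F // P z = 0} := by
    obtain ⟨z, hz⟩ := exists_binary_eq hab c
    haveI : Nonempty {z : F × F // P z = 0} := ⟨⟨z, by simp [P, hz]⟩⟩
    exact Nat.card_pos
  have h := numZeros_formula P m
  rw [numZeros, ← Nat.card_congr e, Nat.card_prod, Nat.card_eq_fintype_card (α := F)] at h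
  have hset : (normSet (qMinus m F a b) c).ncard =
      Nat.card {v : (Fin m ⊕ Fin m) ⊕ Fin 2 → F // Cfsg.quadFormMinus m F a b v = c} := by
    rw [← Nat.card_coe_set_eq]
    exact Nat.card_congr (Equiv.subtypeEquivRight fun v => by rw [← H5.coe_qMinus]; rfl)
  rw [hset]
  have hq : (0 : ℤ) < Fintype.card F := by exact_mod_cast Fintype.card_pos
  refine le_of_mul_le_mul_left ?_ hq
  rw [h]
  push_cast
  have hz' : (1 : ℤ) ≤ Nat.card {z : F × F // P z = 0} := by exact_mod_cast hz
  have hpow : (0 : ℤ) ≤ (Fintype.card F : ℤ) ^ (m + 1) := by positivity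
  rw [pow_succ _ (2 * m), pow_succ _ m] at *
  nlinarith

end Cfsg.Agent.H3.OIdx
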