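import Cfsg.Agent.H3.OIdx.Orbit

/-!
A subgroup of `Ω` with a large point stabilises a totally singular subspace or a subspace of
dimension at most two.
-/

set_option autoImplicit false

namespace Cfsg.Agent.H3.OIdx

open QuadraticMap hiding sq
open Module
open Cfsg.Agent.H5 (orth eich eich_mul eich_inv eich_conj eich_zero eich_smul_smul eichGroup HypPair
  pperp mem_pperp orth_mul_apply orth_map orth_polar polar_self' refl refl_apply perp)

variable {F V : Type*} [Field F] [AddCommGroup V] [Module F V] {Q : QuadraticForm F V}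

/-- The parameters of root elements at `v` all of whose multiples lie in `H`. -/
def rootSpace (H : Subgroup (orth Q)) {v : V} (hv : Q v = 0) : Submodule F V where
  carrier := {a | polar Q v a = 0 ∧ ∀ t : F, eich Q v (t • a) ∈ H}
  zero_mem' := ⟨polar_zero_right Q v, fun t => by rw [smul_zero, eich_zero]; exact one_mem _⟩
  add_mem' := by
    rintro a b ⟨ha, ha'⟩ ⟨hb, hb'⟩
    refine ⟨by rw [polar_add_right, ha, hb, add_zero], fun t => ?_⟩
    rw [smul_add, ← eich_mul hv (by rw [polar_smul_right, ha, smul_zero])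
      (by rw [polar_smul_right, hb, smul_zero])]
    exact mul_mem (ha' t) (hb' t)
  smul_mem' := by
    rintro c a ⟨ha, ha'⟩
    exact ⟨by rw [polar_smul_right, ha, smul_zero], fun t => by rw [smul_smul]; exact ha' _⟩

variable {H : Subgroup (orth Q)}

theorem mem_rootSpace {v : V} (hv : Q v = 0) {a : V} :
    a ∈ rootSpace H hv ↔ polar Q v a = 0 ∧ ∀ t : F, eich Q v (t • a) ∈ H := Iff.rfl

theorem rootSpace_eich {v : V} (hv : Q v = 0) {a : V} (ha : a ∈ rootSpace H hv) :
    eich Q v a ∈ H := by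
  simpa using ha.2 1

theorem self_mem_rootSpace {v : V} (hv : Q v = 0) : v ∈ rootSpace H hv := by
  refine ⟨by rw [polar_self', hv, mul_zero], fun t => ?_⟩
  rw [← zero_add (t • v), H5.eich_add_smul hv (polar_zero_right Q v), eich_zero]
  exact one_mem _

theorem rootSpace_map {v : V} (hv : Q v = 0) {a : V} (ha : a ∈ rootSpace H hv) {h : orth Q}
    (hh : h ∈ H) {v' : V} (hv' : Q v' = 0) (he : (h : V ≃ₗ[F] V) v = v') :
    (h : V ≃ₗ[F] V) a ∈ rootSpace H hv' := by
  subst he
  refine ⟨by rw [orth_polar, ha.1], fun t => ?_⟩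
  rw [← map_smul, ← eich_conj]
  exact mul_mem (mul_mem hh (ha.2 t)) (inv_mem hh)

theorem rootSpace_smul {v : V} (hv : Q v = 0) {s : F} (hs : s ≠ 0) (hsv : Q (s • v) = 0) :
    rootSpace H hsv = rootSpace H hv := by
  ext a
  rw [mem_rootSpace, mem_rootSpace, polar_smul_left, smul_eq_mul, mul_eq_zero, or_iff_right hs]
  refine and_congr_right fun ha => ⟨fun h t => ?_, fun h t => ?_⟩
  · have := h (s⁻¹ * t)
    rwa [eich_smul_smul hv (by rw [polar_smul_right, ha, smul_zero]), smul_smul,
      mul_inv_cancel_left₀ hs] at this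
  · rw [eich_smul_smul hv (by rw [polar_smul_right, ha, smul_zero]), smul_smul]
    exact h _

theorem Large.exists_le {v : V} (h : Large H v) :
    ∃ Y : Submodule F V, Y ⊓ perp Q Y = ⊥ ∧ finrank F V ≤ finrank F Y + 4 ∧
      Y ≤ rootSpace H h.2.1 := by
  obtain ⟨Y, hY, hd, hYH⟩ := h.2.2
  exact ⟨Y, hY, hd, fun a ha => ⟨(hYH a ha).1, fun t => (hYH _ (Y.smul_mem t ha)).2⟩⟩

theorem Large.smul {v : V} (h : Large H v) {s : F} (hs : s ≠ 0) : Large H (s • v) := by
  obtain ⟨Y, hY, hd, hYX⟩ := h.exists_le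
  have hq : Q (s • v) = 0 := by rw [QuadraticMap.map_smul, h.2.1, smul_zero]
  refine ⟨smul_ne_zero hs h.1, hq, Y, hY, hd, fun a ha => ?_⟩
  have := hYX ha
  rw [← rootSpace_smul h.2.1 hs hq] at this
  exact ⟨this.1, rootSpace_eich hq this⟩

theorem Large.map {v : V} (h : Large H v) {k : orth Q} (hk : k ∈ H) :
    Large H ((k : V ≃ₗ[F] V) v) := by
  obtain ⟨Y, hY, hd, hYH⟩ := h.2.2
  refine ⟨by simpa using h.1, by rw [orth_map, h.2.1],
    Y.map ((k : V ≃ₗ[F] V) : V →ₗ[F] V), ?_, by rwa [LinearEquiv.finrank_map_eq], ?_⟩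
  · rw [eq_bot_iff]
    rintro _ ⟨⟨a, ha, rfl⟩, ha'⟩
    have ha0 : a ∈ Y ⊓ perp Q Y := ⟨ha, fun b hb => by
      have := ha' _ ⟨b, hb, rfl⟩
      change polar Q ((k : V ≃ₗ[F] V) b) ((k : V ≃ₗ[F] V) a) = 0 at this
      rw [orth_polar] at this
      exact this⟩
    rw [hY, Submodule.mem_bot] at ha0
    rw [ha0, map_zero]
    exact zero_mem _
  · rintro _ ⟨a, ha, rfl⟩
    refine ⟨by rw [LinearEquiv.coe_coe, orth_polar]; exact (hYH a ha).1, ?_⟩
    rw [LinearEquiv.coe_coe, ← eich_conj]
    exact mul_mem (mul_mem hk (hYH a ha).2) (inv_mem hk)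

/-- The part of the root space in the complement of a pair. -/
def bar (H : Subgroup (orth Q)) {v v' : V} (h : HypPair Q v v') : Submodule F V :=
  rootSpace H h.left ⊓ pperp Q v v'

theorem sub_mem_bar {v v' : V} (h : HypPair Q v v') {a : V} (ha : a ∈ rootSpace H h.left) :
    a - polar Q v' a • v ∈ bar H h := by
  refine ⟨sub_mem ha (Submodule.smul_mem _ _ (self_mem_rootSpace h.left)), ?_⟩
  have := h.decomp a
  rwa [ha.1, zero_smul, sub_zero] at this

variable [Finite F] [FiniteDimensional F V]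

omit [Finite F] in
theorem exists_nondeg_bar {v v' : V} (h : HypPair Q v v') (hl : Large H v) :
    ∃ Y : Submodule F V, Y ⊓ perp Q Y = ⊥ ∧ finrank F V ≤ finrank F Y + 4 ∧ Y ≤ bar H h := by
  obtain ⟨Y, hY, hd, hYX⟩ := hl.exists_le
  let π : V →ₗ[F] V := LinearMap.id - (polarBilin Q v').smulRight v
  have hπ : ∀ a, π a = a - polar Q v' a • v := fun a => by simp [π]
  have hYv : ∀ a ∈ Y, polar Q v a = 0 := fun a ha => (hYX ha).1
  have hker : ∀ a ∈ Y, π a = 0 → a = 0 := fun a ha h0 => by
    have h1 : a ∈ Y ⊓ perp Q Y := ⟨ha, fun b hb => by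
      change polar Q b a = 0
      rw [hπ, sub_eq_zero] at h0
      rw [h0, polar_smul_right, polar_comm (⇑Q) b v, hYv b hb, smul_zero]⟩
    rwa [hY, Submodule.mem_bot] at h1
  refine ⟨Y.map π, ?_, ?_, ?_⟩
  · rw [eq_bot_iff]
    rintro _ ⟨⟨a, ha, rfl⟩, ha'⟩
    have h1 : a ∈ Y ⊓ perp Q Y := ⟨ha, fun b hb => by
      have := ha' _ ⟨b, hb, rfl⟩
      change polar Q (π b) (π a) = 0 at this
      simpa [hπ, polar_sub_left, polar_sub_right, polar_smul_left, polar_smul_right, hYv a ha,
        polar_comm (⇑Q) b v, hYv b hb, polar_self', h.left] using this⟩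
    rw [hY, Submodule.mem_bot] at h1
    rw [h1, map_zero]
    exact zero_mem _
  · refine hd.trans (Nat.add_le_add_right (le_of_eq ?_) 4)
    rw [← LinearMap.range_domRestrict, LinearMap.finrank_range_of_inj]
    intro a b hab
    refine Subtype.ext (sub_eq_zero.1 (hker _ (Y.sub_mem a.2 b.2) ?_))
    rw [map_sub, sub_eq_zero]
    exact hab
  · rintro _ ⟨a, ha, rfl⟩
    rw [hπ]
    exact sub_mem_bar h (hYX ha)

/-- An anisotropic common parameter identifies the two root spaces. -/
theorem bar_le_of_anisotropic {v v' : V} (h : HypPair Q v v') {y : V} (hy : y ∈ bar H h)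
    (hy' : y ∈ bar H h.symm) (hQy : Q y ≠ 0) : bar H h.symm ≤ bar H h := by
  intro w hw
  obtain ⟨hyX, hyW⟩ := hy
  obtain ⟨hw1, hw2⟩ := mem_pperp.1 hw.2
  obtain ⟨hy1, hy2⟩ := mem_pperp.1 hyW
  set k := eich Q v y * eich Q v' ((Q y)⁻¹ • y) * eich Q v y
  have hk : k ∈ H := mul_mem (mul_mem (rootSpace_eich _ hyX)
    (hy'.1.2 _)) (rootSpace_eich _ hyX)
  have hy1' : polar Q v' ((Q y)⁻¹ • y) = 0 := by rw [polar_smul_right, hy2, smul_zero]
  have hv'v : polar Q v' v = 1 := by rw [polar_comm, h.pair]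
  have kv : (k : V ≃ₗ[F] V) v' = (-Q y) • v := by
    simp only [k, orth_mul_apply, H5.eich_apply h.left hy1, H5.eich_apply h.right hy1',
      polar_add_right, polar_sub_right, polar_smul_right, polar_smul_left, polar_self',
      QuadraticMap.map_smul, h.left, h.right, h.pair, hv'v, hy1, hy2, polar_comm (⇑Q) y v,
      polar_comm (⇑Q) y v', smul_eq_mul]
    match_scalars <;> field_simp <;> ring
  have kw : (k : V ≃ₗ[F] V) w = (refl Q y : V ≃ₗ[F] V) w := by
    simp only [k, orth_mul_apply, H5.eich_apply h.left hy1, H5.eich_apply h.right hy1',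
      refl_apply, polar_add_right, polar_sub_right, polar_smul_right, polar_smul_left, polar_self',
      QuadraticMap.map_smul, h.left, h.right, h.pair, hv'v, hy1, hy2, hw1, hw2,
      polar_comm (⇑Q) y v, polar_comm (⇑Q) y v', smul_eq_mul]
    match_scalars <;> field_simp <;> ring
  have hqv : Q ((-Q y) • v) = 0 := by rw [QuadraticMap.map_smul, h.left, smul_zero]
  have h1 := rootSpace_map h.right hw.1 hk hqv kv
  rw [rootSpace_smul h.left (neg_ne_zero.2 hQy), kw, refl_apply] at h1
  have h2 : w ∈ rootSpace H h.left := by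
    have := Submodule.add_mem _ h1 (Submodule.smul_mem _ ((Q y)⁻¹ * polar Q y w) hyX)
    rwa [sub_add_cancel] at this
  exact ⟨h2, mem_pperp.2 ⟨hw2, hw1⟩⟩

/-- Both root spaces of a non-orthogonal pair of large points agree on the complement. -/
theorem bar_symm (hQ : (polarBilin Q).Nondegenerate) (hn : 7 ≤ finrank F V) {v v' : V}
    (h : HypPair Q v v') (hl : Large H v) (hl' : Large H v') : bar H h = bar H h.symm := by
  obtain ⟨Y, hY, hYd, hYX⟩ := exists_nondeg_bar h hl
  obtain ⟨Y', hY', hYd', hYX'⟩ := exists_nondeg_bar h.symm hl'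
  have hfin := h.finrank_pperp hQ
  have hle : bar H h.symm ≤ pperp Q v v' := fun x hx => by
    rw [mem_pperp]; exact ⟨(mem_pperp.1 hx.2).2, (mem_pperp.1 hx.2).1⟩
  have hI : bar H h ⊓ bar H h.symm ≠ ⊥ := by
    intro hb
    have h1 := Submodule.finrank_sup_add_finrank_inf_eq (bar H h) (bar H h.symm)
    have h2 := Submodule.finrank_mono
      (show bar H h ⊔ bar H h.symm ≤ pperp Q v v' from sup_le inf_le_right hle)
    have h3 := Submodule.finrank_mono hYX
    have h4 := Submodule.finrank_mono hYX'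
    rw [hb, finrank_bot] at h1
    omega
  by_cases hani : ∃ y ∈ bar H h ⊓ bar H h.symm, Q y ≠ 0
  · obtain ⟨y, ⟨hy, hy'⟩, hQy⟩ := hani
    exact le_antisymm (bar_le_of_anisotropic h.symm hy' hy hQy)
      (bar_le_of_anisotropic h hy hy' hQy)
  push Not at hani
  exfalso
  -- a common singular parameter lies in both radicals
  have hrad : ∀ (v v' : V) (h : HypPair Q v v'), Large H v' →
      (∀ y ∈ bar H h ⊓ bar H h.symm, Q y = 0) → ∀ x ∈ bar H h ⊓ bar H h.symm,
      ∀ w ∈ bar H h, polar Q x w = 0 := by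
    intro v v' h hl' hani x hx w hw
    by_contra hxw
    obtain ⟨Y', hY', hYd', hYX'⟩ := exists_nondeg_bar h.symm hl'
    have hQx := hani x hx
    obtain ⟨hx1, hx2⟩ := mem_pperp.1 hx.1.2
    have hsub : ∀ x' ∈ bar H h.symm, polar Q x x' = 0 → x' ∈ bar H h := by
      intro x' hx' hxx'
      obtain ⟨hp2, hp1⟩ := mem_pperp.1 hx'.2
      have hgv : (eich Q v x : V ≃ₗ[F] V) v' = v' + (1 : F) • x := by
        rw [H5.eich_apply h.left hx1, h.pair, polar_comm (⇑Q) x v', hx2, hQx]
        simp
      have hgx : (eich Q v x : V ≃ₗ[F] V) x' = x' := by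
        rw [H5.eich_apply h.left hx1, hp1, hxx']; simp
      have h1 : eich Q (v' + (1 : F) • x) x' ∈ H := by
        rw [show eich Q (v' + (1 : F) • x) x' = eich Q v x * eich Q v' x' * (eich Q v x)⁻¹ by
          rw [eich_conj, hgv, hgx]]
        exact mul_mem (mul_mem (rootSpace_eich _ hx.1.1) (rootSpace_eich _ hx'.1))
          (inv_mem (rootSpace_eich _ hx.1.1))
      rw [eich_add_left h.right hQx hx2 hp2 hxx', one_smul] at h1
      have h2 : eich Q x x' ∈ H := by
        have h3 := mul_mem (inv_mem (rootSpace_eich _ hx'.1)) h1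
        rw [inv_mul_cancel_left] at h3
        have h4 := mul_mem h3 (inv_mem (hx.2.1.2 (-(1 * Q x'))))
        rwa [mul_inv_cancel_right] at h4
      have hfix : (eich Q x x' : V ≃ₗ[F] V) v = v :=
        H5.eich_apply_of_ortho hQx hxx' (by rw [polar_comm, hx1]) (by rw [polar_comm, hp1])
      have h5 := rootSpace_map h.left hw.1 h2 h.left hfix
      rw [H5.eich_apply hQx hxx'] at h5
      have h6 : polar Q x w • x' ∈ rootSpace H h.left := by
        have := Submodule.add_mem _ (Submodule.sub_mem _ h5 hw.1)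
          (Submodule.smul_mem _ (polar Q x' w + Q x' * polar Q x w) hx.1.1)
        convert this using 1
        module
      exact ⟨(Submodule.smul_mem_iff _ hxw).1 h6, mem_pperp.2 ⟨hp1, hp2⟩⟩
    let T : Submodule F Y' :=
      (LinearMap.ker ((polarBilin Q x).domRestrict Y'))
    have hT : ∀ a : Y', a ∈ T → (Q.restrict Y') a = 0 := fun a ha =>
      hani (a : V) ⟨hsub _ (hYX' a.2) (LinearMap.mem_ker.1 ha), hYX' a.2⟩
    have h7 := H5.two_mul_finrank_le (H5.restrict_nondegenerate hY')
      (H5.le_perp_of_forall_eq_zero hT)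
    have h8 := LinearMap.finrank_range_add_finrank_ker ((polarBilin Q x).domRestrict Y')
    have h9 := Submodule.finrank_le (LinearMap.range ((polarBilin Q x).domRestrict Y'))
    rw [finrank_self] at h9
    change _ + finrank F T = _ at h8
    omega
  obtain ⟨x, hx, hx0⟩ := Submodule.exists_mem_ne_zero_of_ne_bot hI
  have r1 := hrad v v' h hl' hani x hx
  have r2 := hrad v' v h.symm hl (fun y hy => hani y ⟨hy.2, hy.1⟩) x ⟨hx.2, hx.1⟩
  set S := perp Q (Submodule.span F {v} ⊔ Submodule.span F {v'} ⊔ Submodule.span F {x})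
  have hxW : x ∈ pperp Q v v' := hx.1.2
  have hxnot : x ∉ Submodule.span F {v} ⊔ Submodule.span F {v'} := fun hm => by
    have : x ∈ pperp Q v v' ⊓ perp Q (pperp Q v v') := ⟨hxW, fun w hw => by
      change polar Q w x = 0
      rw [polar_comm]
      exact hw x hm⟩
    rw [h.inf_perp hQ, Submodule.mem_bot] at this
    exact hx0 this
  have hSd : finrank F S + 3 = finrank F V := by
    have := H5.finrank_perp_add hQ
      (Submodule.span F {v} ⊔ Submodule.span F {v'} ⊔ Submodule.span F {x})
    rwa [Submodule.finrank_sup_span_singleton hxnot,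
      Submodule.finrank_sup_span_singleton h.not_mem, finrank_span_singleton h.ne_zero] at this
  have hS : ∀ a, a ∈ pperp Q v v' → polar Q x a = 0 → a ∈ S := fun a ha hxa => by
    change a ∈ perp Q _
    rw [H5.perp_sup, Submodule.mem_inf, H5.mem_perp_span]
    exact ⟨ha, hxa⟩
  have eqS : ∀ (B Y : Submodule F V), B ≤ S → x ∈ B → (∀ w ∈ B, polar Q x w = 0) → Y ≤ B →
      Y ⊓ perp Q Y = ⊥ → finrank F V ≤ finrank F Y + 4 → B = S := by
    intro B Y hBS hxB hxr hYB hY hYd
    refine Submodule.eq_of_le_of_finrank_le hBS ?_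
    have hlt : Y < B := lt_of_le_of_ne hYB fun he => hx0 (by
      have : x ∈ Y ⊓ perp Q Y := ⟨he ▸ hxB, fun b hb => by
        change polar Q b x = 0
        rw [polar_comm]; exact hxr b (hYB hb)⟩
      rwa [hY, Submodule.mem_bot] at this)
    have := Submodule.finrank_lt_finrank_of_lt hlt
    omega
  have e1 := eqS (bar H h) Y (fun a ha => hS a ha.2 (r1 a ha)) hx.1 r1 hYX hY hYd
  have e2 := eqS (bar H h.symm) Y' (fun a ha => hS a (hle ha) (r2 a ha)) hx.2 r2 hYX' hY' hYd'
  obtain ⟨a, ha, hQa⟩ := H5.exists_anisotropic hY (by omega)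
  exact hQa (hani a ⟨hYX ha, by rw [e2, ← e1]; exact hYX ha⟩)

/-- The subspace spanned by a pair and the common root space. -/
def hull (H : Subgroup (orth Q)) {v v' : V} (h : HypPair Q v v') : Submodule F V :=
  Submodule.span F {v} ⊔ Submodule.span F {v'} ⊔ bar H h

omit [Finite F] [FiniteDimensional F V] in
theorem left_mem_hull {v v' : V} (h : HypPair Q v v') : v ∈ hull H h :=
  Submodule.mem_sup_left (Submodule.mem_sup_left (Submodule.mem_span_singleton_self v))

omit [Finite F] [FiniteDimensional F V] in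
theorem right_mem_hull {v v' : V} (h : HypPair Q v v') : v' ∈ hull H h :=
  Submodule.mem_sup_left (Submodule.mem_sup_right (Submodule.mem_span_singleton_self v'))

omit [Finite F] [FiniteDimensional F V] in
theorem bar_le_hull {v v' : V} (h : HypPair Q v v') : bar H h ≤ hull H h := le_sup_right

variable [Finite V]

omit [Finite F] [Finite V] in
theorem finrank_hull (hQ : (polarBilin Q).Nondegenerate) {v v' : V} (h : HypPair Q v v') :
    finrank F (bar H h) + 2 ≤ finrank F (hull H h) := by
  have h1 := Submodule.finrank_sup_add_finrank_inf_eq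
    (Submodule.span F {v} ⊔ Submodule.span F {v'}) (bar H h)
  have h2 : (Submodule.span F {v} ⊔ Submodule.span F {v'}) ⊓ bar H h = ⊥ := by
    rw [eq_bot_iff, ← h.inf_perp hQ]
    rintro p ⟨hp, hpb⟩
    exact ⟨hpb.2, fun w hw => by
      change polar Q w p = 0
      rw [polar_comm]; exact hw p hp⟩
  rw [h2, finrank_bot, add_zero, Submodule.finrank_sup_span_singleton h.not_mem,
    finrank_span_singleton h.ne_zero] at h1
  rw [hull, h1]
  omega

/-- A large point not orthogonal to the first point of a pair lies in the hull. -/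
theorem mem_hull_of_nonorth (hQ : (polarBilin Q).Nondegenerate) (hn : 7 ≤ finrank F V) {v v' : V}
    (h : HypPair Q v v') (hl : Large H v) (hl' : Large H v') {z : V} (hz : Large H z)
    (hvz : polar Q v z ≠ 0) : z ∈ hull H h := by
  suffices ∀ z, Large H z → polar Q v z = 1 → z ∈ hull H h by
    have h1 := this ((polar Q v z)⁻¹ • z) (hz.smul (inv_ne_zero hvz))
      (by rw [polar_smul_right, smul_eq_mul, inv_mul_cancel₀ hvz])
    exact (Submodule.smul_mem_iff _ (inv_ne_zero hvz)).1 h1
  clear hz hvz z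
  obtain ⟨Y, hY, hYd, hYX⟩ := exists_nondeg_bar h hl
  have hbar := bar_symm hQ hn h hl hl'
  -- parameters with non-zero norm and non-trivial pairing
  have key : ∀ w ∈ pperp Q v v', Q w ≠ 0 → (∃ x ∈ bar H h, polar Q w x ≠ 0) →
      Large H ((eich Q v w : V ≃ₗ[F] V) v') → w ∈ bar H h := by
    intro w hw hQw ⟨x, hx, hwx⟩ hz
    rw [H4.eich_apply_partner h hw] at hz
    set z := v' + w - Q w • v with hzd
    obtain ⟨hw1, hw2⟩ := mem_pperp.1 hw
    obtain ⟨hx1, hx2⟩ := mem_pperp.1 hx.2
    have hv'v : polar Q v' v = 1 := by rw [polar_comm, h.pair]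
    have hvz : polar Q v z = 1 := by
      simp [hzd, polar_add_right, polar_sub_right, polar_smul_right, polar_self', h.left, h.pair,
        hw1]
    have hv'z : polar Q v' z = -Q w := by
      simp [hzd, polar_add_right, polar_sub_right, polar_smul_right, polar_self', h.right, hv'v,
        hw2]
    have hzx : polar Q z x = polar Q w x := by
      simp [hzd, polar_add_left, polar_sub_left, polar_smul_left, hx1, hx2]
    have hp : HypPair Q v z := ⟨h.left, hz.2.1, hvz⟩
    have h2 : Q ((-Q w)⁻¹ • z) = 0 := by rw [QuadraticMap.map_smul, hz.2.1, smul_zero]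
    have hp' : HypPair Q v' ((-Q w)⁻¹ • z) :=
      ⟨h.right, h2, by rw [polar_smul_right, hv'z, smul_eq_mul,
        inv_mul_cancel₀ (neg_ne_zero.2 hQw)]⟩
    have eq1 := bar_symm hQ hn hp hl hz
    have eq2 := bar_symm hQ hn hp' hl' (hz.smul (inv_ne_zero (neg_ne_zero.2 hQw)))
    have ha : x - polar Q w x • v ∈ rootSpace H hz.2.1 := by
      have : x - polar Q w x • v ∈ bar H hp :=
        ⟨sub_mem hx.1 (Submodule.smul_mem _ _ (self_mem_rootSpace h.left)), by
          refine mem_pperp.2 ⟨?_, ?_⟩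
          · simp [polar_sub_right, polar_smul_right, polar_self', h.left, hx1]
          · simp [polar_sub_right, polar_smul_right, polar_comm (⇑Q) z v, hvz, hzx]⟩
      rw [eq1] at this
      exact this.1
    have hb : x + (polar Q w x / Q w) • v' ∈ rootSpace H hz.2.1 := by
      have : x + (polar Q w x / Q w) • v' ∈ bar H hp' :=
        ⟨add_mem (hbar.le hx).1 (Submodule.smul_mem _ _ (self_mem_rootSpace h.right)), by
          refine mem_pperp.2 ⟨?_, ?_⟩
          · simp [polar_add_right, polar_smul_right, polar_self', h.right, hx2]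
          · simp [polar_add_right, polar_smul_left, polar_smul_right, polar_comm (⇑Q) z v', hv'z,
              hzx]
            field_simp
            ring⟩
      rw [eq2] at this
      have := this.1
      rwa [rootSpace_smul hz.2.1 (inv_ne_zero (neg_ne_zero.2 hQw))] at this
    have he : v' + Q w • v ∈ rootSpace H hz.2.1 := by
      have h3 := Submodule.smul_mem _ (Q w / polar Q w x) (sub_mem hb ha)
      convert h3 using 1
      match_scalars <;> field_simp <;> ring
    have h4 : v' + Q w • v - z ∈ bar H hp.symm := by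
      have h5 := sub_mem_bar hp.symm he
      rwa [show polar Q v (v' + Q w • v) = 1 by
        simp [polar_add_right, polar_smul_right, polar_self', h.left, h.pair], one_smul] at h5
    rw [← eq1] at h4
    have h6 := Submodule.sub_mem _ (Submodule.smul_mem _ (2 * Q w) (self_mem_rootSpace h.left)) h4.1
    refine ⟨?_, hw⟩
    have e : (2 * Q w) • v - (v' + Q w • v - z) = w := by rw [hzd]; module
    rw [e] at h6
    exact h6
  intro z hz hvz
  obtain ⟨w, hw, hwz⟩ := H5.exists_eich_map h (⟨h.left, hz.2.1, hvz⟩ : HypPair Q v z)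
  suffices hwb : w ∈ bar H h by
    rw [← hwz, H4.eich_apply_partner h hw]
    exact sub_mem (add_mem (right_mem_hull h) (bar_le_hull h hwb))
      (Submodule.smul_mem _ _ (left_mem_hull h))
  have shift : ∀ x ∈ bar H h, Large H ((eich Q v (w + x) : V ≃ₗ[F] V) v') := fun x hx => by
    rw [add_comm, ← eich_mul h.left (mem_pperp.1 hx.2).1 (mem_pperp.1 hw).1, orth_mul_apply, hwz]
    exact hz.map (rootSpace_eich _ hx.1)
  obtain ⟨x₁, hx₁, hq₁⟩ : ∃ x ∈ bar H h, Q (w + x) ≠ 0 := by
    by_contra! hall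
    have h0 := hall 0 (zero_mem _)
    rw [add_zero] at h0
    have hlin : ∀ x ∈ bar H h, Q x = -polar Q w x := fun x hx => by
      have := hall x hx
      rw [QuadraticMap.map_add (⇑Q), h0, zero_add] at this
      exact eq_neg_of_add_eq_zero_left this
    obtain ⟨a, ha, hQa⟩ := H5.exists_anisotropic hY (by omega)
    have : a ∈ Y ⊓ perp Q Y := ⟨ha, fun b hb => by
      change polar Q b a = 0
      rw [polar, hlin _ (add_mem (hYX hb) (hYX ha)), hlin _ (hYX ha), hlin _ (hYX hb),
        polar_add_right]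
      ring⟩
    rw [hY, Submodule.mem_bot] at this
    exact hQa (by rw [this, QuadraticMap.map_zero])
  set w₁ := w + x₁
  have hw₁ : w₁ ∈ pperp Q v v' := add_mem hw hx₁.2
  suffices hwb : w₁ ∈ bar H h by
    have := sub_mem hwb hx₁
    rwa [add_sub_cancel_right] at this
  by_cases hex : ∃ x ∈ bar H h, polar Q w₁ x ≠ 0
  · exact key w₁ hw₁ hq₁ hex (shift x₁ hx₁)
  push Not at hex
  obtain ⟨x₀, hx₀, y₀, hy₀, hp₀⟩ := exists_pair_in hY (by omega)
  have hq : Q (w₁ + x₀) ≠ 0 := by
    rwa [QuadraticMap.map_add (⇑Q), hp₀.left, hex _ (hYX hx₀), add_zero, add_zero]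
  have h7 := key (w₁ + x₀) (add_mem hw₁ (hYX hx₀).2) hq ⟨y₀, hYX hy₀, by
    rw [polar_add_left, hex _ (hYX hy₀), hp₀.pair, zero_add]
    exact one_ne_zero⟩ (by
      rw [add_assoc]; exact shift _ (add_mem hx₁ (hYX hx₀)))
  have := sub_mem h7 (hYX hx₀)
  rwa [add_sub_cancel_right] at this

theorem hull_symm (hQ : (polarBilin Q).Nondegenerate) (hn : 7 ≤ finrank F V) {v v' : V}
    (h : HypPair Q v v') (hl : Large H v) (hl' : Large H v') : hull H h.symm = hull H h := by
  rw [hull, hull, ← bar_symm hQ hn h hl hl', sup_comm (Submodule.span F {v'})]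

/-- Every large point lies in the hull or in its perp. -/
theorem mem_hull_or_perp (hQ : (polarBilin Q).Nondegenerate) (hn : 7 ≤ finrank F V) {v v' : V}
    (h : HypPair Q v v') (hl : Large H v) (hl' : Large H v') {z : V} (hz : Large H z) :
    z ∈ hull H h ∨ z ∈ perp Q (hull H h) := by
  by_cases h1 : polar Q v z = 0
  swap
  · exact Or.inl (mem_hull_of_nonorth hQ hn h hl hl' hz h1)
  by_cases h2 : polar Q v' z = 0
  swap
  · exact Or.inl (hull_symm hQ hn h hl hl' ▸ mem_hull_of_nonorth hQ hn h.symm hl' hl hz h2)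
  by_cases h3 : ∀ x ∈ bar H h, polar Q x z = 0
  · right
    rw [hull, H5.perp_sup, H5.perp_sup]
    exact ⟨⟨H5.mem_perp_span.2 h1, H5.mem_perp_span.2 h2⟩, h3⟩
  push Not at h3
  obtain ⟨x, hx, hxz⟩ := h3
  left
  have hx' : polar Q v' x = 0 := (mem_pperp.1 hx.2).2
  have hg : eich Q v' x ∈ H := rootSpace_eich _ ((bar_symm hQ hn h hl hl').le hx).1
  have he : (eich Q v' x : V ≃ₗ[F] V) z = z - polar Q x z • v' := by
    rw [H5.eich_apply h.right hx', h2]; simp
  have h4 := mem_hull_of_nonorth hQ hn h hl hl' (hz.map hg) (by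
    rw [he, polar_sub_right, polar_smul_right, h1, h.pair, smul_eq_mul, mul_one, zero_sub]
    exact neg_ne_zero.2 hxz)
  rw [he] at h4
  have := add_mem h4 (Submodule.smul_mem _ (polar Q x z) (right_mem_hull (H := H) h))
  rwa [sub_add_cancel] at this

/-- The hull does not depend on the pair. -/
theorem hull_le_hull (hQ : (polarBilin Q).Nondegenerate) (hn : 7 ≤ finrank F V) {v v' a a' : V}
    (h : HypPair Q v v') (hl : Large H v) (hl' : Large H v') (k : HypPair Q a a')
    (ka : Large H a) (ka' : Large H a') : hull H h ≤ hull H k := by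
  set U := hull H k
  have side : ∀ z, Large H z → z ∈ U ∨ z ∈ perp Q U := fun z hz =>
    mem_hull_or_perp hQ hn k ka ka' hz
  obtain ⟨Y, hY, hYd, hYX⟩ := exists_nondeg_bar h hl
  obtain ⟨Y₁, hY₁, hYd₁, hYX₁⟩ := exists_nondeg_bar k ka
  -- a side containing the second point contains the hull
  have main : ∀ S S' : Submodule F V, (∀ a ∈ S, ∀ b ∈ S', polar Q a b = 0) →
      (∀ z, Large H z → z ∈ S ∨ z ∈ S') → v' ∈ S → hull H h ≤ S := by
    intro S S' hort hside hvS
    have big : ∀ z, Large H z → polar Q v' z ≠ 0 → z ∈ S := fun z hz hne =>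
      (hside z hz).resolve_right fun hz' => hne (hort _ hvS _ hz')
    have hv : v ∈ S := big v hl (by rw [polar_comm, h.pair]; exact one_ne_zero)
    refine sup_le (sup_le ((Submodule.span_singleton_le_iff_mem _ _).2 hv)
      ((Submodule.span_singleton_le_iff_mem _ _).2 hvS)) fun x hx => ?_
    have hx' := (mem_pperp.1 hx.2).2
    have hg : eich Q v' x ∈ H := rootSpace_eich _ ((bar_symm hQ hn h hl hl').le hx).1
    have he : (eich Q v' x : V ≃ₗ[F] V) v = v + x - Q x • v' :=
      H4.eich_apply_partner h.symm (by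
        rw [mem_pperp]; exact ⟨hx', (mem_pperp.1 hx.2).1⟩)
    have h1 := big _ (hl.map hg) (by
      rw [he, polar_sub_right, polar_add_right, polar_smul_right, polar_comm (⇑Q) v' v, h.pair,
        hx', polar_self', h.right]
      simp)
    rw [he] at h1
    have := sub_mem (add_mem h1 (S.smul_mem (Q x) hvS)) hv
    rwa [sub_add_cancel, add_sub_cancel_left] at this
  rcases side v' hl' with hs | hs
  · exact main U (perp Q U) (fun a ha b hb => hb a ha) side hs
  · exfalso
    have h1 := Submodule.finrank_mono (main (perp Q U) U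
      (fun a ha b hb => by rw [polar_comm]; exact ha b hb) (fun z hz => (side z hz).symm) hs)
    have h2 := H5.finrank_perp_add hQ U
    have h3 := (Submodule.finrank_mono hYX₁).trans' le_rfl
    have h4 := Submodule.finrank_mono hYX
    have h5 := finrank_hull hQ h (H := H)
    have h6 : finrank F (bar H k) + 2 ≤ finrank F U := finrank_hull hQ k
    omega

/-- A subgroup with a large point stabilises a small or totally singular subspace. -/
theorem exists_invariant_of_large (hQ : (polarBilin Q).Nondegenerate) (hn : 7 ≤ finrank F V)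
    (hH : H ≤ eichGroup Q) (hne : H ≠ eichGroup Q) {v₀ : V} (hv₀ : Large H v₀) :
    ∃ S : Submodule F V, S ≠ ⊥ ∧ (∀ g ∈ H, ∀ x ∈ S, (g : V ≃ₗ[F] V) x ∈ S) ∧
      ((∀ x ∈ S, Q x = 0) ∨ finrank F S ≤ 2) := by
  by_cases hpair : ∀ a b, Large H a → Large H b → polar Q a b = 0
  · refine ⟨Submodule.span F {a | Large H a}, fun hb => hv₀.1 ?_, fun g hg x hx => ?_,
      Or.inl fun x hx => ?_⟩
    · have : v₀ ∈ Submodule.span F {a | Large H a} := Submodule.subset_span hv₀
      rwa [hb, Submodule.mem_bot] at this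
    · have h1 : (Submodule.span F {a | Large H a}).map ((g : V ≃ₗ[F] V) : V →ₗ[F] V) ≤
          Submodule.span F {a | Large H a} := by
        rw [Submodule.map_span]
        refine Submodule.span_mono ?_
        rintro _ ⟨a, ha, rfl⟩
        exact ha.map hg
      exact h1 ⟨x, hx, rfl⟩
    · induction hx using Submodule.span_induction with
      | mem a ha => exact ha.2.1
      | zero => exact QuadraticMap.map_zero Q
      | add a b ha hb h1 h2 =>
        have hab : polar Q a b = 0 := by
          refine H4.polar_eq_zero_of_mem_span (fun c hc => ?_) ha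
          rw [polar_comm]
          exact H4.polar_eq_zero_of_mem_span (fun d hd => hpair d c hd hc) hb
        rw [QuadraticMap.map_add (⇑Q), h1, h2, hab, add_zero, add_zero]
      | smul c a _ h1 => rw [QuadraticMap.map_smul, h1, smul_zero]
  push Not at hpair
  obtain ⟨v, b, hl, hb, hvb⟩ := hpair
  set v' := (polar Q v b)⁻¹ • b
  have hl' : Large H v' := hb.smul (inv_ne_zero hvb)
  have h : HypPair Q v v' := ⟨hl.2.1, hl'.2.1, by
    rw [polar_smul_right, smul_eq_mul, inv_mul_cancel₀ hvb]⟩
  set U := hull H h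
  obtain ⟨Y, hY, hYd, hYX⟩ := exists_nondeg_bar h hl
  have hinv : ∀ g ∈ H, ∀ x ∈ U, (g : V ≃ₗ[F] V) x ∈ U := by
    intro g hg x hx
    have k : HypPair Q ((g : V ≃ₗ[F] V) v) ((g : V ≃ₗ[F] V) v') :=
      ⟨by rw [orth_map, h.left], by rw [orth_map, h.right], by rw [orth_polar, h.pair]⟩
    refine hull_le_hull hQ hn k (hl.map hg) (hl'.map hg) h hl hl' ?_
    obtain ⟨p, hp, c, hc, rfl⟩ := Submodule.mem_sup.1 hx
    obtain ⟨p₁, hp₁, p₂, hp₂, rfl⟩ := Submodule.mem_sup.1 hp
    obtain ⟨s, rfl⟩ := Submodule.mem_span_singleton.1 hp₁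
    obtain ⟨t, rfl⟩ := Submodule.mem_span_singleton.1 hp₂
    simp only [map_add, map_smul]
    refine add_mem (add_mem (Submodule.smul_mem _ _ (left_mem_hull k))
      (Submodule.smul_mem _ _ (right_mem_hull k))) (bar_le_hull k ⟨?_, ?_⟩)
    · exact rootSpace_map h.left hc.1 hg k.left rfl
    · exact mem_pperp.2 ⟨by rw [orth_polar]; exact (mem_pperp.1 hc.2).1,
        by rw [orth_polar]; exact (mem_pperp.1 hc.2).2⟩
  refine ⟨perp Q U, fun hb0 => hne ?_, fun g hg x hx y hy => ?_, Or.inr ?_⟩
  · have hU : ∀ x, x ∈ U := fun x => by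
      rw [← H5.perp_perp hQ U, hb0]
      exact fun w hw => by
        rw [Submodule.mem_bot] at hw
        rw [hw]
        exact polar_zero_left Q x
    have hbarall : pperp Q v v' ≤ bar H h := by
      intro x hx
      obtain ⟨p, hp, c, hc, rfl⟩ := Submodule.mem_sup.1 (hU x)
      have hp0 : p ∈ pperp Q v v' ⊓ perp Q (pperp Q v v') := ⟨by
        have := sub_mem hx hc.2
        rwa [add_sub_cancel_right] at this, fun w hw => by
        change polar Q w p = 0
        rw [polar_comm]; exact hw p hp⟩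
      rw [h.inf_perp hQ, Submodule.mem_bot] at hp0
      rw [hp0, zero_add]
      exact hc
    refine le_antisymm hH (H5.eichGroup_le_of_root_groups hQ (by omega) h
      (fun a ha => rootSpace_eich _ (hbarall ha).1)
      (fun a ha => rootSpace_eich _ ((bar_symm hQ hn h hl hl').le (hbarall ha)).1))
  · change polar Q y ((g : V ≃ₗ[F] V) x) = 0
    have h1 : y = (g : V ≃ₗ[F] V) (((g⁻¹ : orth Q) : V ≃ₗ[F] V) y) :=
      (H5.orth_apply_inv_apply g y).symm
    rw [h1, orth_polar]
    exact hx _ (hinv _ (inv_mem hg) y hy)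
  · have h1 := H5.finrank_perp_add hQ U
    have h2 := finrank_hull hQ h (H := H)
    change finrank F (bar H h) + 2 ≤ finrank F U at h2
    have := Submodule.finrank_mono hYX
    omega

end Cfsg.Agent.H3.OIdx
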