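import Cfsg.Agent.H3.OIdx.Local
import Cfsg.Agent.H3.OIdx.Geometry
import Cfsg.Agent.H3.OIdx.Counts

/-!
The lower bound for the index of proper subgroups of `PΩ`, modulo the exceptional configuration,
and point stabilisers attaining it.
-/

set_option autoImplicit false

namespace Cfsg.Agent.H3.OIdx

open QuadraticMap hiding sq
open Module
open Cfsg.Agent.H5 (orth eichGroup)
open Cfsg.Agent.H4 (subspaceOrbit singularPoints subStab subPerm)

/-- The hypotheses on a candidate for the minimal index. -/
structure IdxHyp {F V : Type*} [Field F] [AddCommGroup V] [Module F V] (Q : QuadraticForm F V)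
    (B : ℕ) : Prop where
  nondeg : (polarBilin Q).Nondegenerate
  seven_le : 7 ≤ finrank F V
  even : (2 : F) = 0 → Even (finrank F V)
  le_points : B ≤ (singularPoints Q).ncard
  le_four : ∀ R : Submodule F V, (∀ x ∈ R, Q x = 0) → finrank F V = 8 → finrank F R = 4 →
    B ≤ (subspaceOrbit Q R).ncard
  le_norm : ∀ c : F, c ≠ 0 → B * signs F ≤ (normSet Q c).ncard
  le_pow : B ≤ (Nat.card F + 2) * Nat.card F ^ (finrank F V - 3)

variable {F V : Type*} [Field F] [Finite F] [AddCommGroup V] [Module F V] [FiniteDimensional F V]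
  [Finite V] {Q : QuadraticForm F V} {B : ℕ}

theorem IdxHyp.le_of_large (h : IdxHyp Q B) {H : Subgroup (orth Q)} (hH : H ≤ eichGroup Q)
    (hne : H ≠ eichGroup Q) {v : V} (hv : Large H v) : B ≤ H.relIndex (eichGroup Q) := by
  obtain ⟨S, hS0, hS, hsmall⟩ := exists_invariant_of_large h.nondeg h.seven_le hH hne hv
  exact bound_of_invariant h.nondeg h.seven_le h.even h.le_points h.le_four h.le_norm h.le_pow hH
    hS0 hS hsmall

theorem cj_ne {H : Subgroup (orth Q)} (hne : H ≠ eichGroup Q) (x : orth Q) :
    cj H x ≠ eichGroup Q := fun h =>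
  hne (Subgroup.map_injective (f := (MulAut.conj x).toMonoidHom) (MulAut.conj x).injective
    (h.trans (cj_eichGroup x).symm))

/-- The lower bound inside `Ω`, modulo the exceptional configuration. -/
theorem IdxHyp.le_relIndex (h : IdxHyp Q B) {H : Subgroup (orth Q)} (hH : H ≤ eichGroup Q)
    (hne : H ≠ eichGroup Q)
    (hexc : ∀ x ∈ eichGroup Q, Exc (cj H x) → B ≤ H.relIndex (eichGroup Q)) :
    B ≤ H.relIndex (eichGroup Q) := by
  rcases bound_or_good h.nondeg h.seven_le hH hne with hb | ⟨x, hx, ⟨v, hv⟩ | he⟩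
  · exact h.le_pow.trans hb
  · have := h.le_of_large (cj_le hH x) (cj_ne hne x) hv
    rwa [relIndex_cj] at this
  · exact hexc x hx he

omit [Finite F] [Finite V] [FiniteDimensional F V] in
/-- Elements of `Ω` commuting with all of `Ω`, as scalars. -/
theorem scalar_fix {g : orth Q} (hg : H5.IsScalar g) (S : Submodule F V) {x : V} (hx : x ∈ S) :
    (g : V ≃ₗ[F] V) x ∈ S := by
  obtain ⟨t, ht⟩ := hg
  rw [ht]
  exact S.smul_mem t hx

/-- A subgroup of `Ω` modulo its centre gives one of `Ω` of the same index containing the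
centre. -/
theorem exists_lift (hQ : (polarBilin Q).Nondegenerate) (hn : 5 ≤ finrank F V)
    {H : Subgroup (commutator (orth Q) ⧸ Subgroup.center (commutator (orth Q)))} (hH : H ≠ ⊤) :
    ∃ K : Subgroup (orth Q), K ≤ eichGroup Q ∧ K ≠ eichGroup Q ∧
      K.relIndex (eichGroup Q) = H.index ∧
      ∀ g : commutator (orth Q), (g : orth Q) ∈ K ↔
        (QuotientGroup.mk g : commutator (orth Q) ⧸ Subgroup.center (commutator (orth Q))) ∈ H := by
  have hG := H5.commutator_eq_eichGroup hQ (by omega) (std (F := F) hn)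
  set π := QuotientGroup.mk' (Subgroup.center (commutator (orth Q)))
  set K₀ := H.comap π
  refine ⟨K₀.map (commutator (orth Q)).subtype, ?_, ?_, ?_, fun g => ?_⟩
  · rw [← hG]; exact Subgroup.map_subtype_le K₀
  · intro he
    refine hH ?_
    have h1 : K₀ = ⊤ := eq_top_iff.2 fun g _ => by
      have hg : (g : orth Q) ∈ K₀.map (commutator (orth Q)).subtype := by
        rw [he, ← hG]; exact g.2
      obtain ⟨g', hg', hgg⟩ := hg
      rwa [← Subtype.ext hgg]
    exact Subgroup.comap_injective (QuotientGroup.mk'_surjective _)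
      (h1.trans (Subgroup.comap_top _).symm)
  · rw [← hG, Subgroup.relIndex,
      show (K₀.map (commutator (orth Q)).subtype).subgroupOf (commutator (orth Q)) = K₀ from
        Subgroup.comap_map_eq_self_of_injective Subtype.val_injective K₀]
    exact Subgroup.index_comap_of_surjective _ (QuotientGroup.mk'_surjective _)
  · constructor
    · rintro ⟨g', hg', he⟩
      rwa [← Subtype.ext he]
    · exact fun hg => ⟨g, hg, rfl⟩

/-- The stabiliser of a subspace gives a subgroup whose index is the orbit size. -/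
theorem exists_index_eq_orbit (hQ : (polarBilin Q).Nondegenerate) (hn : 5 ≤ finrank F V)
    (S : Submodule F V) :
    ∃ H : Subgroup (commutator (orth Q) ⧸ Subgroup.center (commutator (orth Q))),
      H.index = (subspaceOrbit Q S).ncard := by
  have hG := H5.commutator_eq_eichGroup hQ (by omega) (std (F := F) hn)
  set π := QuotientGroup.mk' (Subgroup.center (commutator (orth Q)))
  set K₀ := (subStab Q S).subgroupOf (commutator (orth Q))
  refine ⟨K₀.map π, ?_⟩
  rw [← relIndex_subStab, ← hG, Subgroup.relIndex,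
    ← Subgroup.index_comap_of_surjective _ (QuotientGroup.mk'_surjective
      (Subgroup.center (commutator (orth Q)))), Subgroup.comap_map_eq_self]
  intro g hg
  rw [QuotientGroup.ker_mk'] at hg
  have hs := (H5.mem_center_iff hQ (by omega) (std (F := F) hn)).1 hg
  exact ⟨hG ▸ g.2, H5.map_eq_of_forall_mem fun x hx => scalar_fix hs S hx⟩

/-- The minimal index statement for a model of `PΩ`. -/
theorem min_index_model {F : Type*} [Field F] [Finite F] {ι : Type} [Fintype ι] [DecidableEq ι]
    (Q : QuadraticForm F (ι → F)) {f : (ι → F) → F} (hf : ⇑Q = f) {B : ℕ} (h : IdxHyp Q B)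
    (hexc : ∀ K : Subgroup (orth Q), K ≤ eichGroup Q → K ≠ eichGroup Q →
      (∀ g : commutator (orth Q), g ∈ Subgroup.center (commutator (orth Q)) → (g : orth Q) ∈ K) →
      ∀ x ∈ eichGroup Q, Exc (cj K x) → B ≤ K.relIndex (eichGroup Q))
    (S : Submodule F (ι → F)) (hS : (subspaceOrbit Q S).ncard = B) :
    (∀ H : Subgroup (Cfsg.POmega F f), H ≠ ⊤ → B ≤ H.index) ∧
      ∃ H : Subgroup (Cfsg.POmega F f), H.index = B := by
  haveI : Finite (ι → F) := Pi.finite
  set e := H5.pomegaEquiv Q hf
  refine ⟨fun H hH => ?_, ?_⟩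
  · have hH' : H.map e.toMonoidHom ≠ ⊤ := fun he => hH
      (Subgroup.map_injective (f := e.toMonoidHom) e.injective
        (he.trans (Subgroup.map_top_of_surjective _ e.surjective).symm))
    obtain ⟨K, hK, hKne, hKi, hKm⟩ := exists_lift h.nondeg (by have := h.seven_le; omega) hH'
    rw [← H.index_map_equiv e]
    refine le_of_le_of_eq (h.le_relIndex hK hKne (hexc K hK hKne fun g hg => (hKm g).2 ?_)) hKi
    rw [(QuotientGroup.eq_one_iff g).2 hg]
    exact one_mem _
  · obtain ⟨H, hH⟩ := exists_index_eq_orbit h.nondeg (by have := h.seven_le; omega) S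
    refine ⟨H.map e.symm.toMonoidHom, ?_⟩
    rw [← hS, ← hH]
    exact H.index_map_equiv e.symm

end Cfsg.Agent.H3.OIdx
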