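import Cfsg.Agent.H3.OIdx.TauRoot
import Cfsg.Agent.H3.OIdx.Main

/-!
Dimension eight of plus type: triality sends the exceptional configuration to a large point, and
stabilisers of totally singular four-spaces to point stabilisers.
-/

set_option autoImplicit false

namespace Cfsg.Agent.H3.OIdx

open QuadraticMap hiding sq
open Module
open Cfsg.Agent.H5 (orth eich eichGroup eich_mem_eichGroup leftSpace mem_leftSpace orth_mul_apply)
open Cfsg.Agent.H4 (qPlus piQ subspaceOrbit singularPoints subStab rootGroup rootImage)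
open Cfsg.Agent.H4.Oct (O tau formHyp_qPlus_four finrank_O)

variable {F : Type*} [Field F] [Fintype F]

local notation "Q₈" => qPlus 4 F

theorem omega_eight : commutator (orth Q₈) = eichGroup Q₈ := formHyp_qPlus_four.omega_eq

/-- An Eichler transformation as an element of `Ω`. -/
noncomputable def eo (e a : O F) : commutator (orth Q₈) :=
  ⟨eich Q₈ e a, omega_eight.ge (eich_mem_eichGroup _ _)⟩

theorem tau_eo {e a : O F} (he : e ∈ leftSpace F 4) (ha : a ∈ leftSpace F 4) :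
    tau (piQ Q₈ (eo e a)) = piQ Q₈ (eo (pt F) (plucker e a)) :=
  tau_eich_left he ha _ _ rfl rfl

/-- Central elements lie in every conjugate. -/
theorem center_mem_cj {K : Subgroup (orth Q₈)}
    (hK : ∀ g : commutator (orth Q₈), g ∈ Subgroup.center (commutator (orth Q₈)) →
      (g : orth Q₈) ∈ K) (y : orth Q₈) {g : commutator (orth Q₈)}
    (hg : g ∈ Subgroup.center (commutator (orth Q₈))) : (g : orth Q₈) ∈ cj K y := by
  obtain ⟨t, -, ht⟩ := formHyp_qPlus_four.center_scalar hg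
  rw [mem_cj]
  convert hK g hg using 1
  refine H5.orth_ext fun v => ?_
  rw [orth_mul_apply, orth_mul_apply, ht, ht, map_smul, H5.orth_inv_apply_apply]

/-- The triality image of a subgroup. -/
theorem exists_transfer {K : Subgroup (orth Q₈)} (hK : K ≤ eichGroup Q₈)
    (hKc : ∀ g : commutator (orth Q₈), g ∈ Subgroup.center (commutator (orth Q₈)) →
      (g : orth Q₈) ∈ K) :
    ∃ K' : Subgroup (orth Q₈), K' ≤ eichGroup Q₈ ∧
      K'.relIndex (eichGroup Q₈) = K.relIndex (eichGroup Q₈) ∧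
      (∀ g₁ g₂ : commutator (orth Q₈), tau (piQ Q₈ g₁) = piQ Q₈ g₂ → (g₁ : orth Q₈) ∈ K →
        (g₂ : orth Q₈) ∈ K') ∧
      ∀ g ∈ K', ∃ g₁ g₂ : commutator (orth Q₈),
        (g₂ : orth Q₈) = g ∧ (g₁ : orth Q₈) ∈ K ∧ tau (piQ Q₈ g₁) = piQ Q₈ g₂ := by
  set K₀ := K.subgroupOf (commutator (orth Q₈))
  set H := (K₀.map (piQ Q₈)).map (tau : MulAut (H4.Oct.X F)).toMonoidHom
  refine ⟨(H.comap (piQ Q₈)).map (commutator (orth Q₈)).subtype, ?_, ?_, ?_, ?_⟩
  · rw [← omega_eight]; exact Subgroup.map_subtype_le _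
  · have h1 : (H.comap (piQ Q₈)).index = K₀.index := by
      have hs : Function.Surjective (piQ Q₈) := QuotientGroup.mk'_surjective _
      rw [Subgroup.index_comap_of_surjective _ hs,
        show H.index = (K₀.map (piQ Q₈)).index from Subgroup.index_map_equiv _ _,
        ← Subgroup.index_comap_of_surjective (K₀.map (piQ Q₈)) hs, Subgroup.comap_map_eq_self]
      intro g hg
      exact hKc g ((QuotientGroup.eq_one_iff g).1 hg)
    rw [← omega_eight, Subgroup.relIndex,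
      show ((H.comap (piQ Q₈)).map (commutator (orth Q₈)).subtype).subgroupOf
        (commutator (orth Q₈)) = H.comap (piQ Q₈) from
          Subgroup.comap_map_eq_self_of_injective Subtype.val_injective _, h1]
    rfl
  · intro g₁ g₂ h hg
    exact ⟨g₂, ⟨piQ Q₈ g₁, ⟨g₁, hg, rfl⟩, h⟩, rfl⟩
  · rintro _ ⟨g₂, ⟨_, ⟨g₁, hg, rfl⟩, h⟩, rfl⟩
    exact ⟨g₁, g₂, rfl, hg, h⟩

/-! ### The exceptional configuration -/

/-- The coordinates vanishing on the covered parameters. -/
def sel : Fin 2 ⊕ Fin 2 → Fin 4 ⊕ Fin 4 :=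
  Sum.map (Fin.castLE (by norm_num)) (Fin.castLE (by norm_num))

variable (F) in
/-- The parameters covered by the exceptional configuration. -/
def bigY : Submodule F (O F) :=
  LinearMap.ker (LinearMap.funLeft F F
    sel)

theorem mem_bigY {x : O F} : x ∈ bigY F ↔
    x (.inl 0) = 0 ∧ x (.inl 1) = 0 ∧ x (.inr 0) = 0 ∧ x (.inr 1) = 0 := by
  simp [bigY, sel, funext_iff, LinearMap.funLeft_apply, Fin.forall_fin_two, and_assoc]

theorem bigY_nondeg : bigY F ⊓ H5.perp Q₈ (bigY F) = ⊥ := by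
  rw [eq_bot_iff]
  rintro x ⟨hx, hx'⟩
  obtain ⟨h1, h2, h3, h4⟩ := mem_bigY.1 hx
  have key : ∀ i, (Pi.single i 1 : O F) ∈ bigY F →
      polar Q₈ (Pi.single i 1 : O F) x = 0 := fun i hi => hx' _ hi
  have a1 := key (.inl 2) (mem_bigY.2 (by simp [Pi.single_apply]))
  have a2 := key (.inl 3) (mem_bigY.2 (by simp [Pi.single_apply]))
  have a3 := key (.inr 2) (mem_bigY.2 (by simp [Pi.single_apply]))
  have a4 := key (.inr 3) (mem_bigY.2 (by simp [Pi.single_apply]))
  simp [H4.polar_qPlus, Fin.sum_univ_four, Pi.single_apply] at a1 a2 a3 a4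
  rw [Submodule.mem_bot]
  funext i
  rcases i with i | i <;> fin_cases i <;> simp [h1, h2, h3, h4, a1, a2, a3, a4]

theorem four_le_finrank_bigY : finrank F (O F) ≤ finrank F (bigY F) + 4 := by
  have h := (LinearMap.funLeft F F sel).finrank_range_add_finrank_ker
  have h' : finrank F (Fin 2 ⊕ Fin 2 → F) = 4 := by simp
  have hle := Submodule.finrank_le (LinearMap.range (LinearMap.funLeft F F sel))
  exact h.ge.trans (by rw [add_comm]; exact Nat.add_le_add_left (hle.trans_eq h') _)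

/-- Standard coordinates for an exceptional configuration. -/
theorem exists_standard {L : LineFrame Q₈} {E : Submodule F (O F)} (hEW : E ≤ L.W)
    (hE : ∀ x ∈ E, Q₈ x = 0) (hE2 : finrank F E = 2) :
    ∃ g : orth Q₈, (g : O F ≃ₗ[F] O F) (Pi.single (.inl 0) 1) = L.u ∧
      (g : O F ≃ₗ[F] O F) (Pi.single (.inl 1) 1) = L.v ∧
      ∀ a : O F, a ∈ leftSpace F 4 → a (.inl 0) = 0 → a (.inl 1) = 0 →
        (g : O F ≃ₗ[F] O F) a ∈ E := by
  let b := Module.finBasisOfFinrankEq F E hE2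
  let φ : leftSpace F 4 →ₗ[F] O F :=
    ((LinearMap.proj (.inl 0) : O F →ₗ[F] F).smulRight L.u +
      (LinearMap.proj (.inl 1) : O F →ₗ[F] F).smulRight L.v +
      (LinearMap.proj (.inl 2) : O F →ₗ[F] F).smulRight (b 0 : O F) +
      (LinearMap.proj (.inl 3) : O F →ₗ[F] F).smulRight (b 1 : O F)) ∘ₗ (leftSpace F 4).subtype
  have hφ : ∀ x : leftSpace F 4, φ x = (x : O F) (.inl 0) • L.u + (x : O F) (.inl 1) • L.v +
      ((x : O F) (.inl 2) • b 0 + (x : O F) (.inl 3) • b 1 : E) := fun x => by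
    simp [φ, add_assoc]
  obtain ⟨g, hg, hgφ⟩ := H4.witt_extension H4.Oct.qPlus_four_nondeg (leftSpace F 4) φ
    (by
      rw [← LinearMap.ker_eq_bot, eq_bot_iff]
      intro x hz
      rw [LinearMap.mem_ker, hφ] at hz
      obtain ⟨e, he⟩ : ∃ e, e = (x : O F) (.inl 2) • b 0 + (x : O F) (.inl 3) • b 1 := ⟨_, rfl⟩
      rw [← he] at hz
      have hs := congrArg (fun z => polar Q₈ L.u' z) hz
      have ht := congrArg (fun z => polar Q₈ L.v' z) hz
      simp [polar_add_right, polar_smul_right, L.u'v, L.W_u' (hEW e.2),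
        L.W_v' (hEW e.2), polar_comm (⇑Q₈) L.u' L.u, polar_comm (⇑Q₈) L.v' L.v, L.hu.pair,
        L.hv.pair, polar_comm (⇑Q₈) L.v' L.u, L.uv'] at hs ht
      rw [hs, ht, zero_smul, zero_smul, zero_add, zero_add] at hz
      have he0 : e = 0 := Subtype.ext hz
      rw [he] at he0
      have h2 := congrArg (fun z => b.repr z 0) he0
      have h3 := congrArg (fun z => b.repr z 1) he0
      simp at h2 h3
      rw [Submodule.mem_bot]
      refine Subtype.ext (funext fun i => ?_)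
      rcases i with i | i <;> fin_cases i <;> simp [hs, ht, h2, h3, mem_leftSpace.1 x.2])
    (fun x => by
      rw [leftSpace_qPlus x.2, hφ]
      set e := (x : O F) (.inl 2) • b 0 + (x : O F) (.inl 3) • b 1
      rw [QuadraticMap.map_add (⇑Q₈), QuadraticMap.map_add (⇑Q₈), QuadraticMap.map_smul,
        QuadraticMap.map_smul, L.hu.left, L.hv.left, hE _ e.2, polar_add_left, polar_smul_left,
        polar_smul_left, polar_smul_left, polar_smul_right, L.uv, L.W_u (hEW e.2),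
        L.W_v (hEW e.2)]
      simp)
  have hmem : ∀ i, (Pi.single (.inl i) 1 : O F) ∈ leftSpace F 4 := fun i =>
    mem_leftSpace.2 fun j => by simp
  refine ⟨⟨g, hg⟩, ?_, ?_, fun a ha h0 h1 => ?_⟩
  · change g _ = _
    rw [show g (Pi.single (.inl 0) 1) = φ ⟨_, hmem 0⟩ from hgφ ⟨_, hmem 0⟩, hφ]
    simp [Pi.single_apply]
  · change g _ = _
    rw [show g (Pi.single (.inl 1) 1) = φ ⟨_, hmem 1⟩ from hgφ ⟨_, hmem 1⟩, hφ]
    simp [Pi.single_apply]
  · change g a ∈ E
    rw [show g a = φ ⟨a, ha⟩ from hgφ ⟨a, ha⟩, hφ]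
    simp only [h0, h1, zero_smul, zero_add]
    exact Submodule.coe_mem _

/-- The exceptional configuration obeys the bound. -/
theorem exc_bound_eight {B : ℕ} (h : IdxHyp Q₈ B) {K : Subgroup (orth Q₈)}
    (hK : K ≤ eichGroup Q₈) (hne : K ≠ eichGroup Q₈)
    (hKc : ∀ g : commutator (orth Q₈), g ∈ Subgroup.center (commutator (orth Q₈)) →
      (g : orth Q₈) ∈ K)
    (x : orth Q₈) (he : Exc (cj K x)) : B ≤ K.relIndex (eichGroup Q₈) := by
  obtain ⟨-, L, E, hEW, hE, hE2, hmem⟩ := he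
  obtain ⟨g, hg0, hg1, hgE⟩ := exists_standard hEW hE hE2
  set K₁ := cj K (g⁻¹ * x)
  have hK₁ : K₁ ≤ eichGroup Q₈ := cj_le hK _
  obtain ⟨K', hK', hidx, hfwd, -⟩ := exists_transfer hK₁ fun z hz => center_mem_cj hKc _ hz
  rw [relIndex_cj] at hidx
  have hne' : K' ≠ eichGroup Q₈ := fun he' => hne (by
    refine le_antisymm hK (Subgroup.relIndex_eq_one.1 ?_)
    rw [← hidx, he', Subgroup.relIndex_self])
  rw [← hidx]
  refine h.le_of_large hK' hne' (v := pt F) ⟨pt_ne, qPlus_pt, bigY F, bigY_nondeg,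
    four_le_finrank_bigY, fun y hy => ?_⟩
  obtain ⟨h1, h2, h3, h4⟩ := mem_bigY.1 hy
  have hyp : polar Q₈ (pt F) y = 0 := by rw [polar_pt, h3]
  refine ⟨hyp, ?_⟩
  let a₀ : O F := Sum.elim ![0, 0, y (.inl 2), y (.inl 3)] ![0, 0, 0, 0]
  let a₁ : O F := Sum.elim ![0, 0, -y (.inr 3), y (.inr 2)] ![0, 0, 0, 0]
  have hl₀ : a₀ ∈ leftSpace F 4 := mem_leftSpace.2 fun i => by fin_cases i <;> rfl
  have hl₁ : a₁ ∈ leftSpace F 4 := mem_leftSpace.2 fun i => by fin_cases i <;> rfl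
  have hlm : ∀ i, (Pi.single (.inl i) 1 : O F) ∈ leftSpace F 4 := fun i =>
    mem_leftSpace.2 fun j => by simp
  have key : ∀ (i : Fin 4) (a : O F), a ∈ leftSpace F 4 →
      eich Q₈ ((g : O F ≃ₗ[F] O F) (Pi.single (.inl i) 1)) ((g : O F ≃ₗ[F] O F) a) ∈ cj K x →
      eich Q₈ (pt F) (plucker (Pi.single (.inl i) 1) a) ∈ K' := by
    intro i a ha hin
    refine hfwd (eo _ a) (eo _ _) (tau_eo (hlm i) ha) ?_
    change eich Q₈ _ a ∈ K₁
    rw [show K₁ = cj (cj K x) g⁻¹ from (cj_mul K x g⁻¹).symm, mem_cj, inv_inv]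
    rwa [← H5.eich_conj] at hin
  have m₀ := key 0 a₀ hl₀ (by rw [hg0]; exact (hmem _ (hgE a₀ hl₀ rfl rfl)).1)
  have m₁ := key 1 a₁ hl₁ (by rw [hg1]; exact (hmem _ (hgE a₁ hl₁ rfl rfl)).2)
  have hy2 : y = plucker (Pi.single (.inl 0) 1) a₀ + plucker (Pi.single (.inl 1) 1) a₁ := by
    funext i
    rcases i with i | i <;> fin_cases i <;>
      simp [plucker, a₀, a₁, Pi.single_apply, h1, h2, h3, h4]
  rw [hy2, ← H5.eich_mul qPlus_pt (polar_pt_plucker _ _) (polar_pt_plucker _ _)]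
  exact mul_mem m₀ m₁

/-! ### Stabilisers of totally singular four-spaces -/

/-- A stabiliser of the standard four-space is sent to one of the point. -/
theorem fix_pt_of_tau {s k : commutator (orth Q₈)}
    (hs : ∀ x ∈ leftSpace F 4, ((s⁻¹ : commutator (orth Q₈)) : orth Q₈).1 x ∈ leftSpace F 4)
    (h : tau (piQ Q₈ s) = piQ Q₈ k) :
    ((k : orth Q₈) : O F ≃ₗ[F] O F) (pt F) ∈ Submodule.span F {pt F} := by
  haveI := Fact.mk (CharP.char_is_prime F (ringChar F))
  refine formHyp_qPlus_four.mem_span_of_image_le (ringChar F) pt_ne qPlus_pt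
    (by rw [H5.orth_map]; exact qPlus_pt) ?_
  set M := rootImage Q₈ (((k : orth Q₈) : O F ≃ₗ[F] O F) (pt F))
  have key : ∀ e a : O F, e ∈ leftSpace F 4 → a ∈ leftSpace F 4 →
      piQ Q₈ (eo (pt F) (plucker e a)) ∈ M := by
    intro e a he ha
    rw [← tau_eo he ha]
    have hi : ∀ v, (s : orth Q₈).1 (((s⁻¹ : commutator (orth Q₈)) : orth Q₈).1 v) = v :=
      fun v => H5.orth_apply_inv_apply (s : orth Q₈) v
    have hc : eo e a = s * eo (((s⁻¹ : commutator (orth Q₈)) : orth Q₈).1 e)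
        (((s⁻¹ : commutator (orth Q₈)) : orth Q₈).1 a) * s⁻¹ := by
      refine Subtype.ext ?_
      change eich Q₈ e a = (s : orth Q₈) * eich Q₈ _ _ * (s : orth Q₈)⁻¹
      rw [H5.eich_conj, hi, hi]
    rw [hc, map_mul, map_mul, map_mul, map_mul, map_inv, map_inv, h, tau_eo (hs e he) (hs a ha)]
    exact H4.conj_mem_rootImage k (H4.pi_mem_rootImage
      (H4.eich_mem_rootGroup (polar_pt_plucker _ _)))
  intro X hX
  obtain ⟨g, hg, rfl⟩ := H4.mem_rootImage.1 hX
  obtain ⟨w, hw, hgw⟩ := (H4.mem_rootGroup qPlus_pt).1 hg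
  have hw0 : w (.inr 0) = 0 := by rw [← polar_pt w, hw]
  let a₀ : O F := Sum.elim ![0, w (.inl 1), w (.inl 2), w (.inl 3)] ![0, 0, 0, 0]
  let a₁ : O F := Sum.elim ![0, 0, -w (.inr 3), w (.inr 2)] ![0, 0, 0, 0]
  let a₂ : O F := Sum.elim ![0, 0, 0, -w (.inr 1)] ![0, 0, 0, 0]
  have hlm : ∀ i, (Pi.single (.inl i) 1 : O F) ∈ leftSpace F 4 := fun i =>
    mem_leftSpace.2 fun j => by simp
  have e0 := polar_pt_plucker (F := F) (Pi.single (.inl 0) 1) a₀
  have e1 := polar_pt_plucker (F := F) (Pi.single (.inl 1) 1) a₁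
  have e2 := polar_pt_plucker (F := F) (Pi.single (.inl 2) 1) a₂
  have hdec : g = eo (pt F) (plucker (Pi.single (.inl 0) 1) a₀) *
      eo (pt F) (plucker (Pi.single (.inl 1) 1) a₁) *
      eo (pt F) (plucker (Pi.single (.inl 2) 1) a₂) := by
    refine Subtype.ext ?_
    simp only [Subgroup.coe_mul, eo]
    rw [hgw, H5.eich_mul qPlus_pt e0 e1, H5.eich_mul qPlus_pt
      (by rw [polar_add_right, e0, e1, add_zero]) e2,
      ← H5.eich_add_smul qPlus_pt (a := plucker (Pi.single (.inl 0) 1) a₀ +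
        plucker (Pi.single (.inl 1) 1) a₁ + plucker (Pi.single (.inl 2) 1) a₂)
        (by rw [polar_add_right, polar_add_right, e0, e1, e2]; simp) (w (.inl 0))]
    congr 1
    funext i
    rcases i with i | i <;> fin_cases i <;>
      simp [plucker, a₀, a₁, a₂, pt, Pi.single_apply, hw0]
  rw [hdec, map_mul, map_mul]
  refine mul_mem (mul_mem (key _ _ (hlm 0) ?_) (key _ _ (hlm 1) ?_)) (key _ _ (hlm 2) ?_) <;>
    exact mem_leftSpace.2 fun i => by fin_cases i <;> rfl

/-- Totally singular four-spaces have orbits at least as large as points. -/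
theorem le_orbit_four {R : Submodule F (O F)} (hR : ∀ x ∈ R, Q₈ x = 0) (h4 : finrank F R = 4) :
    (singularPoints Q₈).ncard ≤ (subspaceOrbit Q₈ R).ncard := by
  obtain ⟨g, hg⟩ := H4.exists_orth_leftSpace R hR h4
  have hc : ∀ z : commutator (orth Q₈), z ∈ Subgroup.center (commutator (orth Q₈)) →
      (z : orth Q₈) ∈ subStab Q₈ R := fun z hz => by
    obtain ⟨t, -, ht⟩ := formHyp_qPlus_four.center_scalar hz
    exact ⟨omega_eight.le z.2, H5.map_eq_of_forall_mem fun x hx => by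
      rw [ht]; exact R.smul_mem t hx⟩
  set K := cj (subStab Q₈ R) g⁻¹
  obtain ⟨K', hK', hidx, -, hbwd⟩ := exists_transfer (cj_le (H4.subStab_le R) g⁻¹)
    fun z hz => center_mem_cj hc _ hz
  rw [← relIndex_subStab, ← relIndex_cj (subStab Q₈ R) g⁻¹, ← hidx,
    ← H4.orbit_span_eq' formHyp_qPlus_four.nondeg (by rw [finrank_O]; norm_num) pt_ne qPlus_pt]
  refine orbit_le_relIndex hK' fun k hk y hy => ?_
  obtain ⟨s, k', rfl, hs, htau⟩ := hbwd k hk
  obtain ⟨c, rfl⟩ := Submodule.mem_span_singleton.1 hy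
  rw [map_smul]
  refine Submodule.smul_mem _ _ (fix_pt_of_tau (fun x hx => ?_) htau)
  have hinv := (mem_cj.1 (inv_mem hs : ((s⁻¹ : commutator (orth Q₈)) : orth Q₈) ∈ K)).2
  rw [inv_inv] at hinv
  have hgx : (g : O F ≃ₗ[F] O F) x ∈ R := hg.le ⟨x, hx, rfl⟩
  have h1 : ((g * (s⁻¹ : commutator (orth Q₈)) * g⁻¹ : orth Q₈) : O F ≃ₗ[F] O F)
      ((g : O F ≃ₗ[F] O F) x) ∈ R := hinv.le ⟨_, hgx, rfl⟩
  rw [orth_mul_apply, orth_mul_apply, H5.orth_inv_apply_apply] at h1
  obtain ⟨x', hx', he⟩ := hg.ge h1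
  rwa [← (g : O F ≃ₗ[F] O F).injective he]

end Cfsg.Agent.H3.OIdx
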