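import Cfsg.Agent.H3.OIdx.Line
import Cfsg.Agent.H5.OmegaSimple

/-!
Existence of frames, torus elements, and generation of `Ω` by conjugates of the root group of a
totally singular line.
-/

set_option autoImplicit false

namespace Cfsg.Agent.H3.OIdx

open QuadraticMap hiding sq
open Module
open Cfsg.Agent.H5 (orth eich eich_apply eich_mul eich_zero eich_inv eich_conj eich_add_smul
  eich_smul_smul eichGroup eich_mem_eichGroup HypPair pperp
  mem_pperp orth_mul_apply orth_map orth_polar polar_self' pairScale)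

variable {F V : Type*} [Field F] [AddCommGroup V] [Module F V] {Q : QuadraticForm F V}

theorem pairScale_fix {e f : V} (h : HypPair Q e f) {t : F} (ht : t ≠ 0) {x : V}
    (h1 : polar Q e x = 0) (h2 : polar Q f x = 0) : (pairScale Q e f t : V ≃ₗ[F] V) x = x := by
  rw [h.pairScale_apply ht, h1, h2]; simp

theorem pairScale_left {e f : V} (h : HypPair Q e f) {t : F} (ht : t ≠ 0) :
    (pairScale Q e f t : V ≃ₗ[F] V) e = t • e := by
  rw [h.pairScale_apply ht, polar_comm (⇑Q) f e, h.pair, polar_self', h.left]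
  simp

theorem pairScale_right {e f : V} (h : HypPair Q e f) {t : F} (ht : t ≠ 0) :
    (pairScale Q e f t : V ≃ₗ[F] V) f = t⁻¹ • f := by
  rw [h.pairScale_apply ht, h.pair, polar_self', h.right]
  simp

variable [Finite F] [FiniteDimensional F V] [Finite V]

/-- A singular vector and its partner inside a non-degenerate subspace of dimension at least
three. -/
theorem exists_pair_in {S : Submodule F V} (hS : S ⊓ H5.perp Q S = ⊥) (h3 : 3 ≤ finrank F S) :
    ∃ e ∈ S, ∃ f ∈ S, HypPair Q e f := by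
  have hr := H5.restrict_nondegenerate hS
  obtain ⟨e, he0, he⟩ := H5.exists_singular hr h3
  obtain ⟨f, hp⟩ := H5.exists_hypPair hr he0 he
  exact ⟨e, e.2, f, f.2, hp.left, hp.right, hp.pair⟩

theorem std (hn : 5 ≤ finrank F V) : Nat.card F ≠ 2 ∨ finrank F V ≠ 4 := Or.inr (by omega)

/-- A product of two scalings of orthogonal pairs by the same scalar lies in `Ω`. -/
theorem pairScale_mul_mem (hQ : (polarBilin Q).Nondegenerate) (hn : 5 ≤ finrank F V)
    {e f x y : V} (h : HypPair Q e f) (h' : HypPair Q x y) {t : F} (ht : t ≠ 0) :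
    pairScale Q e f t * pairScale Q x y t ∈ eichGroup Q := by
  rw [← H5.commutator_eq_eichGroup hQ (by omega) (std hn),
    H5.mem_commutator_iff hQ (std hn)]
  have hgen : pairScale Q e f t ∈ H5.reflGroup Q :=
    mul_mem (H5.refl_mem_reflGroup _) (H5.refl_mem_reflGroup _)
  refine ⟨?_, ?_⟩
  · rw [H5.dick_mul hQ hgen, H5.dick_pairScale hQ h ht, H5.dick_pairScale hQ h' ht, one_mul]
  · rw [map_mul, H5.spin_pairScale h ht, H5.spin_pairScale h' ht, Int.units_mul_self]

/-- A scaling by a square lies in `Ω`. -/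
theorem pairScale_sq_mem (hQ : (polarBilin Q).Nondegenerate) (hn : 5 ≤ finrank F V)
    {e f : V} (h : HypPair Q e f) {t : F} (ht : t ≠ 0) :
    pairScale Q e f (t * t) ∈ eichGroup Q := by
  rw [← H5.commutator_eq_eichGroup hQ (by omega) (std hn),
    H5.mem_commutator_iff hQ (std hn)]
  refine ⟨H5.dick_pairScale hQ h (mul_ne_zero ht ht), ?_⟩
  rw [H5.spin_pairScale h (mul_ne_zero ht ht), H5.sqc_mul ht ht, Int.units_mul_self]

/-- A frame exists in dimension at least five. -/
theorem exists_frame (hQ : (polarBilin Q).Nondegenerate) (hn : 5 ≤ finrank F V) :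
    Nonempty (LineFrame Q) := by
  obtain ⟨e, he0, he⟩ := H5.exists_singular hQ (by omega)
  obtain ⟨f, hp⟩ := H5.exists_hypPair hQ he0 he
  obtain ⟨x, hx, y, hy, hq⟩ := exists_pair_in (hp.inf_perp hQ)
    (by have := hp.finrank_pperp hQ; omega)
  rw [mem_pperp] at hx hy
  exact ⟨⟨e, f, x, y, hp, hq, hx.1, hy.1, hx.2, hy.2⟩⟩

/-- A singular vector of a non-degenerate subspace not orthogonal to two given ones. -/
theorem exists_common_nonorth {S : Submodule F V} (hS : S ⊓ H5.perp Q S = ⊥)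
    (h3 : 3 ≤ finrank F S) {x z : V} (hx : x ∈ S) (hz : z ∈ S) (hx0 : x ≠ 0) (hz0 : z ≠ 0)
    (hqx : Q x = 0) (hqz : Q z = 0) :
    ∃ y ∈ S, Q y = 0 ∧ polar Q x y ≠ 0 ∧ polar Q z y ≠ 0 := by
  have hr := H5.restrict_nondegenerate hS
  set x' : S := ⟨x, hx⟩
  set z' : S := ⟨z, hz⟩
  have hx0' : x' ≠ 0 := fun h => hx0 (congrArg Subtype.val h)
  by_cases hxz : polar Q x z = 0
  · by_cases hzs : z' ∈ Submodule.span F {x'}
    · obtain ⟨t, ht⟩ := Submodule.mem_span_singleton.1 hzs
      have htz : t • x = z := congrArg Subtype.val ht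
      have ht0 : t ≠ 0 := fun h0 => hz0 (by rw [← htz, h0, zero_smul])
      obtain ⟨y, hp⟩ := H5.exists_hypPair hr hx0' hqx
      have hp1 : polar Q x (y : V) = 1 := hp.pair
      refine ⟨y, y.2, hp.right, by rw [hp1]; exact one_ne_zero, ?_⟩
      rw [← htz, polar_smul_left, hp1, smul_eq_mul, mul_one]
      exact ht0
    · obtain ⟨y₀, h1, h2⟩ := H5.exists_polar_pair hr hx0' hzs 1 1
      have h1' : polar Q x (y₀ : V) = 1 := h1
      have h2' : polar Q z (y₀ : V) = 1 := h2
      refine ⟨(y₀ : V) + (-Q (y₀ : V)) • x, S.add_mem y₀.2 (S.smul_mem _ hx), ?_, ?_, ?_⟩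
      · rw [H5.map_add_smul, hqx, polar_comm (⇑Q) (y₀ : V) x, h1']; ring
      · rw [polar_add_right, polar_smul_right, polar_self', hqx, h1']; simp
      · rw [polar_add_right, polar_smul_right, polar_comm (⇑Q) z x, hxz, h2']; simp
  · set f : S := (polar Q x z)⁻¹ • z'
    have hp : HypPair (Q.restrict S) x' f :=
      ⟨hqx, by change Q ((polar Q x z)⁻¹ • z) = 0; rw [QuadraticMap.map_smul, hqz, smul_zero],
        by change polar Q x ((polar Q x z)⁻¹ • z) = 1
           rw [polar_smul_right, smul_eq_mul, inv_mul_cancel₀ hxz]⟩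
    obtain ⟨w, hw, hqw⟩ := H5.exists_anisotropic (hp.inf_perp hr)
      (by have := hp.finrank_pperp hr; omega)
    obtain ⟨h1, h2, h3'⟩ := hp.singular_lift hw
    set y := x' + (-(Q.restrict S) w) • f + w
    refine ⟨y, y.2, h1, ?_, ?_⟩
    · change polar (Q.restrict S) x' y ≠ 0
      rw [h2]; exact neg_ne_zero.2 hqw
    · have h4 : polar Q ((polar Q x z)⁻¹ • z) (y : V) = 1 := h3'
      intro h0
      rw [polar_smul_left, h0, smul_zero] at h4
      exact zero_ne_one h4

/-- If all conjugates of the root group of a line lie in `H`, then so does every Eichler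
transformation. -/
theorem eichGroup_le_of_line (hQ : (polarBilin Q).Nondegenerate) (hn : 5 ≤ finrank F V)
    (L : LineFrame Q) {H : Subgroup (orth Q)}
    (hH : ∀ g ∈ eichGroup Q, ∀ t : F, g * L.el 0 0 t * g⁻¹ ∈ H) : eichGroup Q ≤ H := by
  refine (Subgroup.closure_le _).2 ?_
  rintro _ ⟨e, a, he, ha, rfl⟩
  by_cases he0 : e = 0
  · have : eich Q e a = 1 := H5.orth_ext fun x => by
      rw [eich_apply he ha, he0, polar_zero_left]; simp
    rw [this]; exact one_mem _
  obtain ⟨f, hp⟩ := H5.exists_hypPair hQ he0 he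
  have hS := hp.inf_perp hQ
  have hS3 : 3 ≤ finrank F (pperp Q e f) := by have := hp.finrank_pperp hQ; omega
  obtain ⟨g₀, hg₀, s, hs, hgs⟩ := H5.exists_pairGroup_map hQ (by omega) L.hu he0 he
  rw [H5.pairGroup_eq_eichGroup hQ (by omega) L.hu] at hg₀
  set g := g₀⁻¹
  have hgu : (g : V ≃ₗ[F] V) L.u = s⁻¹ • e := by
    have h1 : (g : V ≃ₗ[F] V) (s • L.u) = e := by rw [← hgs]; exact H5.orth_inv_apply_apply _ _
    rw [map_smul] at h1
    rw [← h1, smul_smul, inv_mul_cancel₀ hs, one_smul]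
  set z := (g : V ≃ₗ[F] V) L.v
  have hez : polar Q e z = 0 := by
    have h1 : polar Q (s⁻¹ • e) z = 0 := by rw [← hgu, orth_polar, L.uv]
    rwa [polar_smul_left, smul_eq_mul, mul_eq_zero, or_iff_right (inv_ne_zero hs)] at h1
  set z₀ := z - polar Q f z • e
  have hz₀ : z₀ ∈ pperp Q e f := by
    have := hp.decomp z
    rwa [hez, zero_smul, sub_zero] at this
  have hz₀q : Q z₀ = 0 := by
    rw [H5.map_sub_smul, he, polar_comm (⇑Q) z e, hez, orth_map, L.hv.left]; ring
  have hz₀0 : z₀ ≠ 0 := fun h0 => by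
    have h1 : polar Q z ((g : V ≃ₗ[F] V) L.v') = 0 := by
      rw [sub_eq_zero.1 h0, polar_smul_left, show e = (g : V ≃ₗ[F] V) (s • L.u) by
        rw [map_smul, hgu, smul_smul, mul_inv_cancel₀ hs, one_smul], orth_polar, polar_smul_left,
        L.uv', smul_zero, smul_zero]
    rw [orth_polar, L.hv.pair] at h1
    exact one_ne_zero h1
  have sing : ∀ b ∈ pperp Q e f, Q b = 0 → ∀ t : F, eich Q e (t • b) ∈ H := by
    intro b hb hqb t
    by_cases hb0 : b = 0
    · rw [hb0, smul_zero, eich_zero]; exact one_mem _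
    obtain ⟨y, hy, hqy, hy1, hy2⟩ := exists_common_nonorth hS hS3 hz₀ hb hz₀0 hb0 hz₀q hqb
    have h1 : HypPair Q y ((polar Q z₀ y)⁻¹ • z₀) :=
      ⟨hqy, by rw [QuadraticMap.map_smul, hz₀q, smul_zero],
        by rw [polar_smul_right, polar_comm (⇑Q) y, smul_eq_mul, inv_mul_cancel₀ hy1]⟩
    have h2 : HypPair Q y ((polar Q b y)⁻¹ • b) :=
      ⟨hqy, by rw [QuadraticMap.map_smul, hqb, smul_zero],
        by rw [polar_smul_right, polar_comm (⇑Q) y, smul_eq_mul, inv_mul_cancel₀ hy2]⟩
    obtain ⟨c, hc, hcm⟩ := H5.exists_eich_map h1 h2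
    set k := eich Q y c
    have hke : (k : V ≃ₗ[F] V) e = e := by
      have hye : polar Q y e = 0 := by rw [polar_comm]; exact (mem_pperp.1 hy).1
      refine H5.eich_apply_of_ortho hqy (mem_pperp.1 hc).1 hye ?_
      have h3 : polar Q ((polar Q b y)⁻¹ • b) e = 0 := by
        rw [polar_smul_left, polar_comm (⇑Q) b e, (mem_pperp.1 hb).1, smul_zero]
      rw [← hcm, H4.eich_apply_partner h1 hc, polar_sub_left, polar_add_left, polar_smul_left,
        polar_smul_left, hye, polar_comm (⇑Q) z₀ e, (mem_pperp.1 hz₀).1] at h3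
      simpa using h3
    set μ := polar Q z₀ y * (polar Q b y)⁻¹
    have hμ : μ ≠ 0 := mul_ne_zero hy1 (inv_ne_zero hy2)
    have hkz : (k : V ≃ₗ[F] V) z₀ = μ • b := by
      have h3 : (k : V ≃ₗ[F] V) ((polar Q z₀ y)⁻¹ • z₀) = (polar Q b y)⁻¹ • b := hcm
      rw [map_smul] at h3
      rw [show μ • b = polar Q z₀ y • ((polar Q b y)⁻¹ • b) from (smul_smul _ _ _).symm, ← h3,
        smul_smul, mul_inv_cancel₀ hy1, one_smul]
    have h4 := hH (k * g) (mul_mem (eich_mem_eichGroup _ _) (by
      exact inv_mem hg₀)) (t / μ * s)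
    rw [LineFrame.el, eich_zero, mul_one, zero_add, eich_conj, orth_mul_apply, map_smul, hgu,
      map_smul, hke, orth_mul_apply,
      show (g : V ≃ₗ[F] V) L.v = z₀ + polar Q f z • e by simp [z₀, z], map_add, map_smul, hkz, hke,
      eich_smul_smul he (by
        rw [polar_smul_right, polar_add_right, polar_smul_right, polar_smul_right,
          (mem_pperp.1 hb).1, polar_self', he]; simp),
      smul_add, smul_smul, smul_smul, smul_add, smul_smul, smul_smul,
      eich_add_smul he (by rw [polar_smul_right, (mem_pperp.1 hb).1, smul_zero])] at h4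
    convert h4 using 3
    field_simp
  -- a general parameter is a sum of singular ones
  have hd := hp.decomp a
  rw [ha, zero_smul, sub_zero] at hd
  have hc : eich Q e a = eich Q e (a - polar Q f a • e) := by
    conv_lhs => rw [← sub_add_cancel a (polar Q f a • e)]
    exact eich_add_smul he (mem_pperp.1 hd).1 _
  rw [hc]
  set b := a - polar Q f a • e
  obtain ⟨p, hpS, p', hp'S, hpp⟩ := exists_pair_in hS hS3
  set w := b - polar Q p' b • p - polar Q p b • p'
  have hwS : w ∈ pperp Q e f :=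
    sub_mem (sub_mem hd (Submodule.smul_mem _ _ hpS)) (Submodule.smul_mem _ _ hp'S)
  have hs₁ : ∀ x ∈ pperp Q e f, polar Q e x = 0 := fun x hx => (mem_pperp.1 hx).1
  have hl : p + (-Q w) • p' + w ∈ pperp Q e f :=
    add_mem (add_mem hpS (Submodule.smul_mem _ _ hp'S)) hwS
  have hb : b = ((polar Q p' b - 1) • p + (polar Q p b + Q w) • p') +
      (1 : F) • (p + (-Q w) • p' + w) := by simp only [w]; module
  have h12 : (polar Q p' b - 1) • p + (polar Q p b + Q w) • p' ∈ pperp Q e f :=
    add_mem (Submodule.smul_mem _ _ hpS) (Submodule.smul_mem _ _ hp'S)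
  rw [hb, ← eich_mul he (hs₁ _ h12) (hs₁ _ (Submodule.smul_mem _ _ hl)),
    ← eich_mul he (hs₁ _ (Submodule.smul_mem _ _ hpS)) (hs₁ _ (Submodule.smul_mem _ _ hp'S))]
  exact mul_mem (mul_mem (sing p hpS hpp.left _) (sing p' hp'S hpp.right _))
    (sing _ hl (hpp.singular_lift (hpp.decomp b)).1 1)

end Cfsg.Agent.H3.OIdx
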