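import Cfsg.Agent.H5.Pairs
import Cfsg.Agent.H5.EichlerGroup
import Cfsg.Agent.H4.RootGroup

/-!
The unipotent radical attached to a totally singular line of an orthogonal space: elements,
multiplication and the action of Levi elements. Used for the minimal index of `PΩ`.
-/

set_option autoImplicit false

namespace Cfsg.Agent.H3.OIdx

open QuadraticMap hiding sq
open Cfsg.Agent.H5 (orth eich eich_apply eich_mul eich_zero eich_inv eich_conj eich_add_smul
  eich_smul_smul eich_apply_self eich_apply_of_ortho eichGroup eich_mem_eichGroup HypPair pperp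
  mem_pperp orth_ext orth_mul_apply orth_map orth_polar polar_self')

variable {F V : Type*} [Field F] [AddCommGroup V] [Module F V] {Q : QuadraticForm F V}

/-- An Eichler transformation whose first argument is moved along an orthogonal singular vector. -/
theorem eich_add_left {e f a : V} (he : Q e = 0) (hf : Q f = 0) (hef : polar Q e f = 0)
    (hea : polar Q e a = 0) (hfa : polar Q f a = 0) (s : F) :
    eich Q (e + s • f) a = eich Q e a * (eich Q f (s • a) * eich Q e ((-(s * Q a)) • f)) := by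
  have hes : Q (e + s • f) = 0 := by rw [H5.map_add_smul, he, hf, hef]; ring
  have hesa : polar Q (e + s • f) a = 0 := by
    rw [polar_add_left, polar_smul_left, hea, hfa, smul_zero, add_zero]
  refine orth_ext fun x => ?_
  have h2 : polar Q f (s • a) = 0 := by rw [polar_smul_right, hfa, smul_zero]
  have h3 : polar Q e ((-(s * Q a)) • f) = 0 := by rw [polar_smul_right, hef, smul_zero]
  rw [orth_mul_apply, orth_mul_apply, eich_apply hes hesa, eich_apply he hea, eich_apply hf h2,
    eich_apply he h3]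
  simp only [polar_add_left, polar_add_right, polar_sub_right, polar_smul_left, polar_smul_right,
    QuadraticMap.map_smul, polar_self', he, hf, hef, hea, hfa, polar_comm (⇑Q) f e,
    polar_comm (⇑Q) a e, polar_comm (⇑Q) a f, smul_eq_mul]
  match_scalars <;> ring

/-- Two orthogonal hyperbolic pairs. -/
structure LineFrame (Q : QuadraticForm F V) where
  /-- first point of the line -/
  u : V
  /-- partner of `u` -/
  u' : V
  /-- second point of the line -/
  v : V
  /-- partner of `v` -/
  v' : V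
  hu : HypPair Q u u'
  hv : HypPair Q v v'
  uv : polar Q u v = 0
  uv' : polar Q u v' = 0
  u'v : polar Q u' v = 0
  u'v' : polar Q u' v' = 0

namespace LineFrame

variable (L : LineFrame Q)

/-- The common complement of the two pairs. -/
def W : Submodule F V := pperp Q L.u L.u' ⊓ pperp Q L.v L.v'

variable {L}

theorem mem_W {x : V} : x ∈ L.W ↔ polar Q L.u x = 0 ∧ polar Q L.u' x = 0 ∧ polar Q L.v x = 0 ∧
    polar Q L.v' x = 0 := by
  rw [W, Submodule.mem_inf, mem_pperp, mem_pperp, and_assoc]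

theorem W_u {x : V} (h : x ∈ L.W) : polar Q L.u x = 0 := (mem_W.1 h).1

theorem W_u' {x : V} (h : x ∈ L.W) : polar Q L.u' x = 0 := (mem_W.1 h).2.1

theorem W_v {x : V} (h : x ∈ L.W) : polar Q L.v x = 0 := (mem_W.1 h).2.2.1

theorem W_v' {x : V} (h : x ∈ L.W) : polar Q L.v' x = 0 := (mem_W.1 h).2.2.2

variable (L)

theorem vu : polar Q L.v L.u = 0 := by rw [polar_comm, L.uv]

theorem vu' : polar Q L.v L.u' = 0 := by rw [polar_comm, L.u'v]

theorem v'u : polar Q L.v' L.u = 0 := by rw [polar_comm, L.uv']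

theorem v'u' : polar Q L.v' L.u' = 0 := by rw [polar_comm, L.u'v']

theorem polar_u_add {a : V} (ha : a ∈ L.W) (t : F) : polar Q L.u (a + t • L.v) = 0 := by
  rw [polar_add_right, polar_smul_right, W_u ha, L.uv, smul_zero, add_zero]

theorem mem_pperp_u {a : V} (ha : a ∈ L.W) (t : F) : a + t • L.v ∈ pperp Q L.u L.u' := by
  rw [mem_pperp]
  simp [polar_add_right, polar_smul_right, W_u ha, W_u' ha, L.uv, L.u'v]

/-- The elements of the radical of the line. -/
noncomputable def el (a b : V) (t : F) : orth Q := eich Q L.u (a + t • L.v) * eich Q L.v b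

theorem el_mem_eichGroup (a b : V) (t : F) : L.el a b t ∈ eichGroup Q :=
  mul_mem (eich_mem_eichGroup _ _) (eich_mem_eichGroup _ _)

theorem eich_u_eq (a : V) : eich Q L.u a = L.el a 0 0 := by
  rw [el, eich_zero, mul_one, zero_smul, add_zero]

theorem eich_v_eq (b : V) : eich Q L.v b = L.el 0 b 0 := by
  rw [el, zero_smul, add_zero, eich_zero, one_mul]

theorem el_zero : L.el 0 0 0 = 1 := by
  rw [← eich_u_eq, eich_zero]

theorem eich_v_conj {b : V} (hb : b ∈ L.W) (c : V) :
    eich Q L.v b * eich Q L.u c * (eich Q L.v b)⁻¹ =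
      eich Q L.u ((eich Q L.v b : V ≃ₗ[F] V) c) := by
  rw [eich_conj, eich_apply_of_ortho L.hv.left (W_v hb) L.vu (by rw [polar_comm, W_u hb])]

theorem el_mul {a b a' b' : V} (ha : a ∈ L.W) (hb : b ∈ L.W) (ha' : a' ∈ L.W) (hb' : b' ∈ L.W)
    (t t' : F) :
    L.el a b t * L.el a' b' t' = L.el (a + a') (b + b') (t + t' - polar Q b a') := by
  have h1 : (eich Q L.v b : V ≃ₗ[F] V) (a' + t' • L.v) = a' + (t' - polar Q b a') • L.v := by
    rw [eich_apply L.hv.left (W_v hb)]
    simp [polar_add_right, polar_smul_right, W_v ha', L.hv.left, polar_comm (⇑Q) b L.v,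
      W_v hb]
    module
  have h2 : eich Q L.v b * eich Q L.u (a' + t' • L.v) =
      eich Q L.u (a' + (t' - polar Q b a') • L.v) * eich Q L.v b := by
    rw [← h1, ← L.eich_v_conj hb (a' + t' • L.v), inv_mul_cancel_right]
  rw [el, el, el, mul_assoc, ← mul_assoc (eich Q L.v b), h2, mul_assoc, ← mul_assoc,
    eich_mul L.hu.left (L.polar_u_add ha t) (L.polar_u_add ha' _),
    eich_mul L.hv.left (W_v hb) (W_v hb')]
  congr 2
  module

theorem el_inv {a b : V} (ha : a ∈ L.W) (hb : b ∈ L.W) (t : F) :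
    (L.el a b t)⁻¹ = L.el (-a) (-b) (-t - polar Q b a) := by
  refine inv_eq_of_mul_eq_one_right ?_
  rw [L.el_mul ha hb (neg_mem ha) (neg_mem hb), polar_neg_right, ← L.el_zero]
  congr 1 <;> abel

theorem el_comm {a b a' b' : V} (ha : a ∈ L.W) (hb : b ∈ L.W) (ha' : a' ∈ L.W) (hb' : b' ∈ L.W)
    (t t' : F) :
    L.el a b t * L.el a' b' t' = L.el 0 0 (polar Q b' a - polar Q b a') *
      (L.el a' b' t' * L.el a b t) := by
  rw [L.el_mul ha hb ha' hb', L.el_mul ha' hb' ha hb,
    L.el_mul (zero_mem _) (zero_mem _) (add_mem ha' ha) (add_mem hb' hb)]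
  congr 1
  · abel
  · abel
  · simp; ring

theorem el_conj {a b a' b' : V} (ha : a ∈ L.W) (hb : b ∈ L.W) (ha' : a' ∈ L.W) (hb' : b' ∈ L.W)
    (t t' : F) :
    L.el a b t * L.el a' b' t' * (L.el a b t)⁻¹ =
      L.el a' b' (t' + (polar Q b' a - polar Q b a')) := by
  rw [L.el_comm ha hb ha' hb', mul_assoc, mul_assoc, mul_inv_cancel, mul_one,
    L.el_mul (zero_mem _) (zero_mem _) ha' hb']
  congr 1
  · abel
  · abel
  · simp; ring

theorem el_injective {a b a' b' : V} (ha : a ∈ L.W) (hb : b ∈ L.W) (ha' : a' ∈ L.W)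
    (hb' : b' ∈ L.W) {t t' : F} (h : L.el a b t = L.el a' b' t') : a = a' ∧ b = b' ∧ t = t' := by
  have h1 : ∀ (c d : V), c ∈ L.W → d ∈ L.W → ∀ s : F, (L.el c d s : V ≃ₗ[F] V) L.u' =
      (eich Q L.u (c + s • L.v) : V ≃ₗ[F] V) L.u' := by
    intro c d _ hd s
    rw [el, orth_mul_apply, eich_apply_of_ortho L.hv.left (W_v hd) L.vu'
      (by rw [polar_comm, W_u' hd])]
  have h2 := congrArg (fun k : orth Q => (k : V ≃ₗ[F] V) L.u') h
  simp only [h1 a b ha hb t, h1 a' b' ha' hb' t'] at h2
  rw [H4.eich_apply_partner L.hu (L.mem_pperp_u ha t),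
    H4.eich_apply_partner L.hu (L.mem_pperp_u ha' t')] at h2
  have ht := congrArg (fun x => polar Q L.v' x) h2
  have hv'v : polar Q L.v' L.v = 1 := by rw [polar_comm, L.hv.pair]
  simp [polar_add_right, polar_sub_right, polar_smul_right, L.v'u', L.v'u, hv'v, W_v' ha,
    W_v' ha'] at ht
  subst ht
  have hq := congrArg (fun x => polar Q L.u' x) h2
  have hu'u : polar Q L.u' L.u = 1 := by rw [polar_comm, L.hu.pair]
  simp [polar_add_right, polar_sub_right, polar_smul_right, polar_self', L.hu.right, hu'u, L.u'v,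
    W_u' ha, W_u' ha'] at hq
  rw [hq, sub_left_inj, add_right_inj, add_left_inj] at h2
  subst h2
  refine ⟨rfl, ?_, rfl⟩
  exact H4.eich_injOn L.hv (Submodule.mem_inf.1 hb).2 (Submodule.mem_inf.1 hb').2
    (mul_left_cancel h)

/-! ### Levi elements -/

/-- The element `u ↦ u - c v`. -/
noncomputable def up (c : F) : orth Q := eich Q L.v (c • L.u')

/-- The element `v ↦ v - c u`. -/
noncomputable def um (c : F) : orth Q := eich Q L.u (c • L.v')

theorem up_mem (c : F) : L.up c ∈ eichGroup Q := eich_mem_eichGroup _ _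

theorem um_mem (c : F) : L.um c ∈ eichGroup Q := eich_mem_eichGroup _ _

theorem up_conj {a b : V} (ha : a ∈ L.W) (hb : b ∈ L.W) (t c : F) :
    L.up c * L.el a b t * (L.up c)⁻¹ = L.el a (b - c • a) (t + c * Q a) := by
  have hc : polar Q L.v (c • L.u') = 0 := by rw [polar_smul_right, L.vu', smul_zero]
  have hfix : ∀ x, polar Q L.v x = 0 → polar Q L.u' x = 0 →
      (L.up c : V ≃ₗ[F] V) x = x := fun x h1 h2 =>
    eich_apply_of_ortho L.hv.left hc h1 (by rw [polar_smul_left, h2, smul_zero])
  have hgu : (L.up c : V ≃ₗ[F] V) L.u = L.u + (-c) • L.v := by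
    rw [up, eich_apply L.hv.left hc]
    simp [polar_smul_left, L.vu, polar_comm (⇑Q) L.u' L.u, L.hu.pair]
    module
  have h1 : L.up c * L.el a b t * (L.up c)⁻¹ =
      (L.up c * eich Q L.u (a + t • L.v) * (L.up c)⁻¹) *
        (L.up c * eich Q L.v b * (L.up c)⁻¹) := by rw [el]; group
  rw [h1, eich_conj, eich_conj, hgu,
    hfix (a + t • L.v) (by simp [polar_add_right, polar_smul_right, W_v ha, polar_self', L.hv.left])
      (by simp [polar_add_right, polar_smul_right, W_u' ha, L.u'v]),
    hfix L.v (by rw [polar_self', L.hv.left, mul_zero]) L.u'v, hfix b (W_v hb) (W_u' hb),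
    eich_add_left L.hu.left L.hv.left L.uv (L.polar_u_add ha t)
      (by simp [polar_add_right, polar_smul_right, W_v ha, polar_self', L.hv.left])]
  have hQ : Q (a + t • L.v) = Q a := by
    rw [H5.map_add_smul, L.hv.left, polar_comm (⇑Q) a L.v, W_v ha]; ring
  have hs : eich Q L.v ((-c) • (a + t • L.v)) = eich Q L.v ((-c) • a) := by
    rw [smul_add, smul_smul, eich_add_smul L.hv.left (by rw [polar_smul_right, W_v ha, smul_zero])]
  have hz : eich Q L.u ((-((-c) * Q a)) • L.v) = L.el 0 0 (c * Q a) := by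
    rw [el, eich_zero, mul_one, zero_add, neg_mul, neg_neg]
  have hmul := fun (x y z : orth Q) => mul_assoc x y z
  rw [hQ, hs, hz, eich_v_eq, eich_v_eq,
    show eich Q L.u (a + t • L.v) = L.el a 0 t by rw [el, eich_zero, mul_one],
    L.el_mul (zero_mem _) (Submodule.smul_mem _ _ ha) (zero_mem _) (zero_mem _),
    L.el_mul ha (zero_mem _) (add_mem (zero_mem _) (zero_mem _))
      (add_mem (Submodule.smul_mem _ _ ha) (zero_mem _)),
    L.el_mul (by simpa using ha) (by simpa using Submodule.smul_mem _ (-c) ha) (zero_mem _) hb]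
  congr 1
  · abel
  · module
  · simp

theorem eich_v_smul_u (k : F) : eich Q L.v (k • L.u) = L.el 0 0 (-k) := by
  have hq : Q (k • L.u) = 0 := by rw [QuadraticMap.map_smul, L.hu.left, smul_zero]
  rw [H4.eich_swap L.hv.left hq (by rw [polar_smul_right, L.vu, smul_zero]),
    eich_smul_smul L.hu.left (by rw [polar_neg_right, L.uv, neg_zero]), el, eich_zero, mul_one,
    zero_add, smul_neg, neg_smul]

theorem um_conj {a b : V} (ha : a ∈ L.W) (hb : b ∈ L.W) (t c : F) :
    L.um c * L.el a b t * (L.um c)⁻¹ = L.el (a - c • b) b (t + c * Q b) := by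
  have hc : polar Q L.u (c • L.v') = 0 := by rw [polar_smul_right, L.uv', smul_zero]
  have hfix : ∀ x, polar Q L.u x = 0 → polar Q L.v' x = 0 →
      (L.um c : V ≃ₗ[F] V) x = x := fun x h1 h2 =>
    eich_apply_of_ortho L.hu.left hc h1 (by rw [polar_smul_left, h2, smul_zero])
  have hgv : (L.um c : V ≃ₗ[F] V) L.v = L.v + (-c) • L.u := by
    rw [um, eich_apply L.hu.left hc]
    simp [polar_smul_left, L.uv, polar_comm (⇑Q) L.v' L.v, L.hv.pair]
    module
  have h1 : L.um c * L.el a b t * (L.um c)⁻¹ =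
      (L.um c * eich Q L.u (a + t • L.v) * (L.um c)⁻¹) *
        (L.um c * eich Q L.v b * (L.um c)⁻¹) := by rw [el]; group
  rw [h1, eich_conj, eich_conj, map_add, map_smul, hgv, hfix a (W_u ha) (W_v' ha),
    hfix L.u (by rw [polar_self', L.hu.left, mul_zero]) L.v'u, hfix b (W_u hb) (W_v' hb),
    eich_add_left L.hv.left L.hu.left L.vu (W_v hb) (W_u hb)]
  have hs : eich Q L.u (a + t • (L.v + (-c) • L.u)) = L.el a 0 t := by
    rw [smul_add, smul_smul, ← add_assoc, eich_add_smul L.hu.left (L.polar_u_add ha t), el,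
      eich_zero, mul_one]
  rw [hs, eich_v_eq, eich_u_eq, L.eich_v_smul_u,
    L.el_mul (Submodule.smul_mem _ _ hb) (zero_mem _) (zero_mem _) (zero_mem _),
    L.el_mul (zero_mem _) hb (by simpa using Submodule.smul_mem _ (-c) hb) (by simp),
    L.el_mul ha (zero_mem _) (by simpa using Submodule.smul_mem _ (-c) hb) (by simpa using hb)]
  congr 1
  · module
  · abel
  · simp [polar_smul_right, polar_neg_right, polar_self']
    ring

/-- An isometry acting on the two pairs by scalars. -/
theorem scal_conj {g : orth Q} {α β : F} (hgu : (g : V ≃ₗ[F] V) L.u = α • L.u)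
    (hgv : (g : V ≃ₗ[F] V) L.v = β • L.v) (hW : ∀ w ∈ L.W, (g : V ≃ₗ[F] V) w ∈ L.W)
    {a b : V} (ha : a ∈ L.W) (hb : b ∈ L.W) (t : F) :
    g * L.el a b t * g⁻¹ =
      L.el (α • (g : V ≃ₗ[F] V) a) (β • (g : V ≃ₗ[F] V) b) (α * β * t) := by
  have h1 : g * L.el a b t * g⁻¹ =
      (g * eich Q L.u (a + t • L.v) * g⁻¹) * (g * eich Q L.v b * g⁻¹) := by rw [el]; group
  rw [h1, eich_conj, eich_conj, map_add, map_smul, hgu, hgv,
    eich_smul_smul L.hv.left (W_v (hW b hb)),
    eich_smul_smul L.hu.left (by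
      rw [polar_add_right, polar_smul_right, polar_smul_right, W_u (hW a ha), L.uv, smul_zero,
        smul_zero, add_zero]), el, smul_add, smul_smul, smul_smul, show α * t * β = α * β * t by ring]

/-- The complement of the two pairs has codimension four. -/
theorem finrank_W [FiniteDimensional F V] : Module.finrank F L.W + 4 = Module.finrank F V := by
  let φ : V →ₗ[F] F × F × F × F :=
    (polarBilin Q L.u).prod ((polarBilin Q L.u').prod
      ((polarBilin Q L.v).prod (polarBilin Q L.v')))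
  have hk : LinearMap.ker φ = L.W := by
    ext x
    simp [φ, mem_W, polarBilin_apply_apply]
  have hs : LinearMap.range φ = ⊤ := by
    rw [LinearMap.range_eq_top]
    rintro ⟨p₁, p₂, p₃, p₄⟩
    refine ⟨p₁ • L.u' + p₂ • L.u + p₃ • L.v' + p₄ • L.v, ?_⟩
    simp [φ, polar_add_right, polar_smul_right, polar_self', L.hu.left, L.hu.right, L.hv.left,
      L.hv.right, L.hu.pair, L.hv.pair, L.uv, L.uv', L.u'v, L.u'v', L.vu, L.vu', L.v'u, L.v'u',
      polar_comm (⇑Q) L.u' L.u, polar_comm (⇑Q) L.v' L.v]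
  have h := LinearMap.finrank_range_add_finrank_ker φ
  rw [hk, hs, finrank_top] at h
  simp at h
  omega

/-- The complement of the two pairs is non-degenerate. -/
theorem W_inf_perp (hQ : (polarBilin Q).Nondegenerate) : L.W ⊓ H5.perp Q L.W = ⊥ := by
  rw [eq_bot_iff]
  rintro x ⟨hx, hx'⟩
  refine hQ.1 x fun y => ?_
  change polar Q x y = 0
  set y' := y - polar Q L.u' y • L.u - polar Q L.u y • L.u' - polar Q L.v' y • L.v
    - polar Q L.v y • L.v'
  have hy : y' ∈ L.W := by
    rw [mem_W]
    simp [y', polar_sub_right, polar_smul_right, polar_self', L.hu.left, L.hu.right, L.hv.left,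
      L.hv.right, L.hu.pair, L.hv.pair, L.uv, L.uv', L.u'v, L.u'v', L.vu, L.vu', L.v'u, L.v'u',
      polar_comm (⇑Q) L.u' L.u, polar_comm (⇑Q) L.v' L.v]
  have h := hx' y' hy
  change polar Q y' x = 0 at h
  rw [polar_comm] at h
  simpa [y', polar_sub_right, polar_smul_right, polar_comm (⇑Q) x, W_u hx, W_u' hx, W_v hx,
    W_v' hx] using h

/-- Elements fixing the frame, given by Eichler transformations of the complement. -/
theorem eich_W_fix {e x : V} (he : e ∈ L.W) (hx : x ∈ L.W) (he0 : Q e = 0)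
    (hex : polar Q e x = 0) :
    (eich Q e x : V ≃ₗ[F] V) L.u = L.u ∧ (eich Q e x : V ≃ₗ[F] V) L.v = L.v ∧
      ∀ w ∈ L.W, (eich Q e x : V ≃ₗ[F] V) w ∈ L.W := by
  refine ⟨eich_apply_of_ortho he0 hex (by rw [polar_comm, W_u he]) (by rw [polar_comm, W_u hx]),
    eich_apply_of_ortho he0 hex (by rw [polar_comm, W_v he]) (by rw [polar_comm, W_v hx]),
    fun w hw => ?_⟩
  rw [eich_apply he0 hex]
  exact sub_mem (sub_mem (add_mem hw (Submodule.smul_mem _ _ hx)) (Submodule.smul_mem _ _ he))
    (Submodule.smul_mem _ _ he)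

end LineFrame

end Cfsg.Agent.H3.OIdx
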