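import Cfsg.Agent.H3.OIdx.Orbit

/-!
The product of a totally singular plane with itself as projection in dimension eight: large index
or the exceptional configuration.
-/

set_option autoImplicit false

namespace Cfsg.Agent.H3.OIdx

open QuadraticMap hiding sq
open Module
open Cfsg.Agent.H5 (orth eich eichGroup eich_mem_eichGroup HypPair pairScale polar_self'
  orth_mul_apply)

variable {F V : Type*} [Field F] [Finite F] [AddCommGroup V] [Module F V] [FiniteDimensional F V]
  [Finite V] {Q : QuadraticForm F V} {L : LineFrame Q}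

omit [Finite F] [Finite V] in
/-- Partners of a basis of a totally singular plane inside the complement. -/
theorem exists_plane_frame (hQ : (polarBilin Q).Nondegenerate) {E : Submodule F V} (hE : E ≤ L.W)
    (hEs : ∀ x ∈ E, Q x = 0) (hE2 : finrank F E = 2) :
    ∃ M : LineFrame Q, M.u ∈ E ∧ M.v ∈ E ∧ M.u' ∈ L.W ∧ M.v' ∈ L.W ∧
      ∀ a ∈ E, ∃ s t : F, a = s • M.u + t • M.v := by
  have hr := H5.restrict_nondegenerate (L.W_inf_perp hQ)
  let b := Module.finBasisOfFinrankEq F E hE2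
  set x : L.W := ⟨b 0, hE (b 0).2⟩
  set y : L.W := ⟨b 1, hE (b 1).2⟩
  have hind : y ∉ Submodule.span F {x} := by
    intro hy
    obtain ⟨t, ht⟩ := Submodule.mem_span_singleton.1 hy
    have ht' := congrArg (fun z : L.W => (z : V)) ht
    have h2 : t • b 0 = b 1 := Subtype.ext ht'
    have h1 := congrArg (fun z => b.repr z 1) h2
    simp at h1
  have hx0 : x ≠ 0 := fun h =>
    b.ne_zero 0 (Subtype.ext (show ((b 0 : E) : V) = 0 from congrArg Subtype.val h))
  obtain ⟨x₁, hx1, hy1⟩ := H5.exists_polar_pair hr hx0 hind 1 0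
  obtain ⟨y₁, hx2, hy2⟩ := H5.exists_polar_pair hr hx0 hind 0 1
  have qx : Q (b 0 : V) = 0 := hEs _ (b 0).2
  have qy : Q (b 1 : V) = 0 := hEs _ (b 1).2
  have exy : polar Q (b 0 : V) (b 1 : V) = 0 :=
    H4.polar_eq_zero_of_singular hEs (b 0).2 (b 1).2
  have a1 : polar Q (b 0 : V) (x₁ : V) = 1 := hx1
  have a2 : polar Q (b 1 : V) (x₁ : V) = 0 := hy1
  have a3 : polar Q (b 0 : V) (y₁ : V) = 0 := hx2
  have a4 : polar Q (b 1 : V) (y₁ : V) = 1 := hy2
  set x' : V := (x₁ : V) + (-Q (x₁ : V)) • (b 0 : V)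
  set y₂ : V := (y₁ : V) + (-polar Q x' (y₁ : V)) • (b 0 : V) with hy₂
  set y' : V := y₂ + (-Q y₂) • (b 1 : V) with hy'
  have b1 : polar Q (b 0 : V) x' = 1 := by
    simp [x', polar_add_right, polar_smul_right, polar_self', qx, a1]
  have b2 : polar Q (b 1 : V) x' = 0 := by
    simp [x', polar_add_right, polar_smul_right, polar_comm (⇑Q) (b 1 : V) (b 0 : V), exy, a2]
  have c1 : polar Q (b 0 : V) y₂ = 0 := by
    simp [hy₂, polar_add_right, polar_smul_right, polar_self', qx, a3]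
  have c2 : polar Q (b 1 : V) y₂ = 1 := by
    simp [hy₂, polar_add_right, polar_smul_right, polar_comm (⇑Q) (b 1 : V) (b 0 : V), exy, a4]
  have c3 : polar Q x' y₂ = 0 := by
    rw [hy₂, polar_add_right, polar_smul_right, polar_comm (⇑Q) x' (b 0 : V), b1]
    simp
  refine ⟨⟨b 0, x', b 1, y', ⟨qx, ?_, b1⟩, ⟨qy, ?_, ?_⟩, exy, ?_, ?_, ?_⟩,
    (b 0).2, (b 1).2, ?_, ?_, ?_⟩
  · rw [H5.map_add_smul, qx, polar_comm (⇑Q) (x₁ : V), a1]; ring
  · rw [hy', H5.map_add_smul, qy, polar_comm (⇑Q) y₂, c2]; ring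
  · rw [hy', polar_add_right, polar_smul_right, polar_self', qy, c2]; simp
  · rw [hy', polar_add_right, polar_smul_right, c1, exy]; simp
  · rw [polar_comm]; exact b2
  · rw [hy', polar_add_right, polar_smul_right, c3, polar_comm (⇑Q) x' (b 1 : V), b2]; simp
  · exact L.W.add_mem x₁.2 (L.W.smul_mem _ (hE (b 0).2))
  · exact L.W.add_mem (L.W.add_mem y₁.2 (L.W.smul_mem _ (hE (b 0).2)))
      (L.W.smul_mem _ (hE (b 1).2))
  · intro a ha
    refine ⟨b.repr ⟨a, ha⟩ 0, b.repr ⟨a, ha⟩ 1, ?_⟩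
    have := congrArg Subtype.val (b.sum_repr ⟨a, ha⟩)
    simp only [Fin.sum_univ_two, Submodule.coe_add, Submodule.coe_smul] at this
    exact this.symm

/-- A totally singular plane times itself as projection: large index or exceptional data. -/
theorem prod_plane_cases (hQ : (polarBilin Q).Nondegenerate) (hn : finrank F V = 8)
    {H : Subgroup (orth Q)} (hH : H ≤ eichGroup Q) (hz : L.zset (H ⊓ L.rad) = ⊥)
    {E : Submodule F V} (hE : E ≤ L.W) (hEs : ∀ x ∈ E, Q x = 0) (hE2 : finrank F E = 2)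
    (hp : ∀ p : V × V, p ∈ L.proj (H ⊓ L.rad) ↔ p.1 ∈ E ∧ p.2 ∈ E) :
    (Nat.card F + 2) * Nat.card F ^ (finrank F L.W + 1) ≤ H.relIndex (eichGroup Q) ∨
      ∃ x ∈ eichGroup Q, Exc (cj H x) := by
  set D := H ⊓ L.rad with hD
  have hw : finrank F L.W = 4 := by have := L.finrank_W; omega
  have hz' : ∀ t, L.el 0 0 t ∈ D → t = 0 := fun t ht => by
    have : t ∈ L.zset D := ht
    rwa [hz, AddSubgroup.mem_bot] at this
  have hEp : ∀ a ∈ E, ∀ b ∈ E, polar Q a b = 0 := fun a ha b hb =>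
    H4.polar_eq_zero_of_singular hEs ha hb
  have hex : ∀ p : E × E, ∃ t, L.el (p.1 : V) (p.2 : V) t ∈ D := fun p =>
    ((hp ((p.1 : V), (p.2 : V))).2 ⟨p.1.2, p.2.2⟩).2.2
  choose τ hτ using hex
  have huniq : ∀ (p : E × E) (t : F), L.el (p.1 : V) (p.2 : V) t ∈ D → t = τ p := fun p t ht =>
    proj_el hz' (hE p.1.2) (hE p.2.2) ht (hτ p)
  have hadd : ∀ p r, τ (p + r) = τ p + τ r := fun p r => by
    refine (huniq (p + r) _ ?_).symm
    have := mul_mem (hτ p) (hτ r)
    rw [L.el_mul (hE p.1.2) (hE p.2.2) (hE r.1.2) (hE r.2.2), hEp _ p.2.2 _ r.1.2, sub_zero] at this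
    simpa using this
  obtain ⟨M, hMu, hMv, hMu', hMv', hspan⟩ := exists_plane_frame (L := L) hQ hE hEs hE2
  by_cases hlin : ∀ (t : F) (p : E × E), τ (t • p) = t * τ p
  · right
    set X : E := ⟨M.u, hMu⟩
    set Y : E := ⟨M.v, hMv⟩
    set a₀ : V := -(τ (0, X)) • M.u' - (τ (0, Y)) • M.v'
    set b₀ : V := τ (X, 0) • M.u' + (τ (Y, 0)) • M.v'
    have ha₀ : a₀ ∈ L.W := sub_mem (Submodule.smul_mem _ _ hMu') (Submodule.smul_mem _ _ hMv')
    have hb₀ : b₀ ∈ L.W := add_mem (Submodule.smul_mem _ _ hMu') (Submodule.smul_mem _ _ hMv')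
    refine ⟨L.el a₀ b₀ 0, L.el_mem_eichGroup _ _ _, hn, L, E, hE, hEs, hE2, ?_⟩
    have h00 : τ 0 = 0 := by
      have := hlin 0 0
      rwa [zero_smul, zero_mul] at this
    have key : ∀ p : E × E, L.el (p.1 : V) (p.2 : V) 0 ∈ cj H (L.el a₀ b₀ 0) := fun p => by
      refine ⟨_, (hτ p).1, ?_⟩
      change L.el a₀ b₀ 0 * _ * _ = _
      rw [L.el_conj ha₀ hb₀ (hE p.1.2) (hE p.2.2)]
      congr 1
      obtain ⟨s, t, hst⟩ := hspan _ p.1.2
      obtain ⟨s', t', hst'⟩ := hspan _ p.2.2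
      have hp' : p = (s • ((X, 0) : E × E) + t • ((Y, 0) : E × E)) +
          (s' • ((0, X) : E × E) + t' • ((0, Y) : E × E)) := by
        refine Prod.ext (Subtype.ext ?_) (Subtype.ext ?_) <;> simp [X, Y, hst, hst']
      have hτp : τ p = (s * τ (X, 0) + t * τ (Y, 0)) + (s' * τ (0, X) + t' * τ (0, Y)) := by
        conv_lhs => rw [hp']
        rw [hadd, hadd, hadd, hlin, hlin, hlin, hlin]
      rw [hτp, hst, hst']
      simp [a₀, b₀, polar_add_left, polar_add_right, polar_sub_right, polar_smul_left,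
        polar_smul_right, polar_neg_right, M.hu.pair, M.hv.pair, M.uv', M.vu',
        polar_comm (⇑Q) M.u' M.u, polar_comm (⇑Q) M.v' M.v, M.v'u, M.u'v]
      ring
    intro a ha
    refine ⟨?_, ?_⟩
    · rw [L.eich_u_eq]; exact key (⟨a, ha⟩, 0)
    · rw [L.eich_v_eq]; exact key (0, ⟨a, ha⟩)
  left
  obtain ⟨α, hα0, hα1⟩ : ∃ s : F, s ≠ 0 ∧ s * s ≠ 1 := by
    by_contra! hall
    refine hlin fun t p => ?_
    have h0 := hadd 0 0
    rw [add_zero, left_eq_add] at h0
    by_cases ht : t = 0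
    · subst ht
      rw [zero_smul, h0, zero_mul]
    rcases mul_self_eq_one_iff.1 (hall t ht) with rfl | rfl
    · rw [one_smul, one_mul]
    · have h1 := hadd p ((-1 : F) • p)
      rw [neg_one_smul, add_neg_cancel, h0] at h1
      rw [neg_one_smul]
      linear_combination -h1
  -- the element scaling the line by `α` and the plane by `α⁻¹`
  set g : orth Q := (pairScale Q L.u L.u' α * pairScale Q L.v L.v' α) *
    (pairScale Q M.u M.u' α⁻¹ * pairScale Q M.v M.v' α⁻¹)
  have hα' : α⁻¹ ≠ 0 := inv_ne_zero hα0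
  have hg : g ∈ eichGroup Q := mul_mem (pairScale_mul_mem hQ (by omega) L.hu L.hv hα0)
    (pairScale_mul_mem hQ (by omega) M.hu M.hv hα')
  have hWM : ∀ z, polar Q z M.u = 0 → polar Q z M.u' = 0 → polar Q z M.v = 0 →
      polar Q z M.v' = 0 →
      (pairScale Q M.u M.u' α⁻¹ * pairScale Q M.v M.v' α⁻¹ : orth Q).1 z = z := by
    intro z h1 h2 h3 h4
    change ((pairScale Q M.u M.u' α⁻¹ * pairScale Q M.v M.v' α⁻¹ : orth Q) : V ≃ₗ[F] V) z = z
    rw [orth_mul_apply, pairScale_fix M.hv hα' (by rw [polar_comm, h3]) (by rw [polar_comm, h4]),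
      pairScale_fix M.hu hα' (by rw [polar_comm, h1]) (by rw [polar_comm, h2])]
  have hgu : (g : V ≃ₗ[F] V) L.u = α • L.u := by
    rw [orth_mul_apply, hWM _ (LineFrame.W_u (hE hMu)) (LineFrame.W_u hMu')
      (LineFrame.W_u (hE hMv)) (LineFrame.W_u hMv'), orth_mul_apply,
      pairScale_fix L.hv hα0 L.vu L.v'u, pairScale_left L.hu hα0]
  have hgv : (g : V ≃ₗ[F] V) L.v = α • L.v := by
    rw [orth_mul_apply, hWM _ (LineFrame.W_v (hE hMu)) (LineFrame.W_v hMu')
      (LineFrame.W_v (hE hMv)) (LineFrame.W_v hMv'), orth_mul_apply,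
      pairScale_left L.hv hα0, map_smul, pairScale_fix L.hu hα0 L.uv L.u'v]
  have hfixW : ∀ w ∈ L.W,
      ((pairScale Q L.u L.u' α * pairScale Q L.v L.v' α : orth Q) : V ≃ₗ[F] V) w = w := fun w hw => by
    rw [orth_mul_apply, pairScale_fix L.hv hα0 (LineFrame.W_v hw) (LineFrame.W_v' hw),
      pairScale_fix L.hu hα0 (LineFrame.W_u hw) (LineFrame.W_u' hw)]
  have hinW : ∀ w ∈ L.W,
      ((pairScale Q M.u M.u' α⁻¹ * pairScale Q M.v M.v' α⁻¹ : orth Q) : V ≃ₗ[F] V) w ∈ L.W := by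
    intro w hw
    have one : ∀ e f : V, e ∈ L.W → f ∈ L.W → HypPair Q e f → ∀ z ∈ L.W,
        (pairScale Q e f α⁻¹ : V ≃ₗ[F] V) z ∈ L.W := fun e f he hf hef z hz' => by
      rw [hef.pairScale_apply hα']
      exact add_mem (add_mem (Submodule.smul_mem _ _ he) (Submodule.smul_mem _ _ hf))
        (sub_mem (sub_mem hz' (Submodule.smul_mem _ _ he)) (Submodule.smul_mem _ _ hf))
    rw [orth_mul_apply]
    exact one _ _ (hE hMu) hMu' M.hu _ (one _ _ (hE hMv) hMv' M.hv _ hw)
  have hgW : ∀ w ∈ L.W, (g : V ≃ₗ[F] V) w ∈ L.W := fun w hw => by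
    rw [orth_mul_apply, hfixW _ (hinW w hw)]; exact hinW w hw
  have hgE : ∀ a ∈ E, (g : V ≃ₗ[F] V) a = α⁻¹ • a := fun a ha => by
    obtain ⟨s, t, rfl⟩ := hspan a ha
    rw [orth_mul_apply, hfixW _ (hinW _ (hE ha)), map_add, map_smul, map_smul, orth_mul_apply,
      orth_mul_apply, pairScale_fix M.hv hα' M.vu M.v'u, pairScale_left M.hu hα',
      pairScale_left M.hv hα', map_smul, pairScale_fix M.hu hα' M.uv M.u'v]
    module
  let d := Lev.scalL L hg (mul_ne_zero hα0 hα0) hgu hgv hgW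
  have hdφ : ∀ p : V × V, p ∈ L.proj D → d.φ p = p := fun p hp' => by
    obtain ⟨h1, h2⟩ := (hp p).1 hp'
    simp [d, Lev.scalL, hgE _ h1, hgE _ h2, smul_smul, hα0]
  have hdel : ∀ a ∈ E, ∀ b ∈ E, ∀ t, d.g * L.el a b t * d.g⁻¹ = L.el a b (α * α * t) :=
      fun a ha b hb t => by
    change g * L.el a b t * g⁻¹ = _
    rw [L.scal_conj hgu hgv hgW (hE ha) (hE hb), hgE a ha, hgE b hb, smul_smul, smul_smul,
      mul_inv_cancel₀ hα0, one_smul, one_smul]
  obtain ⟨e, he, heq, T, hT, hTc, hTinj⟩ := exists_moves hQ (L := L) (by omega) hE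
    (fun h => by rw [h, finrank_bot] at hE2; omega)
  rw [hw, hE2] at hTc
  have key := orbit_count hH (fun p : T × Bool =>
    if p.2 then (Lev.wL L he (hT p.1 p.1.2).1 heq (hT p.1 p.1.2).2).comp d
      else Lev.wL L he (hT p.1 p.1.2).1 heq (hT p.1 p.1.2).2) ?_
  · rw [hz, AddSubgroup.card_bot, one_mul] at key
    have hc : Nat.card (L.proj D) = Nat.card F ^ 4 := by
      rw [show Nat.card F ^ 4 = Nat.card (E × E) by
        rw [Nat.card_prod, Module.natCard_eq_pow_finrank (K := F) (V := E), hE2, ← pow_add]]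
      exact Nat.card_congr
        { toFun := fun p => (⟨p.1.1, ((hp p.1).1 p.2).1⟩, ⟨p.1.2, ((hp p.1).1 p.2).2⟩)
          invFun := fun p => ⟨((p.1 : V), (p.2 : V)), (hp _).2 ⟨p.1.2, p.2.2⟩⟩
          left_inv := fun p => rfl
          right_inv := fun p => rfl }
    rw [hc, Nat.card_prod, Nat.card_eq_fintype_card (α := Bool), Fintype.card_bool, hw] at key
    rw [hw]
    refine Nat.le_of_mul_le_mul_right (le_trans ?_ key) (pow_pos Nat.card_pos 4)
    rw [mul_assoc, ← pow_add]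
    refine Nat.mul_le_mul_right _ ?_
    rw [Nat.card_coe_set_eq]
    have := Finite.one_lt_card (α := F)
    rw [show 4 - 1 - 2 = 1 from rfl, pow_one] at hTc
    omega
  · intro i j x hx hij
    have himg := image_eq_of_conj (inf_le_right : D ≤ L.rad) _ _ hx hij
    have e' : ∀ k : T × Bool, (if k.2 then (Lev.wL L he (hT k.1 k.1.2).1 heq (hT k.1 k.1.2).2).comp d
        else Lev.wL L he (hT k.1 k.1.2).1 heq (hT k.1 k.1.2).2).φ '' (L.proj D : Set (V × V)) =
        (Lev.wL L he (hT k.1 k.1.2).1 heq (hT k.1 k.1.2).2).φ '' (L.proj D : Set (V × V)) := by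
      rintro ⟨c, b⟩
      cases b
      · rfl
      · exact Set.image_congr fun p hp' => by simp [Lev.comp, hdφ p hp']
    rw [e' i, e' j] at himg
    obtain ⟨a, b⟩ := i
    obtain ⟨a', b'⟩ := j
    obtain rfl : a = a' := by
      refine Subtype.ext (hTinj a a.2 a' a'.2 fun z hz => ?_)
      obtain ⟨r, hr, hre⟩ := himg.le ⟨(z, 0), (hp _).2 ⟨hz, zero_mem _⟩, rfl⟩
      simp only [Lev.wL_φ, Prod.mk.injEq] at hre
      have hd : polar Q e (a' : V) = 0 := (hT a' a'.2).2
      rw [show ((a : V) - a') = -(a' : V) + a by abel, ← H5.eich_mul heq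
        (by rw [polar_neg_right, hd, neg_zero]) (hT a a.2).2, ← H5.eich_inv heq hd, orth_mul_apply,
        ← hre.1, H5.orth_inv_apply_apply]
      exact ((hp r).1 hr).1
    have hno : ∀ y ∈ L.rad, D.map (MulAut.conj (y * d.g)).toMonoidHom ≠ D ∧
        D.map (MulAut.conj y).toMonoidHom ≠ D.map (MulAut.conj d.g).toMonoidHom := by
      rintro _ ⟨c₀, hc₀, d₀, hd₀, t₀, rfl⟩
      constructor
      · intro he'
        refine hlin fun t p => ?_
        have h1 : ∀ p : E × E, α * α * τ p +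
            (polar Q (p.2 : V) c₀ - polar Q d₀ (p.1 : V)) = τ p := fun p => huniq p _ (by
          rw [← he']
          refine ⟨_, hτ p, ?_⟩
          change L.el c₀ d₀ t₀ * d.g * _ * (L.el c₀ d₀ t₀ * d.g)⁻¹ = _
          rw [show ∀ z : orth Q, L.el c₀ d₀ t₀ * d.g * z * (L.el c₀ d₀ t₀ * d.g)⁻¹ =
            L.el c₀ d₀ t₀ * (d.g * z * d.g⁻¹) * (L.el c₀ d₀ t₀)⁻¹ from fun z => by group,
            hdel _ p.1.2 _ p.2.2, L.el_conj hc₀ hd₀ (hE p.1.2) (hE p.2.2)])
        have e1 := h1 p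
        have e2 := h1 (t • p)
        rw [Prod.smul_fst, Prod.smul_snd, Submodule.coe_smul, Submodule.coe_smul, polar_smul_left,
          polar_smul_right, smul_eq_mul, smul_eq_mul] at e2
        exact mul_left_cancel₀ (sub_ne_zero.2 hα1) (by linear_combination e2 - t * e1)
      · intro he'
        refine hlin fun t p => ?_
        have h1 : ∀ p : E × E, τ p + (polar Q (p.2 : V) c₀ - polar Q d₀ (p.1 : V)) =
            α * α * τ p := fun p => by
          have hm : L.el (p.1 : V) (p.2 : V)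
              (τ p + (polar Q (p.2 : V) c₀ - polar Q d₀ (p.1 : V))) ∈
                D.map (MulAut.conj d.g).toMonoidHom := by
            rw [← he']
            exact ⟨_, hτ p, L.el_conj hc₀ hd₀ (hE p.1.2) (hE p.2.2) _ _⟩
          obtain ⟨z, hzD, hze⟩ := hm
          change d.g * z * d.g⁻¹ = _ at hze
          have hαα : α * α ≠ 0 := mul_ne_zero hα0 hα0
          set r := τ p + (polar Q (p.2 : V) c₀ - polar Q d₀ (p.1 : V))
          have hpre : L.el (p.1 : V) (p.2 : V) ((α * α)⁻¹ * r) ∈ D := by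
            have h3 := hdel _ p.1.2 _ p.2.2 ((α * α)⁻¹ * r)
            rw [← mul_assoc (α * α), mul_inv_cancel₀ hαα, one_mul, ← hze] at h3
            rwa [mul_left_cancel (mul_right_cancel h3)]
          have h4 := congrArg (α * α * ·) (huniq p _ hpre)
          simp only [← mul_assoc, mul_inv_cancel₀ hαα, one_mul] at h4
          exact h4
        have e1 := h1 p
        have e2 := h1 (t • p)
        rw [Prod.smul_fst, Prod.smul_snd, Submodule.coe_smul, Submodule.coe_smul, polar_smul_left,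
          polar_smul_right, smul_eq_mul, smul_eq_mul] at e2
        exact mul_left_cancel₀ (sub_ne_zero.2 hα1) (by linear_combination t * e1 - e2)
    set m := Lev.wL L he (hT a a.2).1 heq (hT a a.2).2
    have hx' : m.g⁻¹ * x * m.g ∈ L.rad := by
      have := m.map_rad.ge hx
      rw [Subgroup.mem_map_equiv, MulAut.conj_symm_apply] at this
      exact this
    have hstrip : ∀ g₁ g₂ : orth Q, D.map (MulAut.conj (x * (m.g * g₁))).toMonoidHom =
        D.map (MulAut.conj (m.g * g₂)).toMonoidHom →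
        D.map (MulAut.conj (m.g⁻¹ * x * m.g * g₁)).toMonoidHom =
          D.map (MulAut.conj g₂).toMonoidHom := fun g₁ g₂ he' => by
      have h3 := congrArg (fun K => K.map (MulAut.conj m.g⁻¹).toMonoidHom) he'
      change cj (cj D _) _ = cj (cj D _) _ at h3
      rw [cj_mul, cj_mul] at h3
      convert h3 using 4 <;> group
    cases b <;> cases b'
    · rfl
    · exfalso
      simp only [Bool.false_eq_true, if_false, if_true, Lev.comp] at hij
      refine (hno _ hx').2 ?_
      have := hstrip 1 d.g (by rwa [mul_one])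
      rwa [mul_one] at this
    · exfalso
      simp only [Bool.false_eq_true, if_false, if_true, Lev.comp] at hij
      refine (hno _ hx').1 ?_
      have := hstrip d.g 1 (by rwa [mul_one])
      rwa [map_one, show (MulEquiv.toMonoidHom (1 : MulAut (orth Q))) = MonoidHom.id _ from rfl,
        Subgroup.map_id] at this
    · rfl

end Cfsg.Agent.H3.OIdx
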