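import Cfsg.Agent.H3.OIdx.LocalUp
import Cfsg.Agent.H3.OIdx.LocalExc

/-!
Local analysis at a totally singular line: a proper subgroup of `Ω` has index at least
`(q + 2) q ^ (n - 3)` or a conjugate has a large point or the exceptional configuration.
-/

set_option autoImplicit false

namespace Cfsg.Agent.H3.OIdx

open QuadraticMap hiding sq
open Module
open Cfsg.Agent.H5 (orth eich eichGroup eich_mem_eichGroup polar_self')

variable {F V : Type*} [Field F] [Finite F] [AddCommGroup V] [Module F V] [FiniteDimensional F V]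
  [Finite V] {Q : QuadraticForm F V} {L : LineFrame Q}

theorem natCard_prod_eq {E : Submodule F V} {A : AddSubgroup (V × V)}
    (hA : ∀ p : V × V, p ∈ A ↔ p.1 ∈ E ∧ p.2 ∈ E) :
    Nat.card A = Nat.card F ^ (2 * finrank F E) := by
  rw [show Nat.card F ^ (2 * finrank F E) = Nat.card (E × E) by
    rw [Nat.card_prod, Module.natCard_eq_pow_finrank (K := F) (V := E), two_mul, pow_add]]
  exact Nat.card_congr
    { toFun := fun p => (⟨p.1.1, ((hA p.1).1 p.2).1⟩, ⟨p.1.2, ((hA p.1).1 p.2).2⟩)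
      invFun := fun p => ⟨((p.1 : V), (p.2 : V)), (hA _).2 ⟨p.1.2, p.2.2⟩⟩
      left_inv := fun p => rfl
      right_inv := fun p => rfl }

theorem one_le_trans (A : Set (V × V)) : 1 ≤ (trans L A).ncard :=
  (Set.ncard_pos (Set.toFinite _)).2 ⟨_, Lev.upL L 0, rfl, rfl⟩

/-- An isotropic product: totally isotropic factor of at most half the dimension. -/
theorem prod_isotropic (hQ : (polarBilin Q).Nondegenerate) {Z : AddSubgroup F} (hZ : Z ≠ ⊤)
    {A : AddSubgroup (V × V)} (hA : (A : Set (V × V)) ⊆ L.WW)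
    (hiso : ∀ p ∈ A, ∀ r ∈ A, L.beta p r ∈ Z) {E : Submodule F V}
    (hAE : ∀ p : V × V, p ∈ A ↔ p.1 ∈ E ∧ p.2 ∈ E) :
    (∀ a ∈ E, ∀ b ∈ E, polar Q a b = 0) ∧ 2 * finrank F E ≤ finrank F L.W := by
  refine ⟨fun a ha b hb => ?_, ?_⟩
  · by_contra hab
    refine hZ ((AddSubgroup.eq_top_iff' _).2 fun z => ?_)
    have := hiso (((z / polar Q a b) • a, 0)) ((hAE _).2 ⟨E.smul_mem _ ha, zero_mem _⟩)
      ((0, b)) ((hAE _).2 ⟨zero_mem _, hb⟩)
    simpa [LineFrame.beta, polar_smul_right, polar_comm (⇑Q) b a, div_mul_cancel₀ _ hab] using this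
  · have h := card_le_of_isotropic (L := L) hQ Z hZ A hA hiso
    rw [natCard_prod_eq hAE] at h
    exact (Nat.pow_le_pow_iff_right Finite.one_lt_card).1 h

/-- Turning the orbit inequality into the bound. -/
theorem bound_of_le {N T X q w : ℕ} (h : T * q ^ (2 * w + 1) ≤ N * X) (hX : 0 < X)
    (hT : (q + 2) * X ≤ T * q ^ w) : (q + 2) * q ^ (w + 1) ≤ N := by
  refine Nat.le_of_mul_le_mul_right (le_trans ?_ h) hX
  calc (q + 2) * q ^ (w + 1) * X = (q + 2) * X * q ^ (w + 1) := by ring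
    _ ≤ T * q ^ w * q ^ (w + 1) := Nat.mul_le_mul_right _ hT
    _ = T * q ^ (2 * w + 1) := by ring

/-- A partial central part forces large index. -/
theorem bound_of_partial (hQ : (polarBilin Q).Nondegenerate) (hn : 7 ≤ finrank F V)
    {H : Subgroup (orth Q)} (hH : H ≤ eichGroup Q) (h0 : L.zset (H ⊓ L.rad) ≠ ⊥)
    (h1 : L.zset (H ⊓ L.rad) ≠ ⊤) :
    (Nat.card F + 2) * Nat.card F ^ (finrank F L.W + 1) ≤ H.relIndex (eichGroup Q) := by
  have hw : 3 ≤ finrank F L.W := by have := L.finrank_W; omega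
  have key := trans_mul_scalings_le (L := L) hQ hn hH
  have hs := mul_le_scalings _ h0 h1
  set q := Nat.card F
  set w := finrank F L.W
  have hq : 2 ≤ q := Finite.one_lt_card
  set A := L.proj (H ⊓ L.rad)
  set Z := L.zset (H ⊓ L.rad)
  set T := (trans L (A : Set (V × V))).ncard
  set R := {S : Set F | ∃ t : F, t ≠ 0 ∧ S = (t * ·) '' Z}.ncard
  have hA : (A : Set (V × V)) ⊆ L.WW := LineFrame.proj_subset _
  have hiso : ∀ p ∈ A, ∀ r ∈ A, L.beta p r ∈ Z := fun p hp r hr =>
    LineFrame.beta_mem_zset hp hr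
  have hmain : q * Nat.card A ≤ T * q ^ w := by
    by_cases hT : T < q
    · obtain ⟨E, hE, hAE⟩ := exists_prod_of_few A hA hT
      obtain ⟨hEp, hr⟩ := prod_isotropic hQ h1 hA hiso hAE
      rw [natCard_prod_eq hAE]
      rcases Nat.lt_or_ge (2 * finrank F E) w with hlt | hge
      · calc q * q ^ (2 * finrank F E) = q ^ (2 * finrank F E + 1) := by ring
          _ ≤ q ^ w := Nat.pow_le_pow_right (by omega) (by omega)
          _ ≤ T * q ^ w := Nat.le_mul_of_pos_left _ (one_le_trans _)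
      · have h2 := pow_le_trans_prod hQ hn hE (fun hb => by
          rw [hb, finrank_bot] at hge; omega) (A := A) hAE le_rfl (fun hb => by
          rw [hb, finrank_bot] at hge; omega) fun k hk y hy => hk y hy
        have h3 : q ≤ T := le_trans (Nat.le_self_pow (by omega) q) h2
        exact Nat.mul_le_mul h3 (Nat.pow_le_pow_right (by omega) hr)
    · exact Nat.mul_le_mul (not_lt.1 hT) (card_le_of_isotropic hQ Z h1 A hA hiso)
  refine bound_of_le key (Nat.mul_pos Nat.card_pos Nat.card_pos) ?_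
  refine Nat.le_of_mul_le_mul_right (c := q) ?_ (by omega)
  calc (q + 2) * (Nat.card Z * Nat.card A) * q = ((q + 2) * Nat.card Z) * (q * Nat.card A) := by ring
    _ ≤ (R * q) * (T * q ^ w) := Nat.mul_le_mul hs hmain
    _ = T * R * q ^ w * q := by ring

/-- A full isotropic subspace as projection with trivial central part. -/
theorem cases_of_full (hQ : (polarBilin Q).Nondegenerate) (hn : 7 ≤ finrank F V)
    {H : Subgroup (orth Q)} (hH : H ≤ eichGroup Q) (hz : L.zset (H ⊓ L.rad) = ⊥)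
    (S : Submodule F (V × V)) (hAS : ∀ p, p ∈ L.proj (H ⊓ L.rad) ↔ p ∈ S)
    (hd : finrank F S = finrank F L.W) (hiso : ∀ p ∈ S, ∀ r ∈ S, L.beta p r = 0)
    (hprod : ¬∃ E : Submodule F V, E ≤ L.W ∧ ∀ p : V × V, p ∈ S ↔ p.1 ∈ E ∧ p.2 ∈ E)
    (hkey : ∀ T, T ≤ (trans L (S : Set (V × V))).ncard →
      Nat.card F + 2 ≤ T →
      (Nat.card F + 2) * Nat.card F ^ (finrank F L.W + 1) ≤ H.relIndex (eichGroup Q)) :
    (Nat.card F + 2) * Nat.card F ^ (finrank F L.W + 1) ≤ H.relIndex (eichGroup Q) ∨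
      ∃ x ∈ eichGroup Q, Good (cj H x) := by
  have hS : S ≤ L.WW := fun p hp => LineFrame.proj_subset _ ((hAS p).2 hp)
  -- the case of an upper fixed subspace
  have upcase : ∀ (H : Subgroup (orth Q)), H ≤ eichGroup Q → L.zset (H ⊓ L.rad) = ⊥ →
      ∀ S : Submodule F (V × V), (∀ p, p ∈ L.proj (H ⊓ L.rad) ↔ p ∈ S) → UpFixed S →
      finrank F S = finrank F L.W → (∀ p ∈ S, ∀ r ∈ S, L.beta p r = 0) →
      (¬∃ E : Submodule F V, E ≤ L.W ∧ ∀ p : V × V, p ∈ S ↔ p.1 ∈ E ∧ p.2 ∈ E) →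
      (∀ T, T ≤ (trans L (S : Set (V × V))).ncard → Nat.card F + 2 ≤ T →
        (Nat.card F + 2) * Nat.card F ^ (finrank F L.W + 1) ≤ H.relIndex (eichGroup Q)) →
      (Nat.card F + 2) * Nat.card F ^ (finrank F L.W + 1) ≤ H.relIndex (eichGroup Q) ∨
        ∃ v, Large H v := by
    intro H hH hz S hAS hup hd hiso hprod hkey
    rcases upFixed_cases hQ hn S (fun p hp => LineFrame.proj_subset _ ((hAS p).2 hp)) hd hiso hup
      hprod with h | h
    · exact Or.inl (hkey _ h (by have := Finite.one_lt_card (α := F); omega))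
    · refine snd_space_cases hQ hn hH hz fun p => ?_
      rw [hAS, h]
      exact ⟨fun hp => ⟨(Submodule.mem_bot F).1 hp.1, hp.2⟩,
        fun hp => ⟨(Submodule.mem_bot F).2 hp.1, hp.2⟩⟩
  by_cases hup : UpFixed S
  · rcases upcase H hH hz S hAS hup hd hiso hprod hkey with h | ⟨v, hv⟩
    · exact Or.inl h
    · refine Or.inr ⟨1, one_mem _, Or.inl ⟨v, ?_⟩⟩
      have h1 : cj H (1 : orth Q) = H := by
        ext g; rw [mem_cj]; simp
      rwa [h1]
  by_cases hpt : ∃ s, PtFixed S s
  swap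
  · push Not at hpt
    exact Or.inl (hkey _ (add_two_le_trans hQ hn S hS hd hiso hup hpt) le_rfl)
  obtain ⟨s, hs⟩ := hpt
  -- move the fixed point to the upper one
  set l := (Lev.umL L (-1)).comp (Lev.upL L (1 + s)) with hl
  let ψ : (V × V) ≃ₗ[F] (V × V) :=
    { toFun := fun p => (p.2 - s • p.1, p.2 - (1 + s) • p.1)
      map_add' := fun p r => by ext <;> simp <;> module
      map_smul' := fun c p => by ext <;> simp <;> module
      invFun := fun p => (p.1 - p.2, p.1 + s • (p.1 - p.2))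
      left_inv := fun p => by ext <;> simp <;> module
      right_inv := fun p => by ext <;> simp <;> module }
  have hψ : ∀ p, l.φ p = ψ p := fun p => by
    simp only [hl, Lev.comp, Lev.umL, Lev.upL, Function.comp_apply, ψ, LinearEquiv.coe_mk,
      LinearMap.coe_mk, AddHom.coe_mk]
    ext <;> simp only <;> module
  set S' := S.map ψ.toLinearMap
  have hHl : cj H l.g ⊓ L.rad = (H ⊓ L.rad).map (MulAut.conj l.g).toMonoidHom := inf_rad_cj H l
  have hmem : ∀ p, p ∈ S' ↔ ∃ r ∈ S, ψ r = p := fun p => Submodule.mem_map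
  have hAS' : ∀ p, p ∈ L.proj (cj H l.g ⊓ L.rad) ↔ p ∈ S' := fun p => by
    rw [← SetLike.mem_coe, hHl, l.proj_map inf_le_right, hmem]
    constructor
    · rintro ⟨r, hr, rfl⟩
      exact ⟨r, (hAS r).1 hr, (hψ r).symm⟩
    · rintro ⟨r, hr, rfl⟩
      exact ⟨r, (hAS r).2 hr, hψ r⟩
  have hz' : L.zset (cj H l.g ⊓ L.rad) = ⊥ := by
    refine SetLike.coe_injective ?_
    rw [hHl, l.zset_map, hz]
    simp
  have hup' : UpFixed S' := by
    intro p hp
    obtain ⟨r, hr, rfl⟩ := (hmem _).1 hp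
    refine (hmem _).2 ⟨(s • r.1 - r.2, s • (s • r.1 - r.2)), hs r hr, ?_⟩
    · simp only [ψ, LinearEquiv.coe_mk, LinearMap.coe_mk, AddHom.coe_mk]
      ext <;> simp <;> module
  have hinv : ∀ E : Submodule F V, (∀ p : V × V, p ∈ S' ↔ p.1 ∈ E ∧ p.2 ∈ E) →
      ∀ p : V × V, p ∈ S ↔ p.1 ∈ E ∧ p.2 ∈ E := fun E hE p => by
    have h1 : p ∈ S ↔ ψ p ∈ S' :=
      ⟨fun h => (hmem _).2 ⟨p, h, rfl⟩, fun h => by
        obtain ⟨r, hr, hrp⟩ := (hmem _).1 h
        rwa [← ψ.injective hrp]⟩
    rw [h1, hE]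
    constructor
    · rintro ⟨ha, hb⟩
      have e : ψ.symm (ψ p) = p := ψ.symm_apply_apply p
      rw [← e]
      exact ⟨E.sub_mem ha hb, E.add_mem ha (E.smul_mem _ (E.sub_mem ha hb))⟩
    · rintro ⟨ha, hb⟩
      exact ⟨E.sub_mem hb (E.smul_mem _ ha), E.sub_mem hb (E.smul_mem _ ha)⟩
  have hiso' : ∀ p ∈ S', ∀ r ∈ S', L.beta p r = 0 := fun p hp r hr => by
    have := LineFrame.beta_mem_zset ((hAS' p).2 hp) ((hAS' r).2 hr)
    rwa [hz', AddSubgroup.mem_bot] at this
  rcases upcase (cj H l.g) (cj_le hH _) hz' S' hAS' hup' (by rw [LinearEquiv.finrank_map_eq, hd])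
      hiso' (fun ⟨E, hE, hE'⟩ => hprod ⟨E, hE, hinv E hE'⟩) (fun T hT hq => by
      rw [relIndex_cj]
      refine hkey T (hT.trans ?_) hq
      refine Set.ncard_le_ncard ?_ (Set.toFinite _)
      rintro _ ⟨m, hm, rfl⟩
      refine ⟨m.comp l, by simp [Lev.comp, hm, hl, Lev.umL, Lev.upL], ?_⟩
      simp only [Lev.comp, Set.image_comp]
      congr 1
      ext p
      simp [hmem, hψ, S']) with h | ⟨v, hv⟩
  · rw [relIndex_cj] at h; exact Or.inl h
  · exact Or.inr ⟨l.g, l.mem, Or.inl ⟨v, hv⟩⟩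

/-- A trivial central part: large index, a large point or the exceptional configuration. -/
theorem cases_of_trivial (hQ : (polarBilin Q).Nondegenerate) (hn : 7 ≤ finrank F V)
    {H : Subgroup (orth Q)} (hH : H ≤ eichGroup Q) (hz : L.zset (H ⊓ L.rad) = ⊥) :
    (Nat.card F + 2) * Nat.card F ^ (finrank F L.W + 1) ≤ H.relIndex (eichGroup Q) ∨
      ∃ x ∈ eichGroup Q, Good (cj H x) := by
  have hw : 3 ≤ finrank F L.W := by have := L.finrank_W; omega
  have hwn := L.finrank_W
  set A := L.proj (H ⊓ L.rad) with hAdef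
  set q := Nat.card F with hqdef
  have hq : 2 ≤ q := Finite.one_lt_card
  set w := finrank F L.W with hwdef
  have key : ∀ T, T ≤ (trans L (A : Set (V × V))).ncard →
      T * q ^ (2 * w + 1) ≤ H.relIndex (eichGroup Q) * Nat.card A := by
    intro T hT
    have h := trans_mul_scalings_le (L := L) hQ hn hH
    rw [hz, AddSubgroup.card_bot, one_mul] at h
    refine le_trans (Nat.mul_le_mul_right _ (le_trans hT (Nat.le_mul_of_pos_right _ ?_))) h
    exact (Set.ncard_pos (Set.toFinite _)).2 ⟨_, 1, one_ne_zero, rfl⟩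
  have hzt : (⊥ : AddSubgroup F) ≠ ⊤ := fun h => by
    have : (1 : F) ∈ (⊥ : AddSubgroup F) := h ▸ trivial
    exact one_ne_zero (AddSubgroup.mem_bot.1 this)
  have hA : (A : Set (V × V)) ⊆ L.WW := LineFrame.proj_subset _
  have hiso : ∀ p ∈ A, ∀ r ∈ A, L.beta p r ∈ (⊥ : AddSubgroup F) := fun p hp r hr =>
    hz ▸ LineFrame.beta_mem_zset hp hr
  have fin : ∀ T, T ≤ (trans L (A : Set (V × V))).ncard →
      (q + 2) * Nat.card A ≤ T * q ^ w → (q + 2) * q ^ (w + 1) ≤ H.relIndex (eichGroup Q) :=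
    fun T hT hle => bound_of_le (key T hT) Nat.card_pos hle
  by_cases hprod : ∃ E : Submodule F V, E ≤ L.W ∧ ∀ p : V × V, p ∈ A ↔ p.1 ∈ E ∧ p.2 ∈ E
  · obtain ⟨E, hE, hAE⟩ := hprod
    obtain ⟨hEp, hr⟩ := prod_isotropic hQ hzt hA hiso hAE
    have hcard := natCard_prod_eq hAE
    have hq2 : q + 2 ≤ q ^ 2 := by nlinarith
    by_cases h2 : 2 * finrank F E + 2 ≤ w
    · refine Or.inl (fin 1 (one_le_trans _) ?_)
      rw [hcard, one_mul]
      calc (q + 2) * q ^ (2 * finrank F E) ≤ q ^ 2 * q ^ (2 * finrank F E) :=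
            Nat.mul_le_mul_right _ hq2
        _ = q ^ (2 * finrank F E + 2) := by ring
        _ ≤ q ^ w := Nat.pow_le_pow_right (by omega) h2
    have hE0 : E ≠ ⊥ := fun hb => by rw [hb, finrank_bot] at h2; omega
    by_cases h3 : 2 * finrank F E + 1 = w ∨ (2 * finrank F E = w ∧ 3 ≤ finrank F E)
    · have hT := pow_le_trans_prod hQ hn hE hE0 (A := A) hAE le_rfl hE0 fun k hk y hy => hk y hy
      refine Or.inl (fin _ hT ?_)
      rw [hcard]
      rcases h3 with h3 | ⟨h3, h3'⟩
      · calc (q + 2) * q ^ (2 * finrank F E) ≤ q ^ 2 * q ^ (2 * finrank F E) :=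
              Nat.mul_le_mul_right _ hq2
          _ = q ^ 1 * q ^ w := by rw [← h3]; ring
          _ ≤ _ := Nat.mul_le_mul_right _ (Nat.pow_le_pow_right (by omega) (by omega))
      · calc (q + 2) * q ^ (2 * finrank F E) ≤ q ^ 2 * q ^ w :=
              Nat.mul_le_mul hq2 (by rw [h3])
          _ ≤ _ := Nat.mul_le_mul_right _ (Nat.pow_le_pow_right (by omega) (by omega))
    have hE2 : finrank F E = 2 ∧ w = 4 := by omega
    -- the singular part
    set E₀ := H4.singularPart Q E (fun a ha b hb => hEp a ha b hb) with hE₀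
    by_cases hEs : ∀ x ∈ E, Q x = 0
    · rcases prod_plane_cases hQ (by omega) hH hz hE hEs hE2.1 hAE with h | ⟨x, hx, he⟩
      · exact Or.inl h
      · exact Or.inr ⟨x, hx, Or.inr he⟩
    · push Not at hEs
      obtain ⟨y, hy, hy0⟩ := hEs
      have h20 : (2 : F) = 0 := by
        have := hEp y hy y hy
        rw [polar_self'] at this
        exact (mul_eq_zero.1 this).resolve_right hy0
      have hE₀le : E₀ ≤ E := fun x hx => hx.1
      have hE₀0 : E₀ ≠ ⊥ := by
        obtain ⟨x, hxE, hxy⟩ : ∃ x ∈ E, x ∉ Submodule.span F {y} := by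
          by_contra! hall
          have h4 := Submodule.finrank_mono (show E ≤ Submodule.span F {y} from hall)
          rw [finrank_span_singleton (fun h0 => hy0 (by rw [h0, QuadraticMap.map_zero])),
            hE2.1] at h4
          omega
        obtain ⟨s, hs⟩ := H5.isSquare_of_two_eq_zero h20 (Q x / Q y)
        intro hb
        have hm : x + s • y ∈ E₀ := ⟨E.add_mem hxE (E.smul_mem _ hy), by
          rw [H5.map_add_smul, hEp x hxE y hy, ← hs, div_mul_cancel₀ _ hy0]
          linear_combination Q x * h20⟩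
        rw [hb, Submodule.mem_bot] at hm
        exact hxy (by rw [eq_neg_of_add_eq_zero_left hm]
                      exact neg_mem (Submodule.smul_mem _ _ (Submodule.mem_span_singleton_self y)))
      have hlt : finrank F E₀ < 2 := by
        rw [← hE2.1]
        refine Submodule.finrank_lt_finrank_of_lt (lt_of_le_of_ne hE₀le fun he => hy0 ?_)
        exact (he.ge hy).2
      have hT := pow_le_trans_prod hQ hn hE hE0 (A := A) hAE hE₀le hE₀0 fun k hk z hz =>
        ⟨hk z hz.1, by rw [H5.orth_map]; exact hz.2⟩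
      refine Or.inl (fin _ hT ?_)
      rw [hcard, hE2.1]
      calc (q + 2) * q ^ (2 * 2) ≤ q ^ 2 * q ^ w := by
            rw [hE2.2]; exact Nat.mul_le_mul_right _ hq2
        _ ≤ _ := Nat.mul_le_mul_right _ (Nat.pow_le_pow_right (by omega) (by omega))
  -- at least `q` translates
  have hTq : q ≤ (trans L (A : Set (V × V))).ncard := by
    by_contra hlt
    exact hprod (exists_prod_of_few A hA (not_le.1 hlt))
  set S : Submodule F (V × V) := Submodule.span F (A : Set (V × V)) with hSdef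
  have hS : S ≤ L.WW := Submodule.span_le.2 hA
  have hSiso : ∀ p ∈ S, ∀ r ∈ S, L.beta p r = 0 := by
    intro p hp r hr
    induction hp, hr using Submodule.span_induction₂ with
    | mem_mem x y hx hy => exact AddSubgroup.mem_bot.1 (hiso x hx y hy)
    | zero_left y _ => simp [LineFrame.beta]
    | zero_right x _ => simp [LineFrame.beta]
    | add_left x y z _ _ _ h1 h2 => rw [beta_add_left, h1, h2, add_zero]
    | add_right x y z _ _ _ h1 h2 => rw [beta_add_right, h1, h2, add_zero]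
    | smul_left c x y _ _ h => rw [beta_smul_left, h, mul_zero]
    | smul_right c x y _ _ h => rw [beta_smul_right, h, mul_zero]
  have hle : A ≤ S.toAddSubgroup := fun p hp => Submodule.subset_span hp
  have hScard : Nat.card S ≤ q ^ w :=
    card_le_of_isotropic (L := L) hQ ⊥ hzt S.toAddSubgroup hS fun p hp r hr =>
      AddSubgroup.mem_bot.2 (hSiso p hp r hr)
  by_cases hsmall : 2 * Nat.card A ≤ q ^ w
  · refine Or.inl (fin q hTq ?_)
    calc (q + 2) * Nat.card A ≤ q * (2 * Nat.card A) := by nlinarith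
      _ ≤ q * q ^ w := Nat.mul_le_mul_left _ hsmall
  have hAS : A = S.toAddSubgroup := by
    refine le_antisymm hle ?_
    by_contra hne
    refine hsmall (le_trans ?_ hScard)
    obtain ⟨k, hk⟩ := AddSubgroup.card_dvd_of_le hle
    change Nat.card S = Nat.card A * k at hk
    have hk2 : 2 ≤ k := by
      rcases (show k = 0 ∨ k = 1 ∨ 2 ≤ k by omega) with rfl | rfl | h
      · rw [mul_zero] at hk
        exact absurd hk Nat.card_pos.ne'
      · exact absurd (AddSubgroup.eq_of_le_of_card_ge hle (le_of_eq (by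
          change Nat.card S = _
          rw [hk, mul_one]))).ge hne
      · exact h
    rw [hk, mul_comm 2]
    exact Nat.mul_le_mul_left _ hk2
  have hmem : ∀ p, p ∈ A ↔ p ∈ S := fun p => by rw [hAS]; rfl
  have hd : finrank F S = w := by
    refine le_antisymm ?_ ?_
    · rw [Module.natCard_eq_pow_finrank (K := F) (V := S)] at hScard
      exact (Nat.pow_le_pow_iff_right (by omega)).1 hScard
    · by_contra hlt
      refine hsmall ?_
      have hc : Nat.card A = q ^ finrank F S := by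
        rw [hAS, ← Module.natCard_eq_pow_finrank (K := F) (V := S)]
        rfl
      rw [hc]
      calc 2 * q ^ finrank F S ≤ q * q ^ finrank F S := Nat.mul_le_mul_right _ hq
        _ = q ^ (finrank F S + 1) := by ring
        _ ≤ q ^ w := Nat.pow_le_pow_right (by omega) (by omega)
  refine cases_of_full hQ hn hH hz S hmem hd hSiso (fun ⟨E, hE, hh⟩ => hprod
    ⟨E, hE, fun p => (hmem p).trans (hh p)⟩) fun T hT hT2 => ?_
  have hset : (A : Set (V × V)) = S := Set.ext hmem
  refine fin T (hset ▸ hT) ?_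
  have hc : Nat.card A = q ^ w := by
    rw [hAS, ← hd, ← Module.natCard_eq_pow_finrank (K := F) (V := S)]
    rfl
  rw [hc]
  exact Nat.mul_le_mul_right _ hT2

/-- The local dichotomy. -/
theorem bound_or_good (hQ : (polarBilin Q).Nondegenerate) (hn : 7 ≤ finrank F V)
    {H : Subgroup (orth Q)} (hH : H ≤ eichGroup Q) (hne : H ≠ eichGroup Q) :
    (Nat.card F + 2) * Nat.card F ^ (finrank F V - 3) ≤ H.relIndex (eichGroup Q) ∨
      ∃ x ∈ eichGroup Q, Good (cj H x) := by
  obtain ⟨L⟩ := exists_frame hQ (show 5 ≤ finrank F V by omega)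
  have hexp : finrank F V - 3 = finrank F L.W + 1 := by have := L.finrank_W; omega
  rw [hexp]
  obtain ⟨g, hg, t, ht⟩ : ∃ g ∈ eichGroup Q, ∃ t : F, g * L.el 0 0 t * g⁻¹ ∉ H := by
    by_contra! hall
    exact hne (le_antisymm hH (eichGroup_le_of_line hQ (by omega) L hall))
  set H₁ := cj H g⁻¹
  have hz : L.zset (H₁ ⊓ L.rad) ≠ ⊤ := fun h => ht (by
    have h1 : t ∈ L.zset (H₁ ⊓ L.rad) := h ▸ trivial
    have h2 := mem_cj.1 (LineFrame.mem_zset.1 h1).1
    simpa using h2)
  by_cases h0 : L.zset (H₁ ⊓ L.rad) = ⊥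
  · rcases cases_of_trivial hQ hn (cj_le hH _) h0 with h | ⟨x, hx, hgood⟩
    · rw [relIndex_cj] at h; exact Or.inl h
    · refine Or.inr ⟨x * g⁻¹, mul_mem hx (inv_mem hg), ?_⟩
      rwa [cj_mul] at hgood
  · have h := bound_of_partial hQ hn (cj_le hH _) h0 hz
    rw [relIndex_cj] at h
    exact Or.inl h

end Cfsg.Agent.H3.OIdx
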