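import Cfsg.Agent.H3.OIdx.Orbit

/-!
The case where the stabiliser in the radical projects onto an upper-fixed subspace: either many
cosets or a large point.
-/

set_option autoImplicit false

namespace Cfsg.Agent.H3.OIdx

open QuadraticMap hiding sq
open Module
open Cfsg.Agent.H5 (orth eich eich_apply eichGroup eich_mem_eichGroup polar_self')

variable {F V : Type*} [Field F] [Finite F] [AddCommGroup V] [Module F V] [FiniteDimensional F V]
  [Finite V] {Q : QuadraticForm F V} {L : LineFrame Q}

/-- An upper-fixed isotropic subspace of full dimension which is not a product: it has `2 q`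
translates or is the second coordinate space. -/
theorem upFixed_cases (hQ : (polarBilin Q).Nondegenerate) (hn : 7 ≤ finrank F V)
    (S : Submodule F (V × V)) (hS : S ≤ L.WW) (hd : finrank F S = finrank F L.W)
    (hiso : ∀ p ∈ S, ∀ r ∈ S, L.beta p r = 0) (hup : UpFixed S)
    (hprod : ¬∃ E : Submodule F V, E ≤ L.W ∧ ∀ p : V × V, p ∈ S ↔ p.1 ∈ E ∧ p.2 ∈ E) :
    2 * Nat.card F ≤ (trans L (S : Set (V × V))).ncard ∨
      S = (⊥ : Submodule F V).prod L.W := by
  set K₁ := S.map (LinearMap.fst F V V) with hK₁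
  have hmem : ∀ a, a ∈ K₁ ↔ ∃ p ∈ S, p.1 = a := fun a => by simp [hK₁]
  have hsub : K₁ ≤ L.W := fun a ha => by
    obtain ⟨p, hp, rfl⟩ := (hmem a).1 ha
    exact (hS hp).1
  have hzero : ∀ a ∈ K₁, ((0, a) : V × V) ∈ S := fun a ha => by
    obtain ⟨p, hp, rfl⟩ := (hmem a).1 ha
    exact hup p hp
  by_cases hK : K₁ = ⊥
  · right
    have hle : S ≤ (⊥ : Submodule F V).prod L.W := fun p hp =>
      ⟨by rw [← hK]; exact (hmem _).2 ⟨p, hp, rfl⟩, (hS hp).2⟩
    refine Submodule.eq_of_le_of_finrank_le hle ?_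
    rw [hd]
    let e : ↥((⊥ : Submodule F V).prod L.W) →ₗ[F] L.W :=
      { toFun := fun p => ⟨p.1.2, p.2.2⟩, map_add' := fun _ _ => rfl,
        map_smul' := fun _ _ => rfl }
    refine LinearMap.finrank_le_finrank_of_injective (f := e) fun p r h => Subtype.ext ?_
    exact Prod.ext (((Submodule.mem_bot F).1 p.2.1).trans ((Submodule.mem_bot F).1 r.2.1).symm)
      (congrArg Subtype.val h)
  left
  have hK2 : ∀ a ∈ K₁, ∀ b ∈ K₁, polar Q a b = 0 := fun a ha b hb => by
    obtain ⟨p, hp, rfl⟩ := (hmem a).1 ha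
    have := hiso p hp _ (hzero b hb)
    simp [LineFrame.beta] at this
    rw [polar_comm]; exact this
  -- the lower translations move `S`
  have hlow : ∀ δ : F, δ ≠ 0 → ¬ ∀ p ∈ S, ((0, p.1 - δ • p.2) : V × V) ∈
      (Lev.umL L δ).φ '' (S : Set (V × V)) := by
    intro δ hδ hh
    refine hprod ⟨K₁, hsub, fun p => ?_⟩
    have hK12 : ∀ p ∈ S, p.2 ∈ K₁ := fun p hp => by
      obtain ⟨r, hr, hre⟩ := hh p hp
      simp only [Lev.umL, Prod.mk.injEq] at hre
      obtain ⟨h1, h2⟩ := hre
      have h3 : r.1 ∈ K₁ := (hmem _).2 ⟨r, hr, rfl⟩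
      rw [sub_eq_zero] at h1
      rw [h1, h2, smul_sub, smul_smul] at h3
      have h4 : (δ * δ) • p.2 ∈ K₁ := by
        have h5 := K₁.sub_mem (K₁.smul_mem δ ((hmem _).2 ⟨p, hp, rfl⟩)) h3
        convert h5 using 1
        abel
      exact (Submodule.smul_mem_iff _ (mul_ne_zero hδ hδ)).1 h4
    constructor
    · intro hp
      exact ⟨(hmem _).2 ⟨p, hp, rfl⟩, hK12 p hp⟩
    · rintro ⟨h1, h2⟩
      obtain ⟨r, hr, hr1⟩ := (hmem _).1 h1
      have := S.add_mem hr (hzero _ (K₁.sub_mem h2 (hK12 r hr)))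
      convert this using 1
      ext
      · simp [hr1]
      · simp
  obtain ⟨y, hy, hy0⟩ := Submodule.exists_mem_ne_zero_of_ne_bot hK
  obtain ⟨e, he, heq, T, hT, hTc, hTinj⟩ := exists_moves hQ hn hsub hK
  -- an element of the complement moving `S`
  obtain ⟨a, ha, hab⟩ : ∃ a, ∃ (ha : a ∈ L.W ∧ polar Q e a = 0),
      (Lev.wL L he ha.1 heq ha.2).φ '' (S : Set (V × V)) ≠ S := by
    have hr : 1 ≤ finrank F L.W - 1 - finrank F K₁ := by
      have h1 : 2 * finrank F K₁ ≤ finrank F L.W := by
        have h2 := H5.two_mul_finrank_le (H5.restrict_nondegenerate (L.W_inf_perp hQ))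
          (W := K₁.comap L.W.subtype) (fun x hx w hw => hK2 _ hw _ hx)
        rwa [(Submodule.comapSubtypeEquivOfLe hsub).finrank_eq] at h2
      have := L.finrank_W
      omega
    have hT2 : 1 < T.ncard := lt_of_lt_of_le
      (lt_of_lt_of_le Finite.one_lt_card (Nat.le_self_pow (by omega) _)) hTc
    obtain ⟨b, hb, c, hc, hbc⟩ := (Set.one_lt_ncard (Set.toFinite T)).1 hT2
    refine ⟨b - c, ⟨sub_mem (hT b hb).1 (hT c hc).1, by
      rw [polar_sub_right, (hT b hb).2, (hT c hc).2, sub_zero]⟩, fun heq' => hbc ?_⟩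
    refine hTinj b hb c hc fun z hz => ?_
    obtain ⟨p, hp, rfl⟩ := (hmem z).1 hz
    refine (hmem _).2 ⟨_, heq'.le ⟨p, hp, rfl⟩, ?_⟩
    simp [Lev.wL_φ]
  set g := Lev.wL L he ha.1 heq ha.2
  have hgφ : ∀ p, g.φ p = ((eich Q e a : V ≃ₗ[F] V) p.1, (eich Q e a : V ≃ₗ[F] V) p.2) :=
    Lev.wL_φ L _ _ _ _
  refine le_trans (le_of_eq ?_) (card_le_trans
    (fun p : F × Bool => if p.2 then (Lev.umL L p.1).comp g else Lev.umL L p.1) ?_ ?_)
  · rw [Nat.card_prod]; simp; ring
  · rintro ⟨c, b⟩
    cases b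
    · rfl
    · simp only [if_true, Lev.comp, g, Lev.wL_lam]
      simp [Lev.umL]
  · have hshift : ∀ c c' : F, ∀ U U' : Set (V × V),
        (Lev.umL L c).φ '' U = (Lev.umL L c').φ '' U' → U = (Lev.umL L (c' - c)).φ '' U' := by
      intro c c' U U' h
      have e1 : ∀ a b : F, ∀ p, (Lev.umL L a).φ ((Lev.umL L b).φ p) = (Lev.umL L (a + b)).φ p :=
        fun a b p => by simp only [Lev.umL, Prod.mk.injEq, and_true]; module
      have h1 := congrArg ((Lev.umL L (-c)).φ '' ·) h
      simp only [Set.image_image, e1, neg_add_cancel] at h1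
      rw [show c' - c = -c + c' by ring, ← h1]
      simp [Lev.umL]
    have hupI : ∀ q ∈ g.φ '' (S : Set (V × V)), ((0, q.1) : V × V) ∈ g.φ '' (S : Set (V × V)) := by
      rintro _ ⟨p, hp, rfl⟩
      exact ⟨_, hup p hp, by simp [hgφ]⟩
    -- a common value of translates with different parameters is impossible
    have hkey : ∀ δ : F, ∀ U : Set (V × V), (∀ q ∈ U, ((0, q.1) : V × V) ∈ U) →
        U = (Lev.umL L δ).φ '' (S : Set (V × V)) → δ = 0 := by
      intro δ U hU hUe
      by_contra hδ
      refine hlow δ hδ fun p hp => ?_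
      have := hU _ (hUe.ge ⟨p, hp, rfl⟩)
      rw [hUe] at this
      exact this
    rintro ⟨c, b⟩ ⟨c', b'⟩ h
    cases b <;> cases b'
    · have := hkey (c' - c) _ (fun q hq => hup q hq) (hshift c c' _ _ h)
      exact Prod.ext (sub_eq_zero.1 this).symm rfl
    · simp only [Bool.false_eq_true, if_false, if_true, Lev.comp, Set.image_comp] at h
      have h1 := hshift c' c _ _ h.symm
      have h2 := hkey (c - c') _ hupI h1
      rw [h2] at h1
      exact absurd (by simpa [Lev.umL] using h1) hab
    · simp only [Bool.false_eq_true, if_false, if_true, Lev.comp, Set.image_comp] at h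
      have h1 := hshift c c' _ _ h
      have h2 := hkey (c' - c) _ hupI h1
      rw [h2] at h1
      exact absurd (by simpa [Lev.umL] using h1) hab
    · simp only [if_true, Lev.comp, Set.image_comp] at h
      have h1 := hshift c c' _ _ h
      refine Prod.ext ?_ rfl
      have h2 : c' - c = 0 := by
        have hinv : (Lev.umL L (c' - c)).φ '' (g.φ '' (S : Set (V × V))) =
            g.φ '' ((Lev.umL L (c' - c)).φ '' (S : Set (V × V))) := by
          simp only [Set.image_image]
          refine Set.image_congr fun p _ => ?_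
          simp [hgφ, Lev.umL]
        rw [hinv] at h1
        refine hkey _ _ (fun q hq => hup q hq) ((g.inj.image_eq_image_iff hS ?_).1 h1)
        rintro _ ⟨p, hp, rfl⟩
        exact (Lev.umL L _).maps p (hS hp)
      exact (sub_eq_zero.1 h2).symm

/-- A second coordinate space as projection: large index or a large point. -/
theorem snd_space_cases (hQ : (polarBilin Q).Nondegenerate) (hn : 7 ≤ finrank F V)
    {H : Subgroup (orth Q)} (hH : H ≤ eichGroup Q)
    (hz : L.zset (H ⊓ L.rad) = ⊥)
    (hp : ∀ p : V × V, p ∈ L.proj (H ⊓ L.rad) ↔ p.1 = 0 ∧ p.2 ∈ L.W) :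
    (Nat.card F + 2) * Nat.card F ^ (finrank F L.W + 1) ≤ H.relIndex (eichGroup Q) ∨
      ∃ v, Large H v := by
  set D := H ⊓ L.rad with hD
  have hz' : ∀ t, L.el 0 0 t ∈ D → t = 0 := fun t ht => by
    have : t ∈ L.zset D := ht
    rwa [hz, AddSubgroup.mem_bot] at this
  have hex : ∀ b : L.W, ∃ t, L.el 0 (b : V) t ∈ D := fun b =>
    ((hp (0, (b : V))).2 ⟨rfl, b.2⟩).2.2
  choose τ hτ using hex
  have huniq : ∀ (b : L.W) (t : F), L.el 0 (b : V) t ∈ D → t = τ b := fun b t ht =>
    proj_el hz' (zero_mem _) b.2 ht (hτ b)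
  have hadd : ∀ b c, τ (b + c) = τ b + τ c := fun b c => by
    refine (huniq (b + c) _ ?_).symm
    have := mul_mem (hτ b) (hτ c)
    rw [L.el_mul (zero_mem _) b.2 (zero_mem _) c.2] at this
    simpa using this
  by_cases hlin : ∀ (t : F) (b : L.W), τ (t • b) = t * τ b
  · right
    let χ : L.W →ₗ[F] V :=
      { toFun := fun b => (b : V) - τ b • L.u
        map_add' := fun b c => by rw [hadd, Submodule.coe_add]; module
        map_smul' := fun t b => by rw [hlin, Submodule.coe_smul, RingHom.id_apply]; module }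
    refine ⟨L.v, L.hv.ne_zero, L.hv.left, LinearMap.range χ, ?_, ?_, ?_⟩
    · rw [eq_bot_iff]
      rintro _ ⟨⟨b, rfl⟩, hb⟩
      have hb0 : (b : V) ∈ L.W ⊓ H5.perp Q L.W := ⟨b.2, fun c hc => by
        have := hb _ ⟨⟨c, hc⟩, rfl⟩
        change polar Q (χ ⟨c, hc⟩) (χ b) = 0 at this
        simpa [χ, polar_sub_left, polar_sub_right, polar_smul_left, polar_smul_right, polar_self',
          L.hu.left, LineFrame.W_u b.2, polar_comm (⇑Q) c L.u, LineFrame.W_u hc] using this⟩
      rw [L.W_inf_perp hQ, Submodule.mem_bot] at hb0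
      have hb' : b = 0 := Subtype.ext hb0
      rw [hb', map_zero]
      exact zero_mem _
    · rw [LinearMap.finrank_range_of_inj fun b c hbc => ?_]
      · have := L.finrank_W; omega
      · have h1 := congrArg (fun x => x - polar Q L.u' x • L.u) hbc
        refine Subtype.ext ?_
        simpa [χ, polar_sub_right, polar_smul_right, polar_comm (⇑Q) L.u' L.u, L.hu.pair,
          LineFrame.W_u' b.2, LineFrame.W_u' c.2] using h1
    · rintro _ ⟨b, rfl⟩
      refine ⟨by simp [χ, polar_sub_right, polar_smul_right, LineFrame.W_v b.2, L.vu], ?_⟩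
      have hb := (hτ b).1
      have he : eich Q L.v ((b : V) - τ b • L.u) = L.el 0 b (τ b) := by
        rw [sub_eq_add_neg, add_comm, ← H5.eich_mul L.hv.left
          (by rw [polar_neg_right, polar_smul_right, L.vu, smul_zero, neg_zero])
          (LineFrame.W_v b.2), ← neg_smul, L.eich_v_smul_u, neg_neg, L.eich_v_eq,
          L.el_mul (zero_mem _) (zero_mem _) (zero_mem _) b.2]
        simp
      exact he ▸ hb
  left
  obtain ⟨s, hs0, hs1⟩ : ∃ s : F, s ≠ 0 ∧ s * s ≠ 1 := by
    by_contra! hall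
    refine hlin fun t b => ?_
    by_cases ht : t = 0
    · subst ht
      have h0 := hadd 0 0
      rw [add_zero, left_eq_add] at h0
      rw [zero_smul, h0, zero_mul]
    rcases mul_self_eq_one_iff.1 (hall t ht) with rfl | rfl
    · rw [one_smul, one_mul]
    · have h0 := hadd 0 0
      rw [add_zero, left_eq_add] at h0
      have h1 := hadd b ((-1 : F) • b)
      rw [neg_one_smul, add_neg_cancel, h0] at h1
      rw [neg_one_smul]
      linear_combination -h1
  set σ := s * s
  have hσ : σ ≠ 0 := mul_ne_zero hs0 hs0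
  have hgW : ∀ w ∈ L.W, (H5.pairScale Q L.u L.u' σ : V ≃ₗ[F] V) w = w := fun w hw =>
    pairScale_fix L.hu hσ (LineFrame.W_u hw) (LineFrame.W_u' hw)
  let d := Lev.scalL L (g := H5.pairScale Q L.u L.u' σ) (α := σ) (β := 1)
    (pairScale_sq_mem hQ (by omega) L.hu hs0) (by rwa [mul_one]) (pairScale_left L.hu hσ)
    (by rw [pairScale_fix L.hu hσ L.uv L.u'v, one_smul]) (fun w hw => by rw [hgW w hw]; exact hw)
  have hdel : ∀ b ∈ L.W, ∀ t, d.g * L.el 0 b t * d.g⁻¹ = L.el 0 b (σ * t) := fun b hb t => by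
    change H5.pairScale Q L.u L.u' σ * L.el 0 b t * (H5.pairScale Q L.u L.u' σ)⁻¹ = _
    rw [L.scal_conj (pairScale_left L.hu hσ)
      (show (H5.pairScale Q L.u L.u' σ : V ≃ₗ[F] V) L.v = (1 : F) • L.v by
        rw [pairScale_fix L.hu hσ L.uv L.u'v, one_smul])
      (fun w hw => by rw [hgW w hw]; exact hw) (zero_mem _) hb, map_zero, hgW b hb]
    simp
  have key := orbit_count hH
    (fun p : F × Bool => if p.2 then (Lev.umL L p.1).comp d else Lev.umL L p.1) ?_
  · rw [hz, AddSubgroup.card_bot, one_mul] at key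
    have hc : Nat.card (L.proj D) = Nat.card F ^ finrank F L.W := by
      rw [← Module.natCard_eq_pow_finrank (K := F) (V := L.W)]
      exact Nat.card_congr
        { toFun := fun p => ⟨p.1.2, ((hp p.1).1 p.2).2⟩
          invFun := fun b => ⟨(0, b), (hp _).2 ⟨rfl, b.2⟩⟩
          left_inv := fun p => Subtype.ext (Prod.ext ((hp p.1).1 p.2).1.symm rfl)
          right_inv := fun b => rfl }
    rw [hc, Nat.card_prod, Nat.card_eq_fintype_card (α := Bool), Fintype.card_bool] at key
    refine Nat.le_of_mul_le_mul_right (le_trans ?_ key) (pow_pos Nat.card_pos (finrank F L.W))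
    rw [mul_assoc, ← pow_add, show finrank F L.W + 1 + finrank F L.W = 2 * finrank F L.W + 1 by ring]
    refine Nat.mul_le_mul_right _ ?_
    have := Finite.one_lt_card (α := F)
    omega
  · intro i j x hx hij
    -- equal images force equal parameters
    have himg := image_eq_of_conj (inf_le_right : D ≤ L.rad) _ _ hx hij
    obtain ⟨w, hw, hw0⟩ := Submodule.exists_mem_ne_zero_of_ne_bot (p := L.W) (fun hb => by
      have := L.finrank_W
      rw [hb, finrank_bot] at this
      omega)
    have hdφ : ∀ p ∈ L.proj D, d.φ p = p := fun p hp' => by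
      obtain ⟨h1, h2⟩ := (hp p).1 hp'
      simp [d, Lev.scalL, h1, hgW _ h2, Prod.ext_iff]
    have himg' : (Lev.umL L i.1).φ '' (L.proj D : Set (V × V)) =
        (Lev.umL L j.1).φ '' (L.proj D : Set (V × V)) := by
      have e : ∀ k : F × Bool, (if k.2 then (Lev.umL L k.1).comp d else Lev.umL L k.1).φ ''
          (L.proj D : Set (V × V)) = (Lev.umL L k.1).φ '' (L.proj D : Set (V × V)) := by
        rintro ⟨c, b⟩
        cases b
        · rfl
        · exact Set.image_congr fun p hp' => by simp [Lev.comp, hdφ p hp']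
      rw [← e i, ← e j, himg]
    obtain ⟨c, b⟩ := i
    obtain ⟨c', b'⟩ := j
    obtain rfl : c = c' := by
      obtain ⟨r, hr, hre⟩ := himg'.le ⟨(0, w), (hp _).2 ⟨rfl, hw⟩, rfl⟩
      simp only [Lev.umL, Prod.mk.injEq, ((hp r).1 hr).1] at hre
      obtain ⟨h1, h2⟩ := hre
      rw [h2] at h1
      exact (smul_left_injective F hw0 (by simpa using h1)).symm
    have hno : ∀ y ∈ L.rad, D.map (MulAut.conj (y * d.g)).toMonoidHom ≠ D ∧
        D.map (MulAut.conj y).toMonoidHom ≠ D.map (MulAut.conj d.g).toMonoidHom := by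
      rintro _ ⟨a₀, ha₀, b₀, hb₀, t₀, rfl⟩
      constructor
      · intro he
        refine hlin fun t b => ?_
        have h1 : ∀ b : L.W, σ * τ b + polar Q (b : V) a₀ = τ b := fun b => huniq b _ (by
          rw [← he]
          refine ⟨_, hτ b, ?_⟩
          change L.el a₀ b₀ t₀ * d.g * _ * (L.el a₀ b₀ t₀ * d.g)⁻¹ = _
          rw [show ∀ z : orth Q, L.el a₀ b₀ t₀ * d.g * z * (L.el a₀ b₀ t₀ * d.g)⁻¹ =
            L.el a₀ b₀ t₀ * (d.g * z * d.g⁻¹) * (L.el a₀ b₀ t₀)⁻¹ from fun z => by group,
            hdel _ b.2, L.el_conj ha₀ hb₀ (zero_mem _) b.2]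
          simp)
        have e1 := h1 b
        have e2 := h1 (t • b)
        rw [Submodule.coe_smul, polar_smul_left, smul_eq_mul] at e2
        exact mul_left_cancel₀ (sub_ne_zero.2 hs1) (by linear_combination e2 - t * e1)
      · intro he
        refine hlin fun t b => ?_
        have h1 : ∀ b : L.W, τ b + polar Q (b : V) a₀ = σ * τ b := fun b => by
          have hm : L.el 0 (b : V) (τ b + polar Q (b : V) a₀) ∈
              D.map (MulAut.conj d.g).toMonoidHom := by
            rw [← he]
            refine ⟨_, hτ b, ?_⟩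
            change L.el a₀ b₀ t₀ * _ * _ = _
            rw [L.el_conj ha₀ hb₀ (zero_mem _) b.2]
            simp
          obtain ⟨z, hzD, hze⟩ := hm
          change d.g * z * d.g⁻¹ = _ at hze
          have hpre : L.el 0 (b : V) (σ⁻¹ * (τ b + polar Q (b : V) a₀)) ∈ D := by
            have h3 := hdel b b.2 (σ⁻¹ * (τ b + polar Q (b : V) a₀))
            rw [← mul_assoc σ, mul_inv_cancel₀ hσ, one_mul, ← hze] at h3
            rwa [mul_left_cancel (mul_right_cancel h3)]
          have h4 := congrArg (σ * ·) (huniq b _ hpre)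
          simp only [← mul_assoc, mul_inv_cancel₀ hσ, one_mul] at h4
          exact h4
        have e1 := h1 b
        have e2 := h1 (t • b)
        rw [Submodule.coe_smul, polar_smul_left, smul_eq_mul] at e2
        exact mul_left_cancel₀ (sub_ne_zero.2 hs1) (by linear_combination t * e1 - e2)
    set m := Lev.umL L c
    have hx' : m.g⁻¹ * x * m.g ∈ L.rad := by
      have := m.map_rad.ge hx
      rw [Subgroup.mem_map_equiv, MulAut.conj_symm_apply] at this
      exact this
    have hstrip : ∀ g₁ g₂ : orth Q, D.map (MulAut.conj (x * (m.g * g₁))).toMonoidHom =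
        D.map (MulAut.conj (m.g * g₂)).toMonoidHom →
        D.map (MulAut.conj (m.g⁻¹ * x * m.g * g₁)).toMonoidHom =
          D.map (MulAut.conj g₂).toMonoidHom := fun g₁ g₂ he => by
      have h3 := congrArg (fun K => K.map (MulAut.conj m.g⁻¹).toMonoidHom) he
      change cj (cj D _) _ = cj (cj D _) _ at h3
      rw [cj_mul, cj_mul] at h3
      convert h3 using 4 <;> group
    cases b <;> cases b'
    · rfl
    · exfalso
      simp only [Bool.false_eq_true, if_false, if_true, Lev.comp] at hij
      refine (hno _ hx').2 ?_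
      have := hstrip 1 d.g (by rwa [mul_one])
      rwa [mul_one] at this
    · exfalso
      simp only [Bool.false_eq_true, if_false, if_true, Lev.comp] at hij
      refine (hno _ hx').1 ?_
      have := hstrip d.g 1 (by rwa [mul_one])
      rwa [map_one, show (MulEquiv.toMonoidHom (1 : MulAut (orth Q))) = MonoidHom.id _ from rfl,
        Subgroup.map_id] at this
    · rfl

end Cfsg.Agent.H3.OIdx
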