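import Cfsg.Agent.H3.OIdx.Main
import Cfsg.Agent.H4.DiscClass

/-!
The hypotheses of the index bound for the standard forms.
-/

set_option autoImplicit false

namespace Cfsg.Agent.H3.OIdx

open QuadraticMap hiding sq
open Module
open Cfsg.Agent.H5 (orth eichGroup qPlus qOdd qMinus)
open Cfsg.Agent.H4 (subspaceOrbit singularPoints)

/-- The exceptional configuration spans a totally singular four-space. -/
theorem exists_ts_of_exc {F V : Type*} [Field F] [AddCommGroup V] [Module F V]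
    [FiniteDimensional F V] {Q : QuadraticForm F V} {H : Subgroup (orth Q)} (h : Exc H) :
    ∃ R : Submodule F V, (∀ x ∈ R, Q x = 0) ∧ finrank F R = 4 := by
  obtain ⟨-, L, E, hEW, hE, hE2, -⟩ := h
  let φ : (F × F) × E →ₗ[F] V :=
    ((LinearMap.toSpanSingleton F V L.u).coprod (LinearMap.toSpanSingleton F V L.v)).coprod
      E.subtype
  have happ : ∀ s t (e : E), φ ((s, t), e) = s • L.u + t • L.v + (e : V) := fun s t e => by
    simp [φ]
  refine ⟨LinearMap.range φ, ?_, ?_⟩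
  · rintro _ ⟨⟨⟨s, t⟩, e⟩, rfl⟩
    rw [happ, QuadraticMap.map_add (⇑Q), QuadraticMap.map_add (⇑Q), QuadraticMap.map_smul,
      QuadraticMap.map_smul, L.hu.left, L.hv.left, hE _ e.2, polar_add_left, polar_smul_left,
      polar_smul_left, polar_smul_left, polar_smul_right, L.uv, L.W_u (hEW e.2), L.W_v (hEW e.2)]
    simp
  · rw [LinearMap.finrank_range_of_inj, finrank_prod, finrank_prod, finrank_self, hE2]
    rw [← LinearMap.ker_eq_bot, eq_bot_iff]
    rintro ⟨⟨s, t⟩, e⟩ hz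
    rw [LinearMap.mem_ker, happ] at hz
    have hs := congrArg (fun z => polar Q L.u' z) hz
    have ht := congrArg (fun z => polar Q L.v' z) hz
    simp [polar_add_right, polar_smul_right, L.u'v, L.v'u', L.W_u' (hEW e.2),
      L.W_v' (hEW e.2), polar_comm (⇑Q) L.u' L.u, polar_comm (⇑Q) L.v' L.v, L.hu.pair, L.hv.pair,
      polar_comm (⇑Q) L.v' L.u, L.uv'] at hs ht
    simp [hs, ht] at hz
    simp [hs, ht, Subtype.ext_iff, hz]

/-- Division by `q - 1`. -/
theorem eq_div_pred {q B x : ℕ} (hq : 2 ≤ q) (h : B * (q - 1) + 1 = x) : (x - 1) / (q - 1) = B := by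
  rw [← h, Nat.add_sub_cancel, Nat.mul_div_cancel _ (by omega)]

theorem signs_le_pred (F : Type*) [Field F] [Finite F] : signs F ≤ Nat.card F - 1 := by
  haveI := Fintype.ofFinite F
  rcases Nat.lt_or_ge (Nat.card F) 3 with h | h
  · have h2 : Nat.card F = 2 := le_antisymm (by omega) Finite.one_lt_card
    have h20 : (2 : F) = 0 := by
      have := Nat.cast_card_eq_zero F
      rw [← Nat.card_eq_fintype_card, h2] at this
      exact_mod_cast this
    rw [signs_of_two F h20, h2]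
  · exact (signs_le_two F).trans (by omega)

theorem two_ne_zero_of_odd {F : Type*} [Field F] [Fintype F] (h : Odd (Fintype.card F)) :
    (2 : F) ≠ 0 := by
  intro h2
  obtain ⟨k, hk⟩ := h
  have := Nat.cast_card_eq_zero F
  rw [hk] at this
  push_cast at this
  rw [h2] at this
  simp at this

variable {F : Type*} [Field F] [Fintype F]

local notation "q" => Fintype.card F

theorem finrank_odd (m : ℕ) : finrank F (Unit ⊕ (Fin m ⊕ Fin m) → F) = 2 * m + 1 := by
  simp; omega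

theorem points_qOdd (m : ℕ) :
    (singularPoints (qOdd m F)).ncard * (q - 1) + 1 = q ^ (2 * m) := by
  rw [← Nat.card_eq_fintype_card (α := F), singularPoints_mul_add_one,
    Nat.card_eq_fintype_card (α := F), ← H4.card_qOdd_zeros (F := F) m]
  exact Nat.card_congr (Equiv.subtypeEquivRight fun v => by rw [H5.coe_qOdd])

theorem le_norm_qOdd (m : ℕ) (c : F) :
    q ^ (2 * m) ≤ (normSet (qOdd m F) c).ncard + q ^ m := by
  have h := card_norm_qOdd (F := F) m c
  zify
  rw [h]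
  have : (0 : ℤ) ≤ (Fintype.card F : ℤ) ^ m * (Nat.card {t : F // t ^ 2 = c} : ℤ) := by positivity
  linear_combination this

/-- Minimal index for the odd form, given a value attained by an orbit. -/
theorem min_index_odd (h2 : (2 : F) ≠ 0) {m : ℕ} (hm : 3 ≤ m) {B : ℕ}
    (hP : B ≤ (singularPoints (qOdd m F)).ncard)
    (hN : ∀ c : F, c ≠ 0 → B * 2 ≤ (normSet (qOdd m F) c).ncard)
    (hpow : B ≤ (q + 2) * q ^ (2 * m - 2))
    (S : Submodule F (Unit ⊕ (Fin m ⊕ Fin m) → F))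
    (hS : (subspaceOrbit (qOdd m F) S).ncard = B) :
    (∀ H : Subgroup (Cfsg.POmega F (Cfsg.quadFormOdd m F)), H ≠ ⊤ → B ≤ H.index) ∧
      ∃ H : Subgroup (Cfsg.POmega F (Cfsg.quadFormOdd m F)), H.index = B := by
  have hn := finrank_odd (F := F) m
  refine min_index_model (qOdd m F) (H5.coe_qOdd m) ⟨H5.qOdd_nondegenerate m h2, by omega,
    fun h => absurd h h2, hP, fun R _ h8 => by omega,
    fun c hc => by rw [signs_odd F h2]; exact hN c hc,
    by rwa [hn, show 2 * m + 1 - 3 = 2 * m - 2 by omega, Nat.card_eq_fintype_card]⟩ ?_ S hS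
  intro K _ _ _ x _ he
  have h8 : finrank F (Unit ⊕ (Fin m ⊕ Fin m) → F) = 8 := he.1
  omega

theorem finrank_minus (m : ℕ) : finrank F ((Fin m ⊕ Fin m) ⊕ Fin 2 → F) = 2 * (m + 1) := by
  simp; omega

theorem no_ts_qMinus (m : ℕ) {a b : F}
    (hab : ∀ z₁ z₂ : F, z₁ ^ 2 + a * z₁ * z₂ + b * z₂ ^ 2 = 0 → z₁ = 0 ∧ z₂ = 0)
    {R : Submodule F ((Fin m ⊕ Fin m) ⊕ Fin 2 → F)} (hR : ∀ x ∈ R, qMinus m F a b x = 0) :
    finrank F R ≠ m + 1 :=
  H4.qMinus_no_singular hab m R fun w hw => by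
    rw [H4.coe_qMinus, ← H5.coe_qMinus]; exact hR w hw

theorem points_qMinus (m : ℕ) {a b : F}
    (hab : ∀ z₁ z₂ : F, z₁ ^ 2 + a * z₁ * z₂ + b * z₂ ^ 2 = 0 → z₁ = 0 ∧ z₂ = 0) :
    (singularPoints (qMinus m F a b)).ncard * (q - 1) = (q ^ (m + 1) + 1) * (q ^ m - 1) := by
  have h := singularPoints_mul_add_one (qMinus m F a b)
  have hz : Nat.card {x // qMinus m F a b x = 0} =
      Nat.card {v : (Fin m ⊕ Fin m) ⊕ Fin 2 → F // Cfsg.quadFormMinus m F a b v = 0} :=
    Nat.card_congr (Equiv.subtypeEquivRight fun v => by rw [H5.coe_qMinus])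
  rw [hz, Nat.card_eq_fintype_card (α := F)] at h
  have h' := congrArg (fun n : ℕ => (n : ℤ)) h
  simp only [H4.card_qMinus_zeros m a b hab, Nat.cast_add, Nat.cast_mul, Nat.cast_one] at h'
  zify [Nat.one_le_pow m q Fintype.card_pos]
  linear_combination h'

/-- The hypotheses for the minus form. -/
theorem idxHyp_qMinus {m : ℕ} (hm : 3 ≤ m) {a b : F}
    (hab : ∀ z₁ z₂ : F, z₁ ^ 2 + a * z₁ * z₂ + b * z₂ ^ 2 = 0 → z₁ = 0 ∧ z₂ = 0) :
    IdxHyp (qMinus m F a b) (singularPoints (qMinus m F a b)).ncard := by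
  have hq : 2 ≤ q := Fintype.one_lt_card
  have hn := finrank_minus (F := F) m
  have hp := points_qMinus m hab
  refine ⟨H5.qMinus_nondegenerate m hab, by omega, fun _ => by rw [hn]; exact even_two_mul _,
    le_rfl, fun R hR h8 h4 => absurd h4 ?_, fun c _ => ?_, ?_⟩
  · rw [show 4 = m + 1 by omega]; exact no_ts_qMinus m hab hR
  · refine (Nat.mul_le_mul_left _ ((signs_le_pred F).trans_eq
      (by rw [Nat.card_eq_fintype_card]))).trans ?_
    rw [hp]
    have h := le_card_norm_qMinus m hab c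
    zify [Nat.one_le_pow m q Fintype.card_pos]
    linear_combination h
  · rw [hn, Nat.card_eq_fintype_card]
    refine Nat.le_of_mul_le_mul_right ?_ (show 0 < q - 1 by omega)
    rw [hp]
    obtain ⟨j, hj⟩ : ∃ j, m = j + 1 := ⟨m - 1, by omega⟩
    rw [hj, show 2 * (j + 1 + 1) - 3 = 2 * j + 1 by omega]
    zify [Nat.one_le_pow (j + 1) q Fintype.card_pos, show 1 ≤ q by omega]
    have hq' : (2 : ℤ) ≤ Fintype.card F := by exact_mod_cast hq
    have h0 : (0 : ℤ) ≤ (Fintype.card F : ℤ) ^ j := by positivity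
    rw [show 2 * j + 1 = j + j + 1 by ring, pow_succ _ (j + 1), pow_succ _ j,
      pow_succ _ (j + j), pow_add]
    set Y : ℤ := (Fintype.card F : ℤ) ^ j
    set X : ℤ := (Fintype.card F : ℤ)
    have h1 : 0 ≤ (X - 2) * X * (Y * Y) :=
      mul_nonneg (mul_nonneg (by omega) (by omega)) (mul_nonneg h0 h0)
    have h2 : 0 ≤ (X - 1) * X * Y := mul_nonneg (mul_nonneg (by omega) (by omega)) h0
    nlinarith [h1, h2]

theorem exc_false_qMinus {m : ℕ} {a b : F}
    (hab : ∀ z₁ z₂ : F, z₁ ^ 2 + a * z₁ * z₂ + b * z₂ ^ 2 = 0 → z₁ = 0 ∧ z₂ = 0)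
    {H : Subgroup (orth (qMinus m F a b))} (h : Exc H) : False := by
  obtain ⟨R, hR, h4⟩ := exists_ts_of_exc h
  have hn : finrank F ((Fin m ⊕ Fin m) ⊕ Fin 2 → F) = 8 := h.1
  rw [finrank_minus] at hn
  exact no_ts_qMinus m hab hR (by omega)

theorem finrank_plus (m : ℕ) : finrank F (Fin m ⊕ Fin m → F) = 2 * m := by
  simp; omega

theorem points_qPlus {m : ℕ} (hm : 1 ≤ m) :
    (singularPoints (qPlus m F)).ncard * (q - 1) = (q ^ m - 1) * (q ^ (m - 1) + 1) := by
  obtain ⟨j, rfl⟩ : ∃ j, m = j + 1 := ⟨m - 1, by omega⟩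
  have h := singularPoints_mul_add_one (qPlus (j + 1) F)
  have hz : Nat.card {x // qPlus (j + 1) F x = 0} =
      Nat.card {v : Fin (j + 1) ⊕ Fin (j + 1) → F // Cfsg.quadFormPlus (j + 1) F v = 0} :=
    Nat.card_congr (Equiv.subtypeEquivRight fun v => by rw [H5.coe_qPlus])
  rw [hz, Nat.card_eq_fintype_card (α := F)] at h
  have h' := congrArg (fun n : ℕ => (Fintype.card F : ℤ) * (n : ℤ)) h
  simp only [H4.card_qPlus_zeros, Nat.cast_add, Nat.cast_mul, Nat.cast_one] at h'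
  have hq0 : (Fintype.card F : ℤ) ≠ 0 := by exact_mod_cast Fintype.card_ne_zero
  zify [Nat.one_le_pow (j + 1) q Fintype.card_pos]
  apply mul_left_cancel₀ hq0
  rw [Nat.add_sub_cancel]
  linear_combination h'

theorem norm_qPlus {m : ℕ} (hm : 1 ≤ m) {c : F} (hc : c ≠ 0) :
    (normSet (qPlus m F) c).ncard + q ^ (m - 1) = q ^ (2 * m - 1) := by
  obtain ⟨j, rfl⟩ : ∃ j, m = j + 1 := ⟨m - 1, by omega⟩
  have h := card_norm_qPlus (j + 1) hc
  have hq0 : (Fintype.card F : ℤ) ≠ 0 := by exact_mod_cast Fintype.card_ne_zero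
  zify
  apply mul_left_cancel₀ hq0
  rw [Nat.add_sub_cancel, show 2 * (j + 1) - 1 = 2 * j + 1 by omega]
  linear_combination h

end Cfsg.Agent.H3.OIdx
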