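import Cfsg.Agent.H3.OIdx.Structure

/-!
Large points, the exceptional configuration, and tools for moving subgroups by Levi elements.
-/

set_option autoImplicit false

namespace Cfsg.Agent.H3.OIdx

open QuadraticMap hiding sq
open Module
open Cfsg.Agent.H5 (orth eich eichGroup eich_mem_eichGroup)

variable {F V : Type*} [Field F] [AddCommGroup V] [Module F V] {Q : QuadraticForm F V}

/-- A conjugate of a subgroup. -/
abbrev cj (H : Subgroup (orth Q)) (x : orth Q) : Subgroup (orth Q) :=
  H.map (MulAut.conj x).toMonoidHom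

theorem mem_cj {H : Subgroup (orth Q)} {x g : orth Q} : g ∈ cj H x ↔ x⁻¹ * g * x ∈ H := by
  rw [cj, Subgroup.mem_map_equiv, MulAut.conj_symm_apply]

theorem cj_mul (H : Subgroup (orth Q)) (x y : orth Q) : cj (cj H x) y = cj H (y * x) := by
  rw [cj, cj, cj, Subgroup.map_map, map_mul]
  rfl

theorem cj_eichGroup (x : orth Q) : cj (eichGroup Q) x = eichGroup Q := by
  refine le_antisymm ?_ fun g hg => mem_cj.2 ?_
  · intro g hg
    have := H5.eichGroup_normal.conj_mem _ (mem_cj.1 hg) x
    simpa [mul_assoc] using this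
  · simpa using H5.eichGroup_normal.conj_mem g hg x⁻¹

theorem cj_le {H : Subgroup (orth Q)} (hH : H ≤ eichGroup Q) (x : orth Q) :
    cj H x ≤ eichGroup Q :=
  cj_eichGroup x ▸ Subgroup.map_mono hH

theorem relIndex_cj (H : Subgroup (orth Q)) (x : orth Q) :
    (cj H x).relIndex (eichGroup Q) = H.relIndex (eichGroup Q) := by
  conv_lhs => rw [← cj_eichGroup x]
  exact Subgroup.relIndex_map_map_of_injective _ _ (MulAut.conj x).injective

/-- A singular point with a large root subgroup in `H`. -/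
def Large (H : Subgroup (orth Q)) (v : V) : Prop :=
  v ≠ 0 ∧ Q v = 0 ∧ ∃ Y : Submodule F V, Y ⊓ H5.perp Q Y = ⊥ ∧
    finrank F V ≤ finrank F Y + 4 ∧ ∀ a ∈ Y, polar Q v a = 0 ∧ eich Q v a ∈ H

/-- The exceptional configuration in dimension eight. -/
def Exc (H : Subgroup (orth Q)) : Prop :=
  finrank F V = 8 ∧ ∃ (L : LineFrame Q) (E : Submodule F V), E ≤ L.W ∧ (∀ x ∈ E, Q x = 0) ∧
    finrank F E = 2 ∧ ∀ a ∈ E, eich Q L.u a ∈ H ∧ eich Q L.v a ∈ H

/-- What the local analysis yields for a subgroup of small index. -/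
def Good (H : Subgroup (orth Q)) : Prop := (∃ v, Large H v) ∨ Exc H

variable {L : LineFrame Q} [Finite V]

theorem inf_rad_cj (H : Subgroup (orth Q)) (l : Lev L) :
    cj H l.g ⊓ L.rad = (H ⊓ L.rad).map (MulAut.conj l.g).toMonoidHom := by
  rw [Subgroup.map_inf _ _ _ (MulAut.conj l.g).injective, l.map_rad]

variable [Finite F] [FiniteDimensional F V]

/-- Orbit counting with an arbitrary separating argument. -/
theorem orbit_count {H : Subgroup (orth Q)} (hH : H ≤ eichGroup Q) {ι : Type*} (l : ι → Lev L)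
    (hdist : ∀ i j, ∀ x ∈ L.rad, (H ⊓ L.rad).map (MulAut.conj (x * (l i).g)).toMonoidHom =
      (H ⊓ L.rad).map (MulAut.conj (l j).g).toMonoidHom → i = j) :
    Nat.card ι * Nat.card F ^ (2 * finrank F L.W + 1) ≤
      H.relIndex (eichGroup Q) *
        (Nat.card (L.zset (H ⊓ L.rad)) * Nat.card (L.proj (H ⊓ L.rad))) := by
  haveI : Finite (V ≃ₗ[F] V) := Finite.of_injective (fun g => (g : V → V)) DFunLike.coe_injective
  have h := card_mul_relIndex_le H L.rad (eichGroup Q) hH L.rad_le (fun i => (l i).g)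
    (fun i => (l i).mem) (fun i => (l i).map_rad) hdist
  rw [← LineFrame.natCard_eq_zset_mul_proj (inf_le_right : H ⊓ L.rad ≤ L.rad),
    ← LineFrame.natCard_rad]
  calc Nat.card ι * Nat.card L.rad
      = Nat.card ι * ((H ⊓ L.rad).relIndex L.rad * Nat.card ↥(H ⊓ L.rad)) := by
        congr 1
        rw [Subgroup.relIndex, ← Nat.card_congr
          (Subgroup.subgroupOfEquivOfLe (inf_le_right : H ⊓ L.rad ≤ L.rad)).toEquiv,
          Subgroup.index_mul_card]
    _ = Nat.card ι * (H ⊓ L.rad).relIndex L.rad * Nat.card ↥(H ⊓ L.rad) := by ring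
    _ ≤ _ := Nat.mul_le_mul_right _ h

/-- The invariants of two conjugate subgroups of the radical, compared through translations. -/
theorem image_eq_of_conj {D : Subgroup (orth Q)} (hD : D ≤ L.rad) (l m : Lev L) {x : orth Q}
    (hx : x ∈ L.rad) (h : D.map (MulAut.conj (x * l.g)).toMonoidHom =
      D.map (MulAut.conj m.g).toMonoidHom) :
    l.φ '' (L.proj D : Set (V × V)) = m.φ '' (L.proj D : Set (V × V)) := by
  have hDl : D.map (MulAut.conj l.g).toMonoidHom ≤ L.rad :=
    (l.map_rad).subst (Subgroup.map_mono hD)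
  obtain ⟨e1, -⟩ := LineFrame.proj_map_rad hDl hx
  rw [Subgroup.map_map, show (MulAut.conj x).toMonoidHom.comp (MulAut.conj l.g).toMonoidHom =
    (MulAut.conj (x * l.g)).toMonoidHom by rw [map_mul]; rfl, h] at e1
  rw [← l.proj_map hD, ← m.proj_map hD, e1]

omit [Finite V] [Finite F] [FiniteDimensional F V] in
theorem proj_el {D : Subgroup (orth Q)} (hz : ∀ t, L.el 0 0 t ∈ D → t = 0) {a b : V}
    (ha : a ∈ L.W) (hb : b ∈ L.W) {t t' : F} (h : L.el a b t ∈ D) (h' : L.el a b t' ∈ D) :
    t = t' :=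
  (sub_eq_zero.1 (hz _ (LineFrame.el_add_center ha hb h' h)))

end Cfsg.Agent.H3.OIdx
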