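import Cfsg.Agent.H3.OIdx.Frames
import Cfsg.Agent.H4.PointImage
import Cfsg.Agent.H5.Transitive

/-!
Orbit sizes of points, planes and totally singular subspaces, and the resulting bound for
subgroups stabilising such a subspace.
-/

set_option autoImplicit false

namespace Cfsg.Agent.H3.OIdx

open QuadraticMap hiding sq
open Module
open Cfsg.Agent.H5 (orth eich eichGroup eich_mem_eichGroup HypPair pperp mem_pperp orth_mul_apply
  orth_map orth_polar polar_self' perp)
open Cfsg.Agent.H4 (subspaceOrbit singularPoints subStab subPerm)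

variable {F V : Type*} [Field F] [Finite F] [AddCommGroup V] [Module F V] [FiniteDimensional F V]
  [Finite V] {Q : QuadraticForm F V}

theorem relIndex_subStab (Q : QuadraticForm F V) (S : Submodule F V) :
    (subStab Q S).relIndex (eichGroup Q) = (subspaceOrbit Q S).ncard :=
  H4.relIndex_stab_eq (subPerm Q) S (subStab Q S) fun g => Iff.rfl

/-- An invariant subspace bounds the index below by its orbit. -/
theorem orbit_le_relIndex {H : Subgroup (orth Q)} (hH : H ≤ eichGroup Q) {S : Submodule F V}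
    (hS : ∀ g ∈ H, ∀ x ∈ S, (g : V ≃ₗ[F] V) x ∈ S) :
    (subspaceOrbit Q S).ncard ≤ H.relIndex (eichGroup Q) := by
  haveI : Finite (V ≃ₗ[F] V) := Finite.of_injective (fun g => (g : V → V)) DFunLike.coe_injective
  have hle : H ≤ subStab Q S := fun g hg => ⟨hH hg, H5.map_eq_of_forall_mem (hS g hg)⟩
  rw [← relIndex_subStab, ← Subgroup.relIndex_mul_relIndex H _ _ hle (H4.subStab_le S)]
  refine Nat.le_mul_of_pos_left _ (Nat.pos_of_ne_zero ?_)
  exact Subgroup.index_ne_zero_of_finite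

/-- Non-zero singular vectors of a non-degenerate subspace. -/
theorem le_ncard_singular {W : Submodule F V} (hW : W ⊓ perp Q W = ⊥) (h3 : 3 ≤ finrank F W) :
    (Nat.card F - 1) * Nat.card F ^ (finrank F W - 2) ≤
      {z : V | z ∈ W ∧ z ≠ 0 ∧ Q z = 0}.ncard := by
  have hr := H5.restrict_nondegenerate hW
  obtain ⟨e, he0, he⟩ := H5.exists_singular hr h3
  obtain ⟨f, hp⟩ := H5.exists_hypPair hr he0 he
  have hfin := hp.finrank_pperp hr
  rw [← Nat.card_units, show finrank F W - 2 = finrank F (pperp (Q.restrict W) e f) by omega,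
    ← Module.natCard_eq_pow_finrank (K := F) (V := pperp (Q.restrict W) e f), ← Nat.card_prod,
    ← Nat.card_coe_set_eq]
  have hcoef : ∀ w ∈ pperp (Q.restrict W) e f,
      polar (Q.restrict W) f (e + (-(Q.restrict W) w) • f + w) = 1 :=
    fun w hw => (hp.singular_lift hw).2.2
  refine Nat.card_le_card_of_injective (fun x =>
    ⟨(x.1 : F) • ((e + (-(Q.restrict W) (x.2 : W)) • f + (x.2 : W) : W) : V),
      W.smul_mem _ (Subtype.mem _), ?_, ?_⟩) ?_
  · refine smul_ne_zero x.1.ne_zero fun h0 => ?_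
    have h1 := hcoef _ x.2.2
    rw [show e + (-(Q.restrict W) (x.2 : W)) • f + (x.2 : W) = 0 from Subtype.ext h0,
      polar_zero_right] at h1
    exact zero_ne_one h1
  · rw [QuadraticMap.map_smul]
    have := (hp.singular_lift x.2.2).1
    change Q _ = 0 at this
    rw [this, smul_zero]
  · rintro ⟨t, w⟩ ⟨t', w'⟩ h
    have h1 : (t : F) • (e + (-(Q.restrict W) (w : W)) • f + (w : W)) =
        (t' : F) • (e + (-(Q.restrict W) (w' : W)) • f + (w' : W)) :=
      Subtype.ext (congrArg (fun z : {z : V | z ∈ W ∧ z ≠ 0 ∧ Q z = 0} => (z : V)) h)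
    have h2 := congrArg (fun z => polar (Q.restrict W) f z) h1
    simp only [polar_smul_right, hcoef _ w.2, hcoef _ w'.2, smul_eq_mul, mul_one] at h2
    obtain rfl : t = t' := Units.ext h2
    have h3 := smul_right_injective W t.ne_zero h1
    have h4 := congrArg (fun z => polar (Q.restrict W) e z) h3
    simp only [(hp.singular_lift w.2).2.1, (hp.singular_lift w'.2).2.1, neg_inj] at h4
    rw [h4] at h3
    rw [Subtype.ext (add_left_cancel h3)]

/-- Pairs of orthogonal singular vectors of a non-degenerate subspace. -/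
theorem le_card_pairs (hQ : (polarBilin Q).Nondegenerate) {W : Submodule F V}
    (hW : W ⊓ perp Q W = ⊥) (h5 : 5 ≤ finrank F W) :
    ((Nat.card F - 1) * Nat.card F ^ (finrank F W - 2)) *
      (Nat.card F * ((Nat.card F - 1) * Nat.card F ^ (finrank F W - 2 - 2))) ≤
      {p : V × V | p.1 ∈ W ∧ p.2 ∈ W ∧ Q p.1 = 0 ∧ Q p.2 = 0 ∧ polar Q p.1 p.2 = 0}.ncard := by
  set d := finrank F W
  set P := {p : V × V | p.1 ∈ W ∧ p.2 ∈ W ∧ Q p.1 = 0 ∧ Q p.2 = 0 ∧ polar Q p.1 p.2 = 0}
  set S := {z : V | z ∈ W ∧ z ≠ 0 ∧ Q z = 0}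
  set k := Nat.card F * ((Nat.card F - 1) * Nat.card F ^ (d - 2 - 2))
  have hr := H5.restrict_nondegenerate hW
  have hfib : ∀ z : S, k ≤ {y : V | ((z : V), y) ∈ P}.ncard := by
    rintro ⟨z, hzW, hz0, hz⟩
    obtain ⟨f, hp⟩ := H5.exists_hypPair hr (e := (⟨z, hzW⟩ : W))
      (fun h => hz0 (congrArg Subtype.val h)) hz
    have hfin := hp.finrank_pperp hr
    set W' := (pperp (Q.restrict W) ⟨z, hzW⟩ f).map W.subtype
    have hW'd : finrank F W' = d - 2 := by
      rw [Submodule.finrank_map_subtype_eq]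
      change _ = finrank F W - 2
      omega
    have hW' : W' ⊓ perp Q W' = ⊥ := by
      rw [eq_bot_iff]
      rintro _ ⟨⟨a, ha, rfl⟩, ha'⟩
      have h1 : a ∈ pperp (Q.restrict W) ⟨z, hzW⟩ f ⊓
          perp (Q.restrict W) (pperp (Q.restrict W) ⟨z, hzW⟩ f) :=
        ⟨ha, fun b hb => ha' _ ⟨b, hb, rfl⟩⟩
      rw [hp.inf_perp hr, Submodule.mem_bot] at h1
      rw [h1, map_zero]
      exact zero_mem _
    have hs := le_ncard_singular hW' (by omega)
    rw [hW'd] at hs
    refine le_trans (Nat.mul_le_mul_left _ hs) ?_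
    rw [← Nat.card_coe_set_eq, ← Nat.card_coe_set_eq, ← Nat.card_prod]
    have hzf : polar Q (f : V) z = 1 := by
      rw [polar_comm]; exact hp.pair
    have hperp : ∀ s ∈ W', polar Q z s = 0 ∧ polar Q (f : V) s = 0 ∧ s ∈ W := by
      rintro _ ⟨a, ha, rfl⟩
      exact ⟨(mem_pperp.1 ha).1, (mem_pperp.1 ha).2, a.2⟩
    refine Nat.card_le_card_of_injective (fun x => ⟨x.1 • z + (x.2 : V), hzW,
      W.add_mem (W.smul_mem _ hzW) (hperp _ x.2.2.1).2.2, hz, ?_, ?_⟩) ?_
    · rw [QuadraticMap.map_add (⇑Q), QuadraticMap.map_smul, hz, x.2.2.2.2, polar_smul_left,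
        (hperp _ x.2.2.1).1]
      simp
    · change polar Q z (x.1 • z + (x.2 : V)) = 0
      rw [polar_add_right, polar_smul_right, polar_self', hz, (hperp _ x.2.2.1).1]
      simp
    · rintro ⟨c, s⟩ ⟨c', s'⟩ h
      have h1 : c • z + (s : V) = c' • z + (s' : V) := congrArg Subtype.val h
      have h2 := congrArg (fun x => polar Q (f : V) x) h1
      simp only [polar_add_right, polar_smul_right, hzf, (hperp _ s.2.1).2.1,
        (hperp _ s'.2.1).2.1, smul_eq_mul, mul_one, add_zero] at h2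
      subst h2
      rw [Subtype.ext (add_left_cancel h1)]
  have hS := le_ncard_singular hW (by omega)
  refine le_trans (Nat.mul_le_mul_right _ hS) ?_
  let e : (Σ z : S, {y : V | ((z : V), y) ∈ P}) → P := fun x => ⟨((x.1 : V), (x.2 : V)), x.2.2⟩
  have he : Function.Injective e := by
    rintro ⟨z, y⟩ ⟨z', y'⟩ h
    obtain ⟨h1, h2⟩ := Prod.ext_iff.1 (congrArg Subtype.val h)
    obtain rfl : z = z' := Subtype.ext h1
    exact congrArg (Sigma.mk z) (Subtype.ext h2)
  rw [← Nat.card_coe_set_eq P]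
  refine le_trans ?_ (Nat.card_le_card_of_injective e he)
  haveI : Fintype S := Fintype.ofFinite _
  rw [Nat.card_sigma]
  calc S.ncard * k = ∑ _z : S, k := by
        rw [Finset.sum_const, Finset.card_univ, smul_eq_mul, ← Nat.card_eq_fintype_card,
          Nat.card_coe_set_eq]
    _ ≤ _ := Finset.sum_le_sum fun z _ => by
        rw [Nat.card_coe_set_eq]; exact hfib z

/-- The orbit of a non-degenerate plane is large. -/
theorem plane_orbit_large (hQ : (polarBilin Q).Nondegenerate) (hn : 7 ≤ finrank F V)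
    (heven : (2 : F) = 0 → Even (finrank F V)) {Y : Submodule F V} (hY : Y ⊓ perp Q Y = ⊥)
    (h2 : finrank F Y = 2) :
    (Nat.card F + 2) * Nat.card F ^ (finrank F V - 3) ≤ (subspaceOrbit Q Y).ncard := by
  obtain ⟨W, hWdef⟩ : ∃ W, W = perp Q Y := ⟨_, rfl⟩
  have hWd : finrank F W + 2 = finrank F V := by
    have := H5.finrank_perp_add hQ Y
    rw [← hWdef] at this
    omega
  have hW : W ⊓ perp Q W = ⊥ := by
    rw [hWdef, H5.perp_perp hQ, inf_comm]; exact hY
  have hP := le_card_pairs hQ hW (by omega)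
  refine le_trans ?_ (hP.trans ?_)
  · set q := Nat.card F
    set d := finrank F W
    obtain ⟨i, hi⟩ : ∃ i, d = i + 4 := ⟨d - 4, by omega⟩
    rw [show finrank F V - 3 = i + 3 by omega, hi, show i + 4 - 2 = i + 2 by omega,
      show i + 2 - 2 = i by omega]
    have hq : 2 ≤ q := Finite.one_lt_card
    have key : q + 2 ≤ (q - 1) * (q - 1) * q ^ i := by
      rcases Nat.lt_or_ge q 3 with h3 | h3
      · have hq2 : q = 2 := by omega
        have h20 : (2 : F) = 0 := by
          haveI := Fintype.ofFinite F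
          have := Nat.cast_card_eq_zero F
          rw [← Nat.card_eq_fintype_card, show Nat.card F = 2 from hq2] at this
          exact_mod_cast this
        obtain ⟨r, hr⟩ := heven h20
        rw [hq2]
        calc 2 + 2 = 2 ^ 2 := by norm_num
          _ ≤ 2 ^ i := Nat.pow_le_pow_right (by omega) (by omega)
          _ = _ := by ring
      · have h4 : 4 ≤ (q - 1) * (q - 1) := Nat.mul_le_mul (show 2 ≤ q - 1 by omega) (show 2 ≤ q - 1 by omega)
        calc q + 2 ≤ 4 * q := by omega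
          _ ≤ (q - 1) * (q - 1) * q ^ 1 := by rw [pow_one]; exact Nat.mul_le_mul_right _ h4
          _ ≤ _ := Nat.mul_le_mul_left _ (Nat.pow_le_pow_right (by omega) (by omega))
    calc (q + 2) * q ^ (i + 3) ≤ (q - 1) * (q - 1) * q ^ i * q ^ (i + 3) :=
          Nat.mul_le_mul_right _ key
      _ = _ := by ring
  · -- pairs of orthogonal singular vectors of the perp give distinct planes
    have hr := H5.restrict_nondegenerate hY
    let b := Module.finBasisOfFinrankEq F Y h2
    have hb10 : b 1 ∉ Submodule.span F {b 0} := fun hm => by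
      obtain ⟨t, ht⟩ := Submodule.mem_span_singleton.1 hm
      have h1 := congrArg (fun z => b.repr z 1) ht
      simp at h1
    obtain ⟨s₁, hs1, hs1'⟩ := H5.exists_polar_pair hr (b.ne_zero 0) hb10 1 0
    obtain ⟨s₂, hs2, hs2'⟩ := H5.exists_polar_pair hr (b.ne_zero 0) hb10 0 1
    have a1 : polar Q (b 0 : V) (s₁ : V) = 1 := hs1
    have a2 : polar Q (b 1 : V) (s₁ : V) = 0 := hs1'
    have a3 : polar Q (b 0 : V) (s₂ : V) = 0 := hs2
    have a4 : polar Q (b 1 : V) (s₂ : V) = 1 := hs2'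
    set g : V × V → orth Q := fun p => eich Q p.1 (-(s₁ : V)) * eich Q p.2 (-(s₂ : V))
    have happ : ∀ p : V × V, p.1 ∈ W → p.2 ∈ W → Q p.1 = 0 → Q p.2 = 0 →
        polar Q p.1 p.2 = 0 → (g p : V ≃ₗ[F] V) (b 0 : V) = (b 0 : V) + p.1 ∧
          (g p : V ≃ₗ[F] V) (b 1 : V) = (b 1 : V) + p.2 := by
      intro p h1 h2' h3 h4 h5
      have o : ∀ (z : V), z ∈ W → ∀ y : Y, polar Q z (y : V) = 0 := fun z hz y => by
        rw [polar_comm]; exact (hWdef ▸ hz : z ∈ perp Q Y) _ y.2
      have e1 : polar Q p.1 (-(s₁ : V)) = 0 := by rw [polar_neg_right, o _ h1, neg_zero]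
      have e2 : polar Q p.2 (-(s₂ : V)) = 0 := by rw [polar_neg_right, o _ h2', neg_zero]
      have o' : polar Q (s₁ : V) p.2 = 0 := (hWdef ▸ h2' : p.2 ∈ perp Q Y) _ s₁.2
      constructor
      · simp only [g, orth_mul_apply, H5.eich_apply h4 e2, H5.eich_apply h3 e1, o _ h1, o _ h2',
          polar_add_right, polar_sub_right, polar_smul_right, polar_neg_left,
          polar_comm (⇑Q) (s₁ : V) (b 0 : V), polar_comm (⇑Q) (s₂ : V) (b 0 : V), a1, a3]
        simp [o', h5]
      · simp only [g, orth_mul_apply, H5.eich_apply h4 e2, H5.eich_apply h3 e1, o _ h1, o _ h2',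
          polar_add_right, polar_sub_right, polar_smul_right, polar_neg_left,
          polar_comm (⇑Q) (s₁ : V) (b 1 : V), polar_comm (⇑Q) (s₂ : V) (b 1 : V), a2, a4]
        simp [o', h5]
    refine Set.ncard_le_ncard_of_injOn (fun p => Y.map ((g p : V ≃ₗ[F] V) : V →ₗ[F] V))
      (fun p _ => ⟨g p, mul_mem (eich_mem_eichGroup _ _) (eich_mem_eichGroup _ _), rfl⟩)
      ?_ (Set.toFinite _)
    rintro p ⟨p1, p2, p3, p4, p5⟩ r ⟨r1, r2, r3, r4, r5⟩ hpr
    have hco : ∀ i, ∀ z : V, (g p : V ≃ₗ[F] V) (b i : V) = (b i : V) + z → z ∈ W →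
        ∀ z' : V, (g r : V ≃ₗ[F] V) (b i : V) = (b i : V) + z' → z' ∈ W → z = z' := by
      intro i z hz hzW z' hz' hzW'
      have hmem : (g p : V ≃ₗ[F] V) (b i : V) ∈ Y.map ((g r : V ≃ₗ[F] V) : V →ₗ[F] V) :=
        hpr.le ⟨_, (b i).2, rfl⟩
      obtain ⟨y, hy, hye⟩ := hmem
      rw [LinearEquiv.coe_coe, hz] at hye
      have hy' : (g r : V ≃ₗ[F] V) y - y ∈ W := by
        have hb' := b.sum_repr ⟨y, hy⟩
        rw [Fin.sum_univ_two] at hb'
        have hy2 : y = b.repr ⟨y, hy⟩ 0 • (b 0 : V) + b.repr ⟨y, hy⟩ 1 • (b 1 : V) :=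
          (congrArg Subtype.val hb').symm
        rw [hy2, map_add, map_smul, map_smul, (happ r r1 r2 r3 r4 r5).1, (happ r r1 r2 r3 r4 r5).2]
        have : b.repr ⟨y, hy⟩ 0 • ((b 0 : V) + r.1) + b.repr ⟨y, hy⟩ 1 • ((b 1 : V) + r.2) -
            (b.repr ⟨y, hy⟩ 0 • (b 0 : V) + b.repr ⟨y, hy⟩ 1 • (b 1 : V)) =
              b.repr ⟨y, hy⟩ 0 • r.1 + b.repr ⟨y, hy⟩ 1 • r.2 := by module
        rw [this]
        exact W.add_mem (W.smul_mem _ r1) (W.smul_mem _ r2)
      have hd : y - (b i : V) ∈ Y ⊓ W := ⟨Y.sub_mem hy (b i).2, by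
        have : y - (b i : V) = z - ((g r : V ≃ₗ[F] V) y - y) := by rw [hye]; abel
        rw [this]; exact W.sub_mem hzW hy'⟩
      rw [hWdef, hY, Submodule.mem_bot, sub_eq_zero] at hd
      rw [hd, hz'] at hye
      exact (add_left_cancel hye).symm
    exact Prod.ext
      (hco 0 _ (happ p p1 p2 p3 p4 p5).1 p1 _ (happ r r1 r2 r3 r4 r5).1 r1)
      (hco 1 _ (happ p p1 p2 p3 p4 p5).2 p2 _ (happ r r1 r2 r3 r4 r5).2 r2)

/-- The vectors of a norm. -/
def normSet (Q : QuadraticForm F V) (c : F) : Set V := {x | Q x = c}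

/-- The scalars fixing every norm. -/
noncomputable def signs (F : Type*) [Field F] : ℕ := {t : F | t * t = 1}.ncard

omit [Finite F] in
theorem signs_le_two (F : Type*) [Field F] : signs F ≤ 2 :=
  (Set.ncard_le_ncard (t := {1, -1}) (fun t (ht : t * t = 1) => by
    rcases mul_self_eq_one_iff.1 ht with h | h <;> simp [h]) (Set.toFinite _)).trans
      ((Set.ncard_insert_le _ _).trans (by simp))

omit [Finite F] in
theorem signs_of_two (F : Type*) [Field F] (h : (2 : F) = 0) : signs F = 1 := by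
  rw [signs, Set.ncard_eq_one]
  refine ⟨1, Set.ext fun t => ⟨fun ht => ?_, fun ht => by rw [ht]; exact mul_one 1⟩⟩
  rcases mul_self_eq_one_iff.1 (ht : t * t = 1) with h' | h'
  · exact h'
  · rw [h']
    exact (by linear_combination -h : (-1 : F) = 1)

omit [Finite F] in
theorem signs_odd (F : Type*) [Field F] (h : (2 : F) ≠ 0) : signs F = 2 := by
  rw [signs, Set.ncard_eq_two]
  refine ⟨1, -1, fun h1 => h (by linear_combination h1), Set.ext fun t => ⟨fun ht => ?_, ?_⟩⟩
  · rcases mul_self_eq_one_iff.1 (ht : t * t = 1) with h' | h' <;> simp [h']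
  · rintro (rfl | rfl) <;> simp

/-- The orbit of a non-singular point. -/
theorem orbit_mul_signs (hQ : (polarBilin Q).Nondegenerate) (hn : 4 ≤ finrank F V) {y : V}
    (hy : Q y ≠ 0) :
    (subspaceOrbit Q (Submodule.span F {y})).ncard * signs F = (normSet Q (Q y)).ncard := by
  rw [signs, ← Nat.card_coe_set_eq, ← Nat.card_coe_set_eq, ← Nat.card_coe_set_eq,
    ← Nat.card_prod]
  have hrep : ∀ L : subspaceOrbit Q (Submodule.span F {y}), ∃ x : V, Q x = Q y ∧
      (L : Submodule F V) = Submodule.span F {x} := by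
    rintro ⟨_, g, -, rfl⟩
    exact ⟨(g : V ≃ₗ[F] V) y, orth_map g y, H4.subPerm_span g y⟩
  choose r hr hL using hrep
  refine Nat.card_congr (Equiv.ofBijective (fun p =>
    (⟨(p.2 : F) • r p.1, by
      have h1 : (p.2 : F) * p.2 = 1 := p.2.2
      rw [normSet, Set.mem_ofPred_eq, QuadraticMap.map_smul, hr, h1, one_smul]⟩ :
        normSet Q (Q y))) ⟨?_, ?_⟩)
  · rintro ⟨L, t, ht⟩ ⟨L', t', ht'⟩ h
    have h1 : t • r L = t' • r L' := congrArg Subtype.val h
    have ht0 : t ≠ 0 := fun h0 => by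
      have h2 : t * t = 1 := ht
      simp [h0] at h2
    have ht0' : t' ≠ 0 := fun h0 => by
      have h2 : t' * t' = 1 := ht'
      simp [h0] at h2
    obtain rfl : L = L' := Subtype.ext (by
      rw [hL L, hL L', ← Submodule.span_singleton_smul_eq (isUnit_iff_ne_zero.2 ht0) (r L), h1,
        Submodule.span_singleton_smul_eq (isUnit_iff_ne_zero.2 ht0') (r L')])
    have hr0 : r L ≠ 0 := fun h0 => hy (by rw [← hr L, h0, QuadraticMap.map_zero])
    simp [smul_left_injective F hr0 h1]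
  · rintro ⟨x, hx⟩
    obtain ⟨e, he0, he⟩ := H5.exists_singular hQ (by omega)
    obtain ⟨f, hp⟩ := H5.exists_hypPair hQ he0 he
    obtain ⟨g, hg, hgy⟩ := H5.exists_eichGroup_map_norm hQ hn hp hy
    obtain ⟨k, hk, hkx⟩ := H5.exists_eichGroup_map_norm hQ hn hp (v := x)
      (by rw [show Q x = Q y from hx]; exact hy)
    let L : subspaceOrbit Q (Submodule.span F {y}) := ⟨Submodule.span F {x}, k⁻¹ * g,
      mul_mem (inv_mem hk) hg, by
        rw [show Submodule.map _ _ = Submodule.span F {((k⁻¹ * g : orth Q) : V ≃ₗ[F] V) y} from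
          H4.subPerm_span _ y, orth_mul_apply, hgy, ← show Q x = Q y from hx, ← hkx,
          H5.orth_inv_apply_apply]⟩
    have hxm : x ∈ Submodule.span F {r L} := (hL L).le (Submodule.mem_span_singleton_self x)
    obtain ⟨t, ht⟩ := Submodule.mem_span_singleton.1 hxm
    have ht1 : t * t = 1 := by
      have h1 : Q (t • r L) = Q y := by rw [ht]; exact hx
      rw [QuadraticMap.map_smul, hr, smul_eq_mul] at h1
      exact mul_right_cancel₀ hy (h1.trans (one_mul _).symm)
    exact ⟨(L, ⟨t, ht1⟩), Subtype.ext ht⟩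

/-- The bound for a subgroup with a small or totally singular invariant subspace. -/
theorem bound_of_invariant (hQ : (polarBilin Q).Nondegenerate) (hn : 7 ≤ finrank F V)
    (heven : (2 : F) = 0 → Even (finrank F V)) {B : ℕ} (hBP : B ≤ (singularPoints Q).ncard)
    (hB4 : ∀ R : Submodule F V, (∀ x ∈ R, Q x = 0) → finrank F V = 8 → finrank F R = 4 →
      B ≤ (subspaceOrbit Q R).ncard)
    (hBN : ∀ c : F, c ≠ 0 → B * signs F ≤ (normSet Q c).ncard)
    (hBq : B ≤ (Nat.card F + 2) * Nat.card F ^ (finrank F V - 3))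
    {H : Subgroup (orth Q)} (hH : H ≤ eichGroup Q) {S : Submodule F V} (hS0 : S ≠ ⊥)
    (hS : ∀ g ∈ H, ∀ x ∈ S, (g : V ≃ₗ[F] V) x ∈ S)
    (hsmall : (∀ x ∈ S, Q x = 0) ∨ finrank F S ≤ 2) : B ≤ H.relIndex (eichGroup Q) := by
  have ts : ∀ R : Submodule F V, R ≠ ⊥ → (∀ x ∈ R, Q x = 0) →
      (∀ g ∈ H, ∀ x ∈ R, (g : V ≃ₗ[F] V) x ∈ R) → B ≤ H.relIndex (eichGroup Q) := by
    intro R hR0 hR hinv
    refine le_trans ?_ (orbit_le_relIndex hH hinv)
    rcases Nat.lt_or_ge (finrank F R) 2 with h1 | h1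
    · obtain ⟨x, hx, hx0⟩ := Submodule.exists_mem_ne_zero_of_ne_bot hR0
      have hRx : R = Submodule.span F {x} :=
        (Submodule.eq_of_le_of_finrank_le ((Submodule.span_singleton_le_iff_mem _ _).2 hx)
          (by rw [finrank_span_singleton hx0]; omega)).symm
      rw [hRx, H4.orbit_span_eq' hQ (by omega) hx0 (hR x hx)]
      exact hBP
    · by_cases h48 : finrank F V = 8 ∧ finrank F R = 4
      · exact hB4 R hR h48.1 h48.2
      · exact hBP.trans (H4.ncard_singularPoints_lt_orbit_of_ne hQ hn heven R hR h1 h48).le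
  have point : ∀ y : V, Q y ≠ 0 → (∀ g ∈ H, ∀ x ∈ Submodule.span F {y},
      (g : V ≃ₗ[F] V) x ∈ Submodule.span F {y}) → B ≤ H.relIndex (eichGroup Q) := by
    intro y hy hinv
    refine le_trans ?_ (orbit_le_relIndex hH hinv)
    have h1 := hBN (Q y) hy
    rw [← orbit_mul_signs hQ (by omega) hy] at h1
    refine Nat.le_of_mul_le_mul_right h1 ?_
    exact (Set.ncard_pos (Set.toFinite _)).2 ⟨1, mul_one 1⟩
  have hperp : ∀ g ∈ H, ∀ x ∈ perp Q S, (g : V ≃ₗ[F] V) x ∈ perp Q S := fun g hg x hx y hy => by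
    change polar Q y ((g : V ≃ₗ[F] V) x) = 0
    rw [← H5.orth_apply_inv_apply g y, orth_polar]
    exact hx _ (hS _ (inv_mem hg) y hy)
  rcases hsmall with h | h
  · exact ts S hS0 h hS
  by_cases hrad : S ⊓ perp Q S = ⊥
  · obtain ⟨y, hy, hQy⟩ := H5.exists_anisotropic hrad
      (Nat.one_le_iff_ne_zero.2 fun h0 => hS0 (Submodule.finrank_eq_zero.1 h0))
    rcases Nat.lt_or_ge (finrank F S) 2 with h1 | h1
    · have hy0 : y ≠ 0 := fun h0 => hQy (by rw [h0, QuadraticMap.map_zero])
      have hSy : Submodule.span F {y} = S :=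
        Submodule.eq_of_le_of_finrank_le ((Submodule.span_singleton_le_iff_mem _ _).2 hy)
          (by rw [finrank_span_singleton hy0]; omega)
      exact point y hQy (hSy ▸ hS)
    · exact hBq.trans ((plane_orbit_large hQ hn heven hrad (by omega)).trans
        (orbit_le_relIndex hH hS))
  · set R := S ⊓ perp Q S
    have hRinv : ∀ g ∈ H, ∀ x ∈ R, (g : V ≃ₗ[F] V) x ∈ R := fun g hg x hx =>
      ⟨hS g hg x hx.1, hperp g hg x hx.2⟩
    have hRiso : ∀ a ∈ R, ∀ b ∈ R, polar Q a b = 0 := fun a ha b hb => hb.2 a ha.1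
    set R₀ := H4.singularPart Q R hRiso
    by_cases hR0 : R₀ = ⊥
    · obtain ⟨y, hy, hy0⟩ := Submodule.exists_mem_ne_zero_of_ne_bot hrad
      have hzero : ∀ z ∈ R, Q z = 0 → z = 0 := fun z hz hq => by
        have : z ∈ R₀ := ⟨hz, hq⟩
        rwa [hR0, Submodule.mem_bot] at this
      have hQy : Q y ≠ 0 := fun hq => hy0 (hzero y hy hq)
      have h20 : (2 : F) = 0 := by
        have := hRiso y hy y hy
        rw [polar_self'] at this
        exact (mul_eq_zero.1 this).resolve_right hQy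
      refine point y hQy fun g hg x hx => ?_
      obtain ⟨t, rfl⟩ := Submodule.mem_span_singleton.1 hx
      rw [map_smul]
      refine Submodule.smul_mem _ _ ?_
      have hgy := hRinv g hg y hy
      have : (g : V ≃ₗ[F] V) y - y = 0 := hzero _ (R.sub_mem hgy hy) (by
        rw [H5.map_sub', orth_map, hRiso _ hgy _ hy]
        linear_combination Q y * h20)
      rw [sub_eq_zero.1 this]
      exact Submodule.mem_span_singleton_self y
    · exact ts R₀ hR0 (fun x hx => hx.2) fun g hg x hx =>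
        ⟨hRinv g hg x hx.1, by rw [orth_map]; exact hx.2⟩

end Cfsg.Agent.H3.OIdx
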