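import Cfsg.Agent.H3.OIdx.Models
import Cfsg.Agent.H3.OIdx.Eight

/-!
The index bound for the forms of plus type.
-/

set_option autoImplicit false

namespace Cfsg.Agent.H3.OIdx

open QuadraticMap hiding sq
open Module
open Cfsg.Agent.H5 (orth eichGroup qPlus)
open Cfsg.Agent.H4 (subspaceOrbit singularPoints)

variable {F : Type*} [Field F] [Fintype F]

local notation "q" => Fintype.card F

theorem qPlus_eq (m : ℕ) : qPlus m F = H4.qPlus m F :=
  DFunLike.coe_injective ((H5.coe_qPlus m).trans (H4.coe_qPlus m).symm)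

/-- The bound for the exceptional configuration, for any copy of the norm. -/
theorem exc_bound_eight' {Q : QuadraticForm F (Fin 4 ⊕ Fin 4 → F)} (hQ : Q = H4.qPlus 4 F)
    {B : ℕ} (h : IdxHyp Q B) {K : Subgroup (orth Q)} (hK : K ≤ eichGroup Q)
    (hne : K ≠ eichGroup Q)
    (hKc : ∀ g : commutator (orth Q), g ∈ Subgroup.center (commutator (orth Q)) →
      (g : orth Q) ∈ K)
    (x : orth Q) (he : Exc (cj K x)) : B ≤ K.relIndex (eichGroup Q) := by
  subst hQ
  exact exc_bound_eight h hK hne hKc x he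

theorem le_orbit_four' {Q : QuadraticForm F (Fin 4 ⊕ Fin 4 → F)} (hQ : Q = H4.qPlus 4 F)
    {R : Submodule F (Fin 4 ⊕ Fin 4 → F)} (hR : ∀ x ∈ R, Q x = 0) (h4 : finrank F R = 4) :
    (singularPoints Q).ncard ≤ (subspaceOrbit Q R).ncard := by
  subst hQ
  exact le_orbit_four hR h4

/-- Minimal index for the plus form, given a value attained by an orbit. -/
theorem min_index_plus {m : ℕ} (hm : 4 ≤ m) {B : ℕ}
    (hP : B ≤ (singularPoints (qPlus m F)).ncard)
    (hN : ∀ c : F, c ≠ 0 → B * signs F ≤ (normSet (qPlus m F) c).ncard)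
    (hpow : B ≤ (q + 2) * q ^ (2 * m - 3))
    (S : Submodule F (Fin m ⊕ Fin m → F))
    (hS : (subspaceOrbit (qPlus m F) S).ncard = B) :
    (∀ H : Subgroup (Cfsg.POmega F (Cfsg.quadFormPlus m F)), H ≠ ⊤ → B ≤ H.index) ∧
      ∃ H : Subgroup (Cfsg.POmega F (Cfsg.quadFormPlus m F)), H.index = B := by
  have hn := finrank_plus (F := F) m
  have hidx : IdxHyp (qPlus m F) B := ⟨H5.qPlus_nondegenerate m, by omega,
    fun _ => by rw [hn]; exact even_two_mul m, hP, fun R hR h8 h4 => by
      obtain rfl : m = 4 := by omega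
      exact hP.trans (le_orbit_four' (qPlus_eq 4) hR h4), hN,
    by rwa [hn, Nat.card_eq_fintype_card]⟩
  refine min_index_model (qPlus m F) (H5.coe_qPlus m) hidx
    (fun K hK hne hKc x _ he => ?_) S hS
  have h8 : finrank F (Fin m ⊕ Fin m → F) = 8 := he.1
  obtain rfl : m = 4 := by omega
  exact exc_bound_eight' (qPlus_eq 4) hidx hK hne hKc x he

end Cfsg.Agent.H3.OIdx
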