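import Cfsg.Agent.H3.OIdx.Line

/-!
Counting cosets by the orbits of the radical of a line: the invariants of a subgroup of the
radical and Levi translations.
-/

set_option autoImplicit false

namespace Cfsg.Agent.H3.OIdx

open QuadraticMap hiding sq
open Module
open scoped Pointwise
open Cfsg.Agent.H5 (orth eich eichGroup eich_mem_eichGroup HypPair pperp)

variable {F V : Type*} [Field F] [AddCommGroup V] [Module F V] {Q : QuadraticForm F V}
  (L : LineFrame Q)

namespace LineFrame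

/-- The radical of the line, as a subgroup. -/
def rad : Subgroup (orth Q) where
  carrier := {g | ∃ a ∈ L.W, ∃ b ∈ L.W, ∃ t, g = L.el a b t}
  one_mem' := ⟨0, zero_mem _, 0, zero_mem _, 0, L.el_zero.symm⟩
  mul_mem' := by
    rintro _ _ ⟨a, ha, b, hb, t, rfl⟩ ⟨a', ha', b', hb', t', rfl⟩
    exact ⟨_, add_mem ha ha', _, add_mem hb hb', _, L.el_mul ha hb ha' hb' t t'⟩
  inv_mem' := by
    rintro _ ⟨a, ha, b, hb, t, rfl⟩
    exact ⟨_, neg_mem ha, _, neg_mem hb, _, L.el_inv ha hb t⟩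

theorem el_mem_rad {a b : V} (ha : a ∈ L.W) (hb : b ∈ L.W) (t : F) : L.el a b t ∈ L.rad :=
  ⟨a, ha, b, hb, t, rfl⟩

theorem rad_le : L.rad ≤ eichGroup Q := by
  rintro _ ⟨a, -, b, -, t, rfl⟩
  exact L.el_mem_eichGroup a b t

/-- The image of a subgroup modulo the centre of the radical. -/
def proj (D : Subgroup (orth Q)) : AddSubgroup (V × V) where
  carrier := {p | p.1 ∈ L.W ∧ p.2 ∈ L.W ∧ ∃ t, L.el p.1 p.2 t ∈ D}
  zero_mem' := ⟨zero_mem _, zero_mem _, 0, by simp [L.el_zero]⟩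
  add_mem' := by
    rintro p r ⟨hp1, hp2, t, ht⟩ ⟨hr1, hr2, s, hs⟩
    exact ⟨add_mem hp1 hr1, add_mem hp2 hr2, _, by
      have := mul_mem ht hs
      rwa [L.el_mul hp1 hp2 hr1 hr2] at this⟩
  neg_mem' := by
    rintro p ⟨hp1, hp2, t, ht⟩
    exact ⟨neg_mem hp1, neg_mem hp2, _, by
      have := inv_mem ht
      rwa [L.el_inv hp1 hp2] at this⟩

/-- The central part of a subgroup. -/
def zset (D : Subgroup (orth Q)) : AddSubgroup F where
  carrier := {t | L.el 0 0 t ∈ D}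
  zero_mem' := by simp [L.el_zero]
  add_mem' := by
    intro t s ht hs
    have := mul_mem (Set.mem_ofPred_eq ▸ ht) (Set.mem_ofPred_eq ▸ hs : L.el 0 0 s ∈ D)
    rw [L.el_mul (zero_mem _) (zero_mem _) (zero_mem _) (zero_mem _)] at this
    simpa using this
  neg_mem' := by
    intro t ht
    have := inv_mem (Set.mem_ofPred_eq ▸ ht : L.el 0 0 t ∈ D)
    rw [L.el_inv (zero_mem _) (zero_mem _)] at this
    simpa using this

variable {L}

theorem mem_proj {D : Subgroup (orth Q)} {p : V × V} :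
    p ∈ L.proj D ↔ p.1 ∈ L.W ∧ p.2 ∈ L.W ∧ ∃ t, L.el p.1 p.2 t ∈ D := Iff.rfl

theorem mem_zset {D : Subgroup (orth Q)} {t : F} : t ∈ L.zset D ↔ L.el 0 0 t ∈ D := Iff.rfl

/-- Pairs of elements of the complement. -/
abbrev WW (L : LineFrame Q) : Submodule F (V × V) := L.W.prod L.W

theorem proj_subset (D : Subgroup (orth Q)) : (L.proj D : Set (V × V)) ⊆ L.WW :=
  fun _ h => ⟨h.1, h.2.1⟩

/-- The commutator pairing on the projection. -/
def beta (L : LineFrame Q) (p r : V × V) : F :=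
  polar Q r.2 p.1 - polar Q p.2 r.1

theorem beta_mem_zset {D : Subgroup (orth Q)} {p r : V × V} (hp : p ∈ L.proj D)
    (hr : r ∈ L.proj D) : L.beta p r ∈ L.zset D := by
  obtain ⟨hp1, hp2, t, ht⟩ := hp
  obtain ⟨hr1, hr2, s, hs⟩ := hr
  have h := mul_mem (mul_mem ht hs) (inv_mem (mul_mem hs ht))
  rwa [L.el_comm hp1 hp2 hr1 hr2, mul_inv_cancel_right] at h

theorem el_add_center {D : Subgroup (orth Q)} {a b : V} (ha : a ∈ L.W) (hb : b ∈ L.W) {t s : F}
    (ht : L.el a b t ∈ D) (hs : L.el a b s ∈ D) : s - t ∈ L.zset D := by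
  rw [mem_zset]
  have := mul_mem hs (inv_mem ht)
  rwa [L.el_inv ha hb, L.el_mul ha hb (neg_mem ha) (neg_mem hb), add_neg_cancel, add_neg_cancel,
    polar_neg_right, sub_neg_eq_add, show s + (-t - polar Q b a) + polar Q b a = s - t by ring] at this

variable [Finite V]

theorem natCard_eq_zset_mul_proj [Finite F] {D : Subgroup (orth Q)} (hD : D ≤ L.rad) :
    Nat.card D = Nat.card (L.zset D) * Nat.card (L.proj D) := by
  rw [← Nat.card_prod]
  choose τ hτ using fun p : L.proj D => p.2.2.2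
  refine (Nat.card_eq_of_bijective (fun x : L.zset D × L.proj D =>
    (⟨L.el x.2.1.1 x.2.1.2 (τ x.2 + x.1), by
      have h := mul_mem (hτ x.2) (mem_zset.1 x.1.2)
      rw [L.el_mul x.2.2.1 x.2.2.2.1 (zero_mem _) (zero_mem _)] at h
      simpa using h⟩ : D)) ⟨?_, ?_⟩).symm
  · rintro ⟨z, p⟩ ⟨z', p'⟩ h
    obtain ⟨h1, h2, h3⟩ := L.el_injective p.2.1 p.2.2.1 p'.2.1 p'.2.2.1 (congrArg Subtype.val h)
    obtain rfl : p = p' := Subtype.ext (Prod.ext h1 h2)
    exact Prod.ext (Subtype.ext (add_left_cancel h3)) rfl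
  · rintro ⟨g, hg⟩
    obtain ⟨a, ha, b, hb, t, rfl⟩ := hD hg
    let p : L.proj D := ⟨(a, b), ha, hb, t, hg⟩
    refine ⟨(⟨t - τ p, el_add_center ha hb (hτ p) hg⟩, p), Subtype.ext ?_⟩
    simp [p]

theorem natCard_rad [Finite F] [FiniteDimensional F V] :
    Nat.card L.rad = Nat.card F ^ (2 * finrank F L.W + 1) := by
  have e : Nat.card ((L.W × L.W) × F) = Nat.card L.rad := by
    refine Nat.card_eq_of_bijective
      (fun x => ⟨L.el x.1.1 x.1.2 x.2, L.el_mem_rad x.1.1.2 x.1.2.2 _⟩) ⟨?_, ?_⟩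
    · rintro ⟨⟨a, b⟩, t⟩ ⟨⟨a', b'⟩, t'⟩ h
      obtain ⟨h1, h2, rfl⟩ := L.el_injective a.2 b.2 a'.2 b'.2 (congrArg Subtype.val h)
      rw [Subtype.ext h1, Subtype.ext h2]
    · rintro ⟨_, a, ha, b, hb, t, rfl⟩
      exact ⟨((⟨a, ha⟩, ⟨b, hb⟩), t), rfl⟩
  rw [← e, Nat.card_prod, Nat.card_prod, Module.natCard_eq_pow_finrank (K := F) (V := L.W)]
  ring

end LineFrame

/-- A Levi translation: an element of `Ω` normalising the radical of the line, with its action on
the two invariants. -/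
structure Lev where
  /-- the element -/
  g : orth Q
  /-- the action modulo the centre -/
  φ : V × V → V × V
  /-- the action on the centre -/
  lam : F
  mem : g ∈ eichGroup Q
  maps : ∀ p ∈ L.WW, φ p ∈ L.WW
  inj : Set.InjOn φ L.WW
  lam_ne : lam ≠ 0
  spec : ∀ a ∈ L.W, ∀ b ∈ L.W, ∀ t : F,
    ∃ s, g * L.el a b t * g⁻¹ = L.el (φ (a, b)).1 (φ (a, b)).2 s
  spec_zero : ∀ t : F, g * L.el 0 0 t * g⁻¹ = L.el 0 0 (lam * t)

variable {L}

namespace Lev

/-- Composition of Levi translations. -/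
def comp (l m : Lev L) : Lev L where
  g := l.g * m.g
  φ := l.φ ∘ m.φ
  lam := l.lam * m.lam
  mem := mul_mem l.mem m.mem
  maps p hp := l.maps _ (m.maps p hp)
  inj := l.inj.comp m.inj fun p hp => m.maps p hp
  lam_ne := mul_ne_zero l.lam_ne m.lam_ne
  spec a ha b hb t := by
    obtain ⟨s, hs⟩ := m.spec a ha b hb t
    have hm := m.maps (a, b) ⟨ha, hb⟩
    obtain ⟨r, hr⟩ := l.spec _ hm.1 _ hm.2 s
    refine ⟨r, ?_⟩
    simp only [Function.comp_apply, Prod.mk.eta] at hr ⊢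
    rw [← hr, ← hs]; group
  spec_zero t := by
    have h1 := l.spec_zero (m.lam * t)
    rw [← m.spec_zero t] at h1
    rw [mul_assoc l.lam, ← h1]; group

theorem conj_mem_rad (l : Lev L) {x : orth Q} (hx : x ∈ L.rad) : l.g * x * l.g⁻¹ ∈ L.rad := by
  obtain ⟨a, ha, b, hb, t, rfl⟩ := hx
  obtain ⟨s, hs⟩ := l.spec a ha b hb t
  rw [hs]
  exact L.el_mem_rad (l.maps (a, b) ⟨ha, hb⟩).1 (l.maps (a, b) ⟨ha, hb⟩).2 s

theorem map_rad [Finite V] (l : Lev L) :
    L.rad.map (MulAut.conj l.g).toMonoidHom = L.rad := by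
  haveI : Finite (V ≃ₗ[F] V) := Finite.of_injective (fun g => (g : V → V)) DFunLike.coe_injective
  refine Subgroup.eq_of_le_of_card_ge ?_ ?_
  · rintro _ ⟨x, hx, rfl⟩
    exact l.conj_mem_rad hx
  · rw [Nat.card_congr
      (L.rad.equivMapOfInjective (MulAut.conj l.g).toMonoidHom (MulAut.conj l.g).injective).toEquiv]

theorem proj_map [Finite V] (l : Lev L) {D : Subgroup (orth Q)} (hD : D ≤ L.rad) :
    (L.proj (D.map (MulAut.conj l.g).toMonoidHom) : Set (V × V)) = l.φ '' L.proj D := by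
  ext p
  constructor
  · rintro ⟨hp1, hp2, t, x, hx, hxe⟩
    obtain ⟨a, ha, b, hb, s, rfl⟩ := hD hx
    obtain ⟨r, hr⟩ := l.spec a ha b hb s
    have h : L.el (l.φ (a, b)).1 (l.φ (a, b)).2 r = L.el p.1 p.2 t := by
      rw [← hr]; exact hxe
    obtain ⟨h1, h2, -⟩ := L.el_injective (l.maps (a, b) ⟨ha, hb⟩).1 (l.maps (a, b) ⟨ha, hb⟩).2
      hp1 hp2 h
    exact ⟨(a, b), ⟨ha, hb, s, hx⟩, Prod.ext h1 h2⟩
  · rintro ⟨r, ⟨hr1, hr2, t, ht⟩, rfl⟩
    obtain ⟨s, hs⟩ := l.spec r.1 hr1 r.2 hr2 t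
    exact ⟨(l.maps r ⟨hr1, hr2⟩).1, (l.maps r ⟨hr1, hr2⟩).2, s, _, ht, hs⟩

theorem zset_map [Finite V] (l : Lev L) {D : Subgroup (orth Q)} :
    (L.zset (D.map (MulAut.conj l.g).toMonoidHom) : Set F) = (l.lam * ·) '' L.zset D := by
  ext t
  rw [SetLike.mem_coe, LineFrame.mem_zset, Subgroup.mem_map_equiv]
  have h : (MulAut.conj l.g).symm (L.el 0 0 t) = L.el 0 0 (l.lam⁻¹ * t) := by
    rw [MulEquiv.symm_apply_eq, MulAut.conj_apply, l.spec_zero, ← mul_assoc,
      mul_inv_cancel₀ l.lam_ne, one_mul]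
  rw [h]
  constructor
  · intro hh
    exact ⟨_, hh, by change l.lam * (l.lam⁻¹ * t) = t
                     rw [← mul_assoc, mul_inv_cancel₀ l.lam_ne, one_mul]⟩
  · rintro ⟨r, hr, rfl⟩
    change L.el 0 0 (l.lam⁻¹ * (l.lam * r)) ∈ D
    rwa [← mul_assoc, inv_mul_cancel₀ l.lam_ne, one_mul]

end Lev

theorem LineFrame.proj_map_rad {D : Subgroup (orth Q)} (hD : D ≤ L.rad) {x : orth Q}
    (hx : x ∈ L.rad) : L.proj (D.map (MulAut.conj x).toMonoidHom) = L.proj D ∧
      L.zset (D.map (MulAut.conj x).toMonoidHom) = L.zset D := by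
  obtain ⟨a, ha, b, hb, t, rfl⟩ := hx
  constructor
  · ext p
    constructor
    · rintro ⟨hp1, hp2, s, y, hy, hye⟩
      obtain ⟨a', ha', b', hb', t', rfl⟩ := hD hy
      have h : L.el a' b' (t' + (polar Q b' a - polar Q b a')) = L.el p.1 p.2 s := by
        rw [← hye]; exact (L.el_conj ha hb ha' hb' t t').symm
      obtain ⟨h1, h2, -⟩ := L.el_injective ha' hb' hp1 hp2 h
      exact ⟨hp1, hp2, t', h1 ▸ h2 ▸ hy⟩
    · rintro ⟨hp1, hp2, s, hs⟩
      exact ⟨hp1, hp2, _, _, hs, L.el_conj ha hb hp1 hp2 t s⟩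
  · ext s
    rw [LineFrame.mem_zset, LineFrame.mem_zset, Subgroup.mem_map_equiv]
    have h : (MulAut.conj (L.el a b t)).symm (L.el 0 0 s) = L.el 0 0 s := by
      rw [MulEquiv.symm_apply_eq, MulAut.conj_apply,
        L.el_conj ha hb (zero_mem _) (zero_mem _) t s]
      simp
    rw [h]

/-- Orbit counting: translations that give non-conjugate stabilisers in a normalised subgroup. -/
theorem card_mul_relIndex_le {G : Type*} [Group G] [Finite G] {ι : Type*} (H P G₀ : Subgroup G)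
    (hHG : H ≤ G₀) (hPG : P ≤ G₀) (l : ι → G) (hl : ∀ i, l i ∈ G₀)
    (hnorm : ∀ i, P.map (MulAut.conj (l i)).toMonoidHom = P)
    (hdist : ∀ i j, ∀ x ∈ P, (H ⊓ P).map (MulAut.conj (x * l i)).toMonoidHom =
      (H ⊓ P).map (MulAut.conj (l j)).toMonoidHom → i = j) :
    Nat.card ι * (H ⊓ P).relIndex P ≤ H.relIndex G₀ := by
  classical
  haveI : Finite (G₀ ⧸ H.subgroupOf G₀) := inferInstance
  rw [Subgroup.relIndex, Subgroup.relIndex, Subgroup.index, Subgroup.index, ← Nat.card_prod]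
  refine Nat.card_le_card_of_injective (fun p => (QuotientGroup.mk
    (⟨l p.1 * (p.2.out : P), mul_mem (hl _) (hPG (p.2.out : P).2)⟩ : G₀) : G₀ ⧸ H.subgroupOf G₀)) ?_
  rintro ⟨i, x⟩ ⟨j, y⟩ hxy
  rw [QuotientGroup.eq, Subgroup.mem_subgroupOf] at hxy
  simp only [Subgroup.coe_mul, Subgroup.coe_inv] at hxy
  set a : G := ((x.out : P) : G)
  set b : G := ((y.out : P) : G)
  set h := (l i * a)⁻¹ * (l j * b)
  have hjb : l j * b = l i * a * h := by simp [h, mul_assoc]
  have hP : ∀ i, ∀ a ∈ P, P.map (MulAut.conj (l i * a)).toMonoidHom = P := by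
    intro i a ha
    rw [map_mul, show (MulAut.conj (l i) * MulAut.conj a).toMonoidHom =
      (MulAut.conj (l i)).toMonoidHom.comp (MulAut.conj a).toMonoidHom from rfl, ← Subgroup.map_map]
    rw [show P.map (MulAut.conj a).toMonoidHom = P from ?_, hnorm]
    ext z
    rw [Subgroup.mem_map_equiv, MulAut.conj_symm_apply]
    rw [mul_mem_cancel_right ha, mul_mem_cancel_left (inv_mem ha)]
  have hconjH : H.map (MulAut.conj h).toMonoidHom = H := by
    ext z
    rw [Subgroup.mem_map_equiv, MulAut.conj_symm_apply, mul_mem_cancel_right hxy,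
      mul_mem_cancel_left (inv_mem hxy)]
  have key : (H ⊓ P).map (MulAut.conj (l i * a)).toMonoidHom =
      (H ⊓ P).map (MulAut.conj (l j * b)).toMonoidHom := by
    rw [Subgroup.map_inf _ _ _ (MulAut.conj (l i * a)).injective,
      Subgroup.map_inf _ _ _ (MulAut.conj (l j * b)).injective, hP i a (x.out : P).2,
      hP j b (y.out : P).2]
    congr 1
    rw [hjb, map_mul _ (l i * a) h, show (MulAut.conj (l i * a) * MulAut.conj h).toMonoidHom =
      (MulAut.conj (l i * a)).toMonoidHom.comp (MulAut.conj h).toMonoidHom from rfl,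
      ← Subgroup.map_map, hconjH]
  have hconjP : ∀ i, ∀ a ∈ P, l i * a * (l i)⁻¹ ∈ P := fun i a ha =>
    (hnorm i).le ⟨a, ha, rfl⟩
  obtain rfl : i = j := by
    have ha' := hconjP i a (x.out : P).2
    have hb' := hconjP j b (y.out : P).2
    refine hdist i j ((l j * b * (l j)⁻¹)⁻¹ * (l i * a * (l i)⁻¹)) (mul_mem (inv_mem hb') ha') ?_
    rw [show (l j * b * (l j)⁻¹)⁻¹ * (l i * a * (l i)⁻¹) * l i =
      (l j * b * (l j)⁻¹)⁻¹ * (l i * a) by group, map_mul, show (MulAut.conj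
        (l j * b * (l j)⁻¹)⁻¹ * MulAut.conj (l i * a)).toMonoidHom =
      (MulAut.conj (l j * b * (l j)⁻¹)⁻¹).toMonoidHom.comp (MulAut.conj (l i * a)).toMonoidHom from
      rfl, ← Subgroup.map_map, key, Subgroup.map_map]
    congr 1
    refine MonoidHom.ext fun z => ?_
    simp [MulAut.conj_apply, mul_assoc]
  have hab : a⁻¹ * b ∈ H := by
    have : h = a⁻¹ * b := by simp [h, mul_assoc]
    rwa [← this]
  refine Prod.ext rfl ?_
  rw [← QuotientGroup.out_eq' x, ← QuotientGroup.out_eq' y]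
  exact QuotientGroup.eq.2 (Subgroup.mem_subgroupOf.2
    (show a⁻¹ * b ∈ H ⊓ P from ⟨hab, P.mul_mem (P.inv_mem (x.out : P).2) (y.out : P).2⟩))

section count

variable [Finite F] [FiniteDimensional F V] [Finite V]

/-- The master inequality. -/
theorem card_mul_le_index {H : Subgroup (orth Q)} (hH : H ≤ eichGroup Q) {ι : Type*}
    (l : ι → Lev L)
    (hinj : Function.Injective fun i => (((l i).lam * ·) '' (L.zset (H ⊓ L.rad) : Set F),
      (l i).φ '' (L.proj (H ⊓ L.rad) : Set (V × V)))) :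
    Nat.card ι * Nat.card F ^ (2 * finrank F L.W + 1) ≤
      H.relIndex (eichGroup Q) *
        (Nat.card (L.zset (H ⊓ L.rad)) * Nat.card (L.proj (H ⊓ L.rad))) := by
  haveI : Finite (V ≃ₗ[F] V) := Finite.of_injective (fun g => (g : V → V)) DFunLike.coe_injective
  set D := H ⊓ L.rad
  have h := card_mul_relIndex_le H L.rad (eichGroup Q) hH L.rad_le (fun i => (l i).g)
    (fun i => (l i).mem) (fun i => (l i).map_rad) fun i j x hx heq => hinj ?_
  · rw [← LineFrame.natCard_eq_zset_mul_proj (inf_le_right : D ≤ L.rad), ← LineFrame.natCard_rad]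
    calc Nat.card ι * Nat.card L.rad = Nat.card ι * (D.relIndex L.rad * Nat.card D) := by
          congr 1
          rw [Subgroup.relIndex, ← Nat.card_congr
            (Subgroup.subgroupOfEquivOfLe (inf_le_right : D ≤ L.rad)).toEquiv,
            Subgroup.index_mul_card]
      _ = Nat.card ι * D.relIndex L.rad * Nat.card D := by ring
      _ ≤ _ := Nat.mul_le_mul_right _ h
  · have hDi : D.map (MulAut.conj (l i).g).toMonoidHom ≤ L.rad :=
      ((l i).map_rad).subst (Subgroup.map_mono inf_le_right)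
    have hxl : D.map (MulAut.conj (x * (l i).g)).toMonoidHom =
        (D.map (MulAut.conj (l i).g).toMonoidHom).map (MulAut.conj x).toMonoidHom := by
      rw [Subgroup.map_map, map_mul]; rfl
    obtain ⟨e1, e2⟩ := LineFrame.proj_map_rad hDi hx
    rw [← hxl, heq] at e1 e2
    simp only [Prod.mk.injEq]
    rw [← (l i).zset_map, ← (l j).zset_map, ← (l i).proj_map (inf_le_right : D ≤ L.rad),
      ← (l j).proj_map (inf_le_right : D ≤ L.rad)]
    exact ⟨congrArg _ e2.symm, congrArg _ e1.symm⟩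

end count

end Cfsg.Agent.H3.OIdx
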