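import Cfsg.Agent.H3.OIdx.Bounds

/-!
Translates of an isotropic subspace of pairs of full dimension: at least `q + 2` of them unless a
translate is fixed by the upper unipotent translations.
-/

set_option autoImplicit false

namespace Cfsg.Agent.H3.OIdx

open QuadraticMap hiding sq
open Module
open Cfsg.Agent.H5 (orth refl refl_apply orth_mul_apply eichGroup HypPair pperp mem_pperp
  polar_self')

variable {F V : Type*} [Field F] [Finite F] [AddCommGroup V] [Module F V] [FiniteDimensional F V]
  [Finite V] {Q : QuadraticForm F V} {L : LineFrame Q}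

/-- The subspace is fixed by the upper translations. -/
def UpFixed (S : Submodule F (V × V)) : Prop := ∀ p ∈ S, ((0, p.1) : V × V) ∈ S

/-- The subspace is fixed by the translations of the point `(1, s)`. -/
def PtFixed (S : Submodule F (V × V)) (s : F) : Prop :=
  ∀ p ∈ S, ((s • p.1 - p.2, s • (s • p.1 - p.2)) : V × V) ∈ S

theorem upL_image_injective {S : Submodule F (V × V)} (hS : ¬UpFixed S) :
    Function.Injective fun c => (Lev.upL L c).φ '' (S : Set (V × V)) := by
  by_contra h
  obtain ⟨c, hc, hfix⟩ := exists_fix_of_few (fun c p => ((p.1, p.2 - c • p.1) : V × V))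
    (fun c d p => by simp only [Prod.mk.injEq, true_and]; module) (fun p => by simp) h
  refine hS fun p hp => ?_
  have h1 := S.smul_mem c⁻¹ (S.sub_mem hp (hfix p hp))
  convert h1 using 1
  ext <;> simp [smul_smul, hc]

omit [Finite F] [FiniteDimensional F V] [Finite V] in
theorem upL_shift {c c' : F} {T T' : Set (V × V)}
    (h : (Lev.upL L c).φ '' T = (Lev.upL L c').φ '' T') : T = (Lev.upL L (c' - c)).φ '' T' := by
  have e1 : ∀ a b : F, ∀ p, (Lev.upL L a).φ ((Lev.upL L b).φ p) = (Lev.upL L (a + b)).φ p :=
    fun a b p => by simp only [Lev.upL, Prod.mk.injEq, true_and]; module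
  have h1 := congrArg ((Lev.upL L (-c)).φ '' ·) h
  simp only [Set.image_image, e1, neg_add_cancel] at h1
  rw [show c' - c = -c + c' by ring, ← h1]
  simp [Lev.upL]

/-- An additive hyperbolic plane `x, y` with `Q = 1` on both over two elements. -/
theorem exists_ell_plane (hQ : (polarBilin Q).Nondegenerate) (hn : 7 ≤ finrank F V)
    (h2 : ∀ t : F, t = 0 ∨ t = 1) :
    ∃ x ∈ L.W, ∃ y ∈ L.W, Q x = 1 ∧ Q y = 1 ∧ polar Q x y = 1 := by
  have hW := L.W_inf_perp hQ
  have hr := H5.restrict_nondegenerate hW
  have hd : 3 ≤ finrank F L.W := by have := L.finrank_W; omega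
  obtain ⟨e, he0, he⟩ := H5.exists_singular hr hd
  obtain ⟨f, hp⟩ := H5.exists_hypPair hr he0 he
  obtain ⟨h, hh, hqh⟩ := H5.exists_anisotropic (hp.inf_perp hr)
    (by have := hp.finrank_pperp hr; omega)
  obtain ⟨h1, h2'⟩ := mem_pperp.1 hh
  have e1 : Q (e : V) = 0 := he
  have e2 : Q (f : V) = 0 := hp.right
  have e3 : polar Q (e : V) (f : V) = 1 := hp.pair
  have e4 : polar Q (e : V) (h : V) = 0 := h1
  have e5 : polar Q (f : V) (h : V) = 0 := h2'
  have e6 : Q (h : V) = 1 := (h2 _).resolve_left hqh
  refine ⟨(e : V) + (f : V), L.W.add_mem e.2 f.2, (e : V) + (h : V), L.W.add_mem e.2 h.2,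
    ?_, ?_, ?_⟩
  · rw [QuadraticMap.map_add (⇑Q), e1, e2, e3]; simp
  · rw [QuadraticMap.map_add (⇑Q), e1, e6, e4]; simp
  · simp [polar_add_left, polar_add_right, polar_self', e1, e3, e4, e5, polar_comm (⇑Q) (f : V) e]

omit [Finite V] in
theorem refl_one {z x : V} (hx : Q x = 1) (h2 : (2 : F) = 0) :
    (refl Q x : V ≃ₗ[F] V) z = z + polar Q x z • x := by
  have hneg : ∀ t : F, -t = t := fun t => by linear_combination (-t) * h2
  rw [refl_apply, hx, inv_one, one_mul, sub_eq_add_neg, ← neg_smul, hneg]

/-- Over two elements an element of order three of `Ω` moves the subspace. -/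
theorem four_le_trans_of_two (hQ : (polarBilin Q).Nondegenerate) (hn : 7 ≤ finrank F V)
    (h2 : ∀ t : F, t = 0 ∨ t = 1) (hq : Nat.card F = 2)
    (S : Submodule F (V × V)) (hS : S ≤ L.WW) (hd : finrank F S = finrank F L.W)
    (hiso : ∀ p ∈ S, ∀ r ∈ S, L.beta p r = 0) (hup : ¬UpFixed S)
    (hk : ∀ p ∈ S, ((p.1 - p.2, p.1) : V × V) ∈ S) :
    4 ≤ (trans L (S : Set (V × V))).ncard := by
  have h20 : (2 : F) = 0 := (h2 2).resolve_right fun h => by
    exact one_ne_zero (show (1 : F) = 0 by linear_combination h)
  obtain ⟨x, hx, y, hy, hQx, hQy, hxy⟩ := exists_ell_plane (L := L) hQ hn h2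
  set g : orth Q := refl Q x * refl Q y
  have hg : g ∈ eichGroup Q := by
    have hstd := std (F := F) (V := V) (by omega)
    rw [← H5.commutator_eq_eichGroup hQ (by omega) hstd, H5.mem_commutator_iff hQ hstd]
    refine ⟨?_, H5.spin_of_two_eq_zero h20 _⟩
    rw [H5.dick_refl_mul hQ (by rw [hQx]; exact one_ne_zero),
      H5.dick_refl hQ (by rw [hQy]; exact one_ne_zero), neg_neg]
  have hxx : polar Q x x = 0 := by rw [polar_self', h20, zero_mul]
  have hyy : polar Q y y = 0 := by rw [polar_self', h20, zero_mul]
  have hyx : polar Q y x = 1 := by rw [polar_comm, hxy]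
  have happ : ∀ z, (g : V ≃ₗ[F] V) z =
      z + (polar Q x z + polar Q y z) • x + polar Q y z • y := fun z => by
    rw [orth_mul_apply, refl_one hQy h20, refl_one hQx h20, polar_add_right, polar_smul_right,
      hxy, smul_eq_mul, mul_one]
    abel
  have hW : ∀ w ∈ L.W, (g : V ≃ₗ[F] V) w ∈ L.W := fun w hw => by
    rw [happ]
    exact add_mem (add_mem hw (Submodule.smul_mem _ _ hx)) (Submodule.smul_mem _ _ hy)
  have hfix : ∀ z, polar Q x z = 0 → polar Q y z = 0 → (g : V ≃ₗ[F] V) z = z := fun z a b => by
    rw [happ, a, b]; simp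
  have hgu : (g : V ≃ₗ[F] V) L.u = (1 : F) • L.u := by
    rw [one_smul, hfix _ (by rw [polar_comm]; exact LineFrame.W_u hx)
      (by rw [polar_comm]; exact LineFrame.W_u hy)]
  have hgv : (g : V ≃ₗ[F] V) L.v = (1 : F) • L.v := by
    rw [one_smul, hfix _ (by rw [polar_comm]; exact LineFrame.W_v hx)
      (by rw [polar_comm]; exact LineFrame.W_v hy)]
  set l := Lev.scalL L hg (by simp) hgu hgv hW with hl
  have hlφ : ∀ p : V × V, l.φ p = ((g : V ≃ₗ[F] V) p.1, (g : V ≃ₗ[F] V) p.2) := fun p => by
    simp [hl, Lev.scalL]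
  have hll : l.lam = 1 := by simp [hl, Lev.scalL]
  have hcomm : ∀ (c : F) (T : Set (V × V)),
      (Lev.upL L c).φ '' (l.φ '' T) = l.φ '' ((Lev.upL L c).φ '' T) := fun c T => by
    rw [← Set.image_comp, ← Set.image_comp]
    congr 1
    funext p
    simp [hlφ, Lev.upL]
  have hinjU := upL_image_injective (L := L) hup
  by_cases hout : ∀ c, l.φ '' (S : Set (V × V)) ≠ (Lev.upL L c).φ '' S
  · refine le_trans (le_of_eq ?_) (card_le_trans
      (fun p : F × Bool => if p.2 then (Lev.upL L p.1).comp l else Lev.upL L p.1) ?_ ?_)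
    · rw [Nat.card_prod, hq]; simp
    · rintro ⟨c, b⟩
      cases b
      · rfl
      · simp [Lev.comp, hll, Lev.upL]
    · have hs : ∀ c d : F, ∀ T : Set (V × V), T ⊆ L.WW →
          (Lev.upL L c).φ '' T = (Lev.upL L d).φ '' (S : Set (V × V)) →
          T = (Lev.upL L (d - c)).φ '' (S : Set (V × V)) := fun c d T _ h => upL_shift h
      have hsub : l.φ '' (S : Set (V × V)) ⊆ L.WW := by
        rintro _ ⟨p, hp, rfl⟩; exact l.maps p (hS hp)
      rintro ⟨c, b⟩ ⟨c', b'⟩ h
      cases b <;> cases b'
      · exact Prod.ext (hinjU h) rfl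
      · simp only [Bool.false_eq_true, if_false, if_true, Lev.comp, Set.image_comp] at h
        exact absurd (hs c' c _ hsub h.symm) (hout _)
      · simp only [Bool.false_eq_true, if_false, if_true, Lev.comp, Set.image_comp] at h
        exact absurd (hs c c' _ hsub h) (hout _)
      · simp only [if_true, Lev.comp, Set.image_comp, hcomm] at h
        refine Prod.ext (hinjU ((l.inj.image_eq_image_iff ?_ ?_).1 h)) rfl <;>
          (rintro _ ⟨p, hp, rfl⟩; exact (Lev.upL L _).maps p (hS hp))
  · push Not at hout
    obtain ⟨c, hc⟩ := hout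
    -- `g` has order three, so it fixes the subspace
    have hgS : ∀ p ∈ S, l.φ p ∈ S := by
      intro p hp
      have hf : l.φ '' (S : Set (V × V)) = S := by
        rcases h2 c with rfl | rfl
        · rw [hc]; simp [Lev.upL]
        · have hsq : l.φ '' (l.φ '' (S : Set (V × V))) = S := by
            rw [hc, ← hcomm, hc, ← Set.image_comp]
            refine (Set.image_congr fun r _ => ?_).trans (Set.image_id _)
            refine Prod.ext rfl ?_
            have : (2 : F) • r.1 = 0 := by rw [h20, zero_smul]
            simp only [Lev.upL, Function.comp_apply, id]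
            linear_combination (norm := module) -this
          have h3 : l.φ '' (l.φ '' (l.φ '' (S : Set (V × V)))) = S := by
            rw [← Set.image_comp, ← Set.image_comp]
            refine (Set.image_congr fun r _ => ?_).trans (Set.image_id _)
            have hone : ∀ z, (g : V ≃ₗ[F] V) ((g : V ≃ₗ[F] V) ((g : V ≃ₗ[F] V) z)) = z := by
              intro z
              have hneg : ∀ t : F, t + t = 0 := fun t => by linear_combination t * h20
              simp only [happ, polar_add_right, polar_smul_right, hxx, hyy, hxy, hyx, smul_eq_mul]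
              match_scalars <;> ring_nf <;>
                first
                | linear_combination (4 * polar Q x z + 6 * polar Q y z) * h20
                | linear_combination (-2 * polar Q x z - 2 * polar Q y z) * h20
                | linear_combination (2 * polar Q x z + 4 * polar Q y z) * h20
            simp [hlφ, hone]
          rw [hsq] at h3
          exact h3
      exact hf.le ⟨p, hp, rfl⟩
    have hD : ∀ p ∈ S, ((((polar Q y p.1) • x + (polar Q x p.1) • y),
        ((polar Q y p.2) • x + (polar Q x p.2) • y)) : V × V) ∈ S := by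
      intro p hp
      have h3 := S.sub_mem (hgS _ (hgS p hp)) (hgS p hp)
      have h4 := S.sub_mem (hgS p hp) hp
      have h5 := S.add_mem (S.sub_mem (hgS _ h4) h4) h4
      convert h5 using 1
      simp only [hlφ]
      ext <;>
      · simp only [Prod.fst_add, Prod.snd_add, Prod.fst_sub, Prod.snd_sub, map_sub]
        simp only [happ, polar_add_right, polar_sub_right, polar_smul_right, hxx, hyy, hxy, hyx,
          smul_eq_mul]
        match_scalars <;> ring_nf <;>
          simp [h20, show (3 : F) = 1 by linear_combination h20]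
    -- all projections onto the plane vanish
    have hzero : ∀ p ∈ S, polar Q x p.1 = 0 ∧ polar Q y p.1 = 0 ∧ polar Q x p.2 = 0 ∧
        polar Q y p.2 = 0 := by
      intro p hp
      have hp' := hD p hp
      have e1 := hiso _ hp' _ (hk _ hp')
      have e2 := hiso _ hp' _ (hk _ (S.sub_mem (hgS _ hp') hp'))
      simp only [hlφ, LineFrame.beta, Prod.fst_sub, Prod.snd_sub, happ, polar_add_left,
        polar_add_right, polar_sub_left, polar_sub_right, polar_smul_left, polar_smul_right, hxx,
        hyy, hxy, hyx, smul_eq_mul] at e1 e2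
      rcases h2 (polar Q x p.1) with a | a <;> rcases h2 (polar Q y p.1) with b | b <;>
        rcases h2 (polar Q x p.2) with c | c <;> rcases h2 (polar Q y p.2) with d | d <;>
        rw [a, b, c, d] at e1 e2 ⊢ <;>
        first
        | exact ⟨rfl, rfl, rfl, rfl⟩
        | exact absurd (show (1 : F) = 0 by linear_combination e1) one_ne_zero
        | exact absurd (show (1 : F) = 0 by linear_combination e2) one_ne_zero
        | exact absurd (show (1 : F) = 0 by linear_combination e1 - h20) one_ne_zero
        | exact absurd (show (1 : F) = 0 by linear_combination e2 - h20) one_ne_zero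
        | exact absurd (show (1 : F) = 0 by linear_combination e1 + h20) one_ne_zero
        | exact absurd (show (1 : F) = 0 by linear_combination e2 + h20) one_ne_zero
        | exact absurd (show (1 : F) = 0 by linear_combination -e1) one_ne_zero
        | exact absurd (show (1 : F) = 0 by linear_combination -e2) one_ne_zero
    exfalso
    set z : V × V := (x, 0) with hz
    have hzS : z ∉ S := fun h => one_ne_zero (hyx ▸ (hzero z h).2.1)
    have hzz : ∀ r ∈ S, L.beta z r = 0 := fun r hr => by
      simp [hz, LineFrame.beta, polar_comm (⇑Q) r.2 x, (hzero r hr).2.2.1]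
    set S' := S ⊔ Submodule.span F {z}
    have hS' : S' ≤ L.WW := sup_le hS ((Submodule.span_singleton_le_iff_mem _ _).2
      ⟨hx, zero_mem _⟩)
    have hb := card_le_of_isotropic (L := L) hQ ⊥ (fun h => by
      have : (1 : F) ∈ (⊥ : AddSubgroup F) := h ▸ trivial
      exact one_ne_zero (AddSubgroup.mem_bot.1 this)) S'.toAddSubgroup hS' (fun p hp r hr => by
        obtain ⟨p₁, hp₁, _, hp₂, rfl⟩ := Submodule.mem_sup.1 hp
        obtain ⟨a, rfl⟩ := Submodule.mem_span_singleton.1 hp₂
        obtain ⟨r₁, hr₁, _, hr₂, rfl⟩ := Submodule.mem_sup.1 hr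
        obtain ⟨b, rfl⟩ := Submodule.mem_span_singleton.1 hr₂
        have hzq : L.beta z z = 0 := by simp [hz, LineFrame.beta]
        simp [beta_add_left, beta_add_right, beta_smul_left, beta_smul_right, hiso _ hp₁ _ hr₁,
          hzz _ hr₁, beta_swap (L := L) z p₁, hzz _ hp₁, hzq])
    change Nat.card S' ≤ _ at hb
    rw [Module.natCard_eq_pow_finrank (K := F) (V := S'),
      Submodule.finrank_sup_span_singleton hzS, hd] at hb
    have := (Nat.pow_le_pow_iff_right (by omega)).1 hb
    omega

/-- Full isotropic subspaces without fixed translations have `q + 2` translates. -/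
theorem add_two_le_trans (hQ : (polarBilin Q).Nondegenerate) (hn : 7 ≤ finrank F V)
    (S : Submodule F (V × V)) (hS : S ≤ L.WW) (hd : finrank F S = finrank F L.W)
    (hiso : ∀ p ∈ S, ∀ r ∈ S, L.beta p r = 0) (hup : ¬UpFixed S) (hpt : ∀ s, ¬PtFixed S s) :
    Nat.card F + 2 ≤ (trans L (S : Set (V × V))).ncard := by
  have hq2 : 2 ≤ Nat.card F := Finite.one_lt_card
  have hinjU := upL_image_injective (L := L) hup
  by_cases hout : ∃ d, ∀ c, (Lev.umL L d).φ '' (S : Set (V × V)) ≠ (Lev.upL L c).φ '' S
  · obtain ⟨d, hd'⟩ := hout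
    have hd0 : d ≠ 0 := by
      rintro rfl
      exact hd' 0 (by simp [Lev.upL, Lev.umL])
    refine le_trans ?_ (card_le_trans
      (fun p : F × Bool => if p.2 then (Lev.upL L p.1).comp (Lev.umL L d) else Lev.upL L p.1)
      ?_ ?_)
    · rw [Nat.card_prod]; simp; omega
    · rintro ⟨c, b⟩
      cases b
      · rfl
      · simp [Lev.comp, Lev.upL, Lev.umL]
    · have hshift : ∀ c c' : F, ∀ T T' : Set (V × V),
          (Lev.upL L c).φ '' T = (Lev.upL L c').φ '' T' → T = (Lev.upL L (c' - c)).φ '' T' :=
        fun c c' T T' h => upL_shift h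
      rintro ⟨c, b⟩ ⟨c', b'⟩ h
      cases b <;> cases b'
      · exact Prod.ext (hinjU h) rfl
      · simp only [Bool.false_eq_true, if_false, if_true, Lev.comp, Set.image_comp] at h
        exact absurd (hshift c' c _ _ h.symm) (hd' _)
      · simp only [Bool.false_eq_true, if_false, if_true, Lev.comp, Set.image_comp] at h
        exact absurd (hshift c c' _ _ h) (hd' _)
      · simp only [if_true, Lev.comp, Set.image_comp] at h
        have h1 := hshift c c' _ _ h
        by_contra hne
        have hne' : c' - c ≠ 0 := sub_ne_zero.2 fun h0 => hne (by rw [h0])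
        refine hpt d⁻¹ fun p hp => ?_
        have hm : (Lev.upL L (c' - c)).φ ((Lev.umL L d).φ p) ∈
            (Lev.umL L d).φ '' (S : Set (V × V)) := h1.symm.le ⟨_, ⟨p, hp, rfl⟩, rfl⟩
        obtain ⟨r, hr, hre⟩ := hm
        simp only [Lev.upL, Lev.umL, Prod.mk.injEq] at hre
        obtain ⟨hre1, hre2⟩ := hre
        have h5 := S.smul_mem (-((c' - c)⁻¹ * (d⁻¹ * d⁻¹))) (S.sub_mem hr hp)
        convert h5 using 1
        rw [hre2] at hre1
        have hr1 : r.1 = p.1 - (d * (c' - c)) • (p.1 - d • p.2) := by
          linear_combination (norm := module) hre1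
        ext
        · simp only [Prod.smul_fst, Prod.fst_sub, hr1]
          match_scalars <;> field_simp <;> ring
        · simp only [Prod.smul_snd, Prod.snd_sub, hre2]
          match_scalars <;> field_simp <;> ring
  · push Not at hout
    choose γ hγ using hout
    -- the elements `k d` stabilising the subspace
    have hk : ∀ d, ∀ p ∈ S, ((p.1 - d • p.2, p.2 + γ d • (p.1 - d • p.2)) : V × V) ∈ S := by
      intro d p hp
      obtain ⟨r, hr, hre⟩ := (hγ d).le ⟨p, hp, rfl⟩
      simp only [Lev.upL, Lev.umL, Prod.mk.injEq] at hre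
      obtain ⟨h1, h2⟩ := hre
      suffices e : ((p.1 - d • p.2, p.2 + γ d • (p.1 - d • p.2)) : V × V) = r by rw [e]; exact hr
      ext
      · exact h1.symm
      · change p.2 + γ d • (p.1 - d • p.2) = r.2
        rw [← h1, ← h2]; abel
    have hX : ∀ d, d ≠ 0 → ∀ p ∈ S,
        ((-p.2, (γ d / d) • p.1 - γ d • p.2) : V × V) ∈ S := by
      intro d hd0 p hp
      convert S.smul_mem d⁻¹ (S.sub_mem (hk d p hp) hp) using 1
      ext
      · simp only [Prod.smul_fst, Prod.fst_sub]
        match_scalars <;> field_simp <;> ring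
      · simp only [Prod.smul_snd, Prod.snd_sub]
        match_scalars <;> field_simp <;> ring
    by_cases hconst : ∃ d d', d ≠ 0 ∧ d' ≠ 0 ∧ (γ d ≠ γ d' ∨ γ d / d ≠ γ d' / d')
    · exfalso
      obtain ⟨d, d', hd0, hd0', hne⟩ := hconst
      set u := γ d / d - γ d' / d'
      set w := γ d' - γ d
      have hY : ∀ p ∈ S, ((0, u • p.1 + w • p.2) : V × V) ∈ S := fun p hp => by
        convert S.sub_mem (hX d hd0 p hp) (hX d' hd0' p hp) using 1
        ext <;> simp [u, w] <;> module
      by_cases hw : w = 0
      · have hu : u ≠ 0 := by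
          rcases hne with h | h
          · exact absurd (sub_eq_zero.1 hw).symm h
          · exact sub_ne_zero.2 h
        exact hup fun p hp => by
          simpa [hw, smul_smul, hu] using S.smul_mem u⁻¹ (hY p hp)
      set α := u / w
      have hP : ∀ p ∈ S, ((0, α • p.1 + p.2) : V × V) ∈ S := fun p hp => by
        convert S.smul_mem w⁻¹ (hY p hp) using 1
        ext
        · simp
        · simp [α, smul_smul, hw, div_eq_inv_mul]
      have hP' : ∀ p ∈ S, ((p.1, -(α • p.1)) : V × V) ∈ S := fun p hp => by
        convert S.sub_mem hp (hP p hp) using 1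
        ext
        · simp
        · simp
      by_cases hα : α = 0
      · refine hpt 0 fun p hp => ?_
        have h1 : ((0, p.2) : V × V) ∈ S := by simpa [hα] using hP p hp
        have h2 := hP' _ (hX d hd0 _ h1)
        simpa [hα] using h2
      · refine hup fun p hp => ?_
        have h1 := hk (-α⁻¹) _ (hP' p hp)
        have h2 := S.smul_mem (-α⁻¹) h1
        convert h2 using 1
        ext
        · simp [smul_smul, hα]
        · simp [smul_smul, hα]
    · push Not at hconst
      have huniq : ∀ d : F, d ≠ 0 → d = 1 := by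
        intro d hd0
        by_contra hd1
        obtain ⟨h1, h2⟩ := hconst d 1 hd0 one_ne_zero
        have : γ d = 0 := by
          rw [div_one, h1.symm, div_eq_iff hd0] at h2
          have h3 : γ d * (d - 1) = 0 := by linear_combination -h2
          exact (mul_eq_zero.1 h3).resolve_right (sub_ne_zero.2 hd1)
        refine hpt 0 fun p hp => ?_
        simpa [this] using hX d hd0 p hp
      have h2 : ∀ t : F, t = 0 ∨ t = 1 := fun t =>
        (em (t = 0)).imp_right (huniq t)
      have hq : Nat.card F = 2 := by
        refine le_antisymm ?_ hq2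
        refine (Nat.card_le_card_of_surjective (fun b : Bool => if b then (1 : F) else 0)
          fun t => ?_).trans (by simp)
        rcases h2 t with rfl | rfl
        · exact ⟨false, rfl⟩
        · exact ⟨true, rfl⟩
      rw [hq]
      refine four_le_trans_of_two hQ hn h2 hq S hS hd hiso hup fun p hp => ?_
      rcases h2 (γ 1) with h | h
      · exfalso
        exact hpt 0 fun p hp => by simpa [h] using hX 1 one_ne_zero p hp
      · have := hk 1 p hp
        simpa [h] using this

end Cfsg.Agent.H3.OIdx
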