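import Cfsg.Agent.H4.Triality.Classes

/-!
Triality and Eichler transformations: those with both vectors in the standard maximal totally
singular subspace go to the root group of one point.
-/

set_option autoImplicit false

namespace Cfsg.Agent.H3.OIdx

open QuadraticMap hiding sq
open Module
open Cfsg.Agent.H5 (orth eich eich_apply refl refl_apply orth_ext orth_mul_apply leftSpace
  mem_leftSpace polar_self')
open Cfsg.Agent.H4 (qPlus orthToSim piQ)
open Cfsg.Agent.H4.Oct (O Sim app app_mul app_app_inv app_inv_app mul conj one lSim app_lSim bSim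
  bSim_eq act act_of_smul tau tau_conj)

variable {F : Type*} [Field F]

local notation "Q₈" => qPlus 4 F

theorem mul_neg' (x y : O F) : mul x (-y) = -mul x y := by
  rw [← neg_one_smul F y, H4.Oct.mul_smul', neg_one_smul]

theorem mul_zero' (x : O F) : mul x 0 = 0 := by
  rw [← zero_smul F (0 : O F), H4.Oct.mul_smul', zero_smul, zero_smul]

/-- The linearised cancellation law. -/
theorem conj_mul_lin (e a x : O F) :
    mul (conj e) (mul a x) + mul (conj a) (mul e x) = polar Q₈ e a • x := by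
  funext i
  rcases i with i | i <;> fin_cases i <;>
    simp [QuadraticMap.polar, mul, conj, H4.Oct.qPlus_four] <;> ring

/-- An Eichler transformation with anisotropic parameter as two reflections. -/
theorem eich_eq_refl_mul {e a : O F} (he : Q₈ e = 0) (hea : polar Q₈ e a = 0) (ha : Q₈ a ≠ 0) :
    eich Q₈ e a = refl Q₈ a * refl Q₈ (a + Q₈ a • e) := by
  have hb : Q₈ (a + Q₈ a • e) = Q₈ a := by
    rw [QuadraticMap.map_add (⇑Q₈), QuadraticMap.map_smul, he, polar_smul_right, polar_comm, hea]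
    simp
  refine orth_ext fun y => ?_
  rw [eich_apply he hea, orth_mul_apply, refl_apply, refl_apply, hb, polar_add_left,
    polar_smul_left, polar_sub_right, polar_smul_right, polar_add_right, polar_smul_right,
    polar_comm (⇑Q₈) a e, hea, polar_self']
  simp only [smul_eq_mul]
  match_scalars <;> field_simp <;> ring

/-- The image under triality for an anisotropic parameter. -/
theorem tau_eich_anisotropic [Fintype F] {e a : O F} (he : Q₈ e = 0) (hea : polar Q₈ e a = 0)
    (ha : Q₈ a ≠ 0) :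
    ∃ g : Sim F, tau * act (orthToSim Q₈ (eich Q₈ e a)) * tau⁻¹ = act g ∧
      ∀ z, app g z = z + mul a (mul (conj e) z) := by
  set b := a + Q₈ a • e with hbdef
  have hb : Q₈ b ≠ 0 := by
    rw [hbdef, QuadraticMap.map_add (⇑Q₈), QuadraticMap.map_smul, he, polar_smul_right, polar_comm,
      hea]
    simpa using ha
  let t : ∀ w : O F, Q₈ w ≠ 0 → H4.Oct.triples F := fun w hw =>
    ⟨(bSim w hw, lSim w hw, H4.Oct.rSim w hw), Subgroup.subset_closure ⟨w, hw, Or.inl rfl⟩⟩
  refine ⟨lSim a ha * (lSim b hb)⁻¹, ?_, fun z => ?_⟩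
  · have h := tau_conj (t a ha * (t b hb)⁻¹)
    change tau * act (bSim a ha * (bSim b hb)⁻¹) * tau⁻¹ = _ at h
    rw [map_mul, map_inv, act_of_smul (g := bSim a ha)
        (g' := orthToSim _ (refl Q₈ a * refl Q₈ (one : O F))) (bSim_eq a ha),
      act_of_smul (g := bSim b hb)
        (g' := orthToSim _ (refl Q₈ b * refl Q₈ (one : O F))) (bSim_eq b hb), ← map_inv, ← map_mul,
      ← map_inv, ← map_mul] at h
    rw [eich_eq_refl_mul he hea ha, ← hbdef]
    rwa [show refl Q₈ a * refl Q₈ (one : O F) * (refl Q₈ b * refl Q₈ (one : O F))⁻¹ =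
      refl Q₈ a * refl Q₈ b by
        rw [mul_inv_rev, H5.refl_inv, H5.refl_inv, mul_assoc,
          ← mul_assoc (refl Q₈ (one : O F)), H5.refl_mul_self, one_mul]] at h
  · rw [app_mul, app_lSim]
    obtain ⟨x, hx⟩ : ∃ x, app (lSim b hb)⁻¹ z = x := ⟨_, rfl⟩
    have hz : z = mul b x := by rw [← hx, ← app_lSim b hb, app_app_inv]
    rw [hx, hz, hbdef, H4.Oct.add_mul, H4.Oct.smul_mul', H4.Oct.mul_add, H4.Oct.mul_smul',
      H4.Oct.conj_mul_cancel, he, zero_smul, smul_zero, add_zero]
    have h1 := conj_mul_lin e a x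
    rw [hea, zero_smul, add_eq_zero_iff_eq_neg] at h1
    have h2 := H4.Oct.conj_mul_cancel (conj a) (mul e x)
    rw [H4.Oct.conj_conj, H4.Oct.qPlus_conj] at h2
    rw [h1, mul_neg', h2, add_neg_cancel_right]

/-- An anisotropic vector orthogonal to two vectors of the standard subspace. -/
theorem exists_anisotropic_perp {e a : O F} (he : e ∈ leftSpace F 4) (ha : a ∈ leftSpace F 4) :
    ∃ y : O F, polar Q₈ e y = 0 ∧ polar Q₈ a y = 0 ∧ Q₈ y ≠ 0 := by
  have hdot : ∀ x : O F, x ∈ leftSpace F 4 → ∀ s r : Fin 4 → F,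
      polar Q₈ x (Sum.elim s r) = ∑ i, x (.inl i) * r i := fun x hx s r => by
    rw [H4.polar_qPlus]
    simp [mem_leftSpace.1 hx]
  let φ : (Fin 4 → F) →ₗ[F] F × F :=
    (∑ i, e (.inl i) • LinearMap.proj i).prod (∑ i, a (.inl i) • LinearMap.proj i)
  have hker : LinearMap.ker φ ≠ ⊥ := by
    intro h
    have h1 := LinearMap.finrank_le_finrank_of_injective (LinearMap.ker_eq_bot.1 h)
    simp at h1
  obtain ⟨r, hr, hr0⟩ := Submodule.exists_mem_ne_zero_of_ne_bot hker
  obtain ⟨i, hi⟩ := Function.ne_iff.1 hr0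
  simp [φ] at hr
  refine ⟨Sum.elim (Pi.single i 1) r, ?_, ?_, ?_⟩
  · rw [hdot e he]; exact hr.1
  · rw [hdot a ha]; exact hr.2
  · rw [H4.coe_qPlus, Cfsg.quadFormPlus]
    simp [Pi.single_apply]
    simpa using hi

/-- The parameter of the image: the Plücker coordinates of a pair. -/
def plucker (e a : O F) : O F :=
  Sum.elim
    ![0, e (.inl 0) * a (.inl 1) - e (.inl 1) * a (.inl 0),
      e (.inl 0) * a (.inl 2) - e (.inl 2) * a (.inl 0),
      e (.inl 0) * a (.inl 3) - e (.inl 3) * a (.inl 0)]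
    ![0, -(e (.inl 2) * a (.inl 3) - e (.inl 3) * a (.inl 2)),
      e (.inl 1) * a (.inl 3) - e (.inl 3) * a (.inl 1),
      -(e (.inl 1) * a (.inl 2) - e (.inl 2) * a (.inl 1))]

variable (F) in
/-- The point. -/
def pt : O F := Pi.single (.inl 0) 1

theorem qPlus_pt : Q₈ (pt F) = 0 := by simp [pt, H4.Oct.qPlus_four, Pi.single_apply]

theorem pt_ne : pt F ≠ 0 := fun h => by
  simpa [pt] using congrFun h (.inl 0)

theorem polar_pt (x : O F) : polar Q₈ (pt F) x = x (.inr 0) := by
  simp [QuadraticMap.polar, pt, H4.Oct.qPlus_four, Pi.single_apply]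
  ring

theorem polar_pt_plucker (e a : O F) : polar Q₈ (pt F) (plucker e a) = 0 := by
  rw [polar_pt]; simp [plucker]

theorem leftSpace_qPlus {x : O F} (hx : x ∈ leftSpace F 4) : Q₈ x = 0 := by
  simp [H4.Oct.qPlus_four, mem_leftSpace.1 hx]

theorem leftSpace_polar {x y : O F} (hx : x ∈ leftSpace F 4) (hy : y ∈ leftSpace F 4) :
    polar Q₈ x y = 0 := by
  simp [QuadraticMap.polar, H4.Oct.qPlus_four, mem_leftSpace.1 hx, mem_leftSpace.1 hy]

theorem eich_pt_plucker {e a : O F} (he : e ∈ leftSpace F 4) (ha : a ∈ leftSpace F 4) (z : O F) :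
    (eich Q₈ (pt F) (plucker e a) : O F ≃ₗ[F] O F) z = z + mul a (mul (conj e) z) := by
  rw [eich_apply qPlus_pt (polar_pt_plucker e a)]
  funext i
  rcases i with i | i <;> fin_cases i <;>
    simp [QuadraticMap.polar, mul, conj, H4.Oct.qPlus_four, pt, plucker, Pi.single_apply,
      mem_leftSpace.1 he, mem_leftSpace.1 ha] <;> ring

/-- Triality maps the Eichler transformations of pairs in the standard subspace into the root
group of the point. -/
theorem tau_eich_left [Fintype F] {e a : O F} (he : e ∈ leftSpace F 4) (ha : a ∈ leftSpace F 4)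
    (g₁ g₂ : commutator (orth Q₈)) (h₁ : (g₁ : orth Q₈) = eich Q₈ e a)
    (h₂ : (g₂ : orth Q₈) = eich Q₈ (pt F) (plucker e a)) :
    tau (piQ Q₈ g₁) = piQ Q₈ g₂ := by
  refine H4.Oct.conj_injective ?_
  rw [H4.conj_apply_aut, ← H4.simHom_orthToSim, ← H4.simHom_orthToSim, h₁, h₂]
  change tau * act (orthToSim Q₈ (eich Q₈ e a)) * tau⁻¹ =
    act (orthToSim Q₈ (eich Q₈ (pt F) (plucker e a)))
  obtain ⟨y, hey, hay, hy⟩ := exists_anisotropic_perp he ha
  have hq := leftSpace_qPlus he
  have hea := leftSpace_polar he ha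
  have hay' : Q₈ (a + y) ≠ 0 := by
    rwa [QuadraticMap.map_add (⇑Q₈), leftSpace_qPlus ha, hay, zero_add, add_zero]
  obtain ⟨k₁, hk₁, hk₁'⟩ := tau_eich_anisotropic hq (a := a + y)
    (by rw [polar_add_right, hea, hey, add_zero]) hay'
  obtain ⟨k₂, hk₂, hk₂'⟩ := tau_eich_anisotropic hq hey hy
  set g := orthToSim Q₈ (eich Q₈ (pt F) (plucker e a))
  have hg : ∀ z, app g z = z + mul a (mul (conj e) z) := eich_pt_plucker he ha
  have hk : g * k₂ = k₁ := H4.Oct.sim_ext fun z => by
    have h1 := conj_mul_lin e y (mul (conj e) z)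
    have h2 := H4.Oct.conj_mul_cancel (conj e) z
    rw [H4.Oct.conj_conj, H4.Oct.qPlus_conj, hq, zero_smul] at h2
    rw [hey, zero_smul, h2, mul_zero', add_zero] at h1
    rw [app_mul, hk₂', hg, hk₁', H4.Oct.mul_add (conj e), h1, add_zero, H4.Oct.add_mul]
    abel
  rw [eq_mul_inv_of_mul_eq hk, map_mul, map_inv, ← hk₁, ← hk₂,
    show eich Q₈ e (a + y) = eich Q₈ e a * eich Q₈ e y from (H5.eich_mul hq hea hey).symm,
    map_mul, map_mul]
  group

end Cfsg.Agent.H3.OIdx
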