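import Cfsg.Agent.H3.OIdx.Radical
import Cfsg.Agent.H3.OIdx.Frames
import Cfsg.Agent.H4.PointImage

/-!
Levi translations of additive subgroups of pairs: either many translates or a product of a subspace
with itself, and many translates of totally isotropic subspaces.
-/

set_option autoImplicit false

namespace Cfsg.Agent.H3.OIdx

open QuadraticMap hiding sq
open Module
open Cfsg.Agent.H5 (orth eich eich_apply eich_mul eich_inv eichGroup eich_mem_eichGroup HypPair
  pperp mem_pperp orth_mul_apply orth_map orth_polar polar_self' pairScale)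

variable {F V : Type*} [Field F] [AddCommGroup V] [Module F V] {Q : QuadraticForm F V}
  {L : LineFrame Q}

namespace Lev

/-- The translation `(a, b) ↦ (a, b - c a)`. -/
noncomputable def upL (L : LineFrame Q) (c : F) : Lev L where
  g := L.up c
  φ p := (p.1, p.2 - c • p.1)
  lam := 1
  mem := L.up_mem c
  maps _ hp := ⟨hp.1, sub_mem hp.2 (Submodule.smul_mem _ _ hp.1)⟩
  inj _ _ _ _ h := by
    simp only [Prod.mk.injEq] at h
    obtain ⟨h1, h2⟩ := h
    rw [h1] at h2
    exact Prod.ext h1 (sub_left_inj.1 h2)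
  lam_ne := one_ne_zero
  spec _ ha _ hb t := ⟨_, L.up_conj ha hb t c⟩
  spec_zero t := by rw [L.up_conj (zero_mem _) (zero_mem _)]; simp

/-- The translation `(a, b) ↦ (a - c b, b)`. -/
noncomputable def umL (L : LineFrame Q) (c : F) : Lev L where
  g := L.um c
  φ p := (p.1 - c • p.2, p.2)
  lam := 1
  mem := L.um_mem c
  maps _ hp := ⟨sub_mem hp.1 (Submodule.smul_mem _ _ hp.2), hp.2⟩
  inj _ _ _ _ h := by
    simp only [Prod.mk.injEq] at h
    obtain ⟨h1, h2⟩ := h
    rw [h2] at h1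
    exact Prod.ext (sub_left_inj.1 h1) h2
  lam_ne := one_ne_zero
  spec _ ha _ hb t := ⟨_, L.um_conj ha hb t c⟩
  spec_zero t := by rw [L.um_conj (zero_mem _) (zero_mem _)]; simp

/-- The translation by an element scaling both pairs. -/
noncomputable def scalL (L : LineFrame Q) {g : orth Q} {α β : F} (hg : g ∈ eichGroup Q)
    (hαβ : α * β ≠ 0) (hgu : (g : V ≃ₗ[F] V) L.u = α • L.u)
    (hgv : (g : V ≃ₗ[F] V) L.v = β • L.v) (hW : ∀ w ∈ L.W, (g : V ≃ₗ[F] V) w ∈ L.W) : Lev L where
  g := g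
  φ p := (α • (g : V ≃ₗ[F] V) p.1, β • (g : V ≃ₗ[F] V) p.2)
  lam := α * β
  mem := hg
  maps _ hp := ⟨Submodule.smul_mem _ _ (hW _ hp.1), Submodule.smul_mem _ _ (hW _ hp.2)⟩
  inj _ _ _ _ h := by
    simp only [Prod.mk.injEq] at h
    have hα : α ≠ 0 := left_ne_zero_of_mul hαβ
    have hβ : β ≠ 0 := right_ne_zero_of_mul hαβ
    exact Prod.ext ((g : V ≃ₗ[F] V).injective (smul_right_injective V hα h.1))
      ((g : V ≃ₗ[F] V).injective (smul_right_injective V hβ h.2))
  lam_ne := hαβ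
  spec _ ha _ hb t := ⟨_, L.scal_conj hgu hgv hW ha hb t⟩
  spec_zero t := by rw [L.scal_conj hgu hgv hW (zero_mem _) (zero_mem _)]; simp

/-- The translation by an Eichler transformation of the complement. -/
noncomputable def wL (L : LineFrame Q) {e x : V} (he : e ∈ L.W) (hx : x ∈ L.W) (he0 : Q e = 0)
    (hex : polar Q e x = 0) : Lev L :=
  scalL L (g := eich Q e x) (α := 1) (β := 1) (eich_mem_eichGroup _ _) (by simp)
    (by rw [one_smul]; exact (L.eich_W_fix he hx he0 hex).1)
    (by rw [one_smul]; exact (L.eich_W_fix he hx he0 hex).2.1)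
    (L.eich_W_fix he hx he0 hex).2.2

theorem wL_φ (L : LineFrame Q) {e x : V} (he : e ∈ L.W) (hx : x ∈ L.W) (he0 : Q e = 0)
    (hex : polar Q e x = 0) (p : V × V) :
    (wL L he hx he0 hex).φ p = ((eich Q e x : V ≃ₗ[F] V) p.1, (eich Q e x : V ≃ₗ[F] V) p.2) := by
  simp [wL, scalL]

theorem wL_lam (L : LineFrame Q) {e x : V} (he : e ∈ L.W) (hx : x ∈ L.W) (he0 : Q e = 0)
    (hex : polar Q e x = 0) : (wL L he hx he0 hex).lam = 1 := by
  simp [wL, scalL]

variable [Finite F] [FiniteDimensional F V] [Finite V]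

/-- Every scalar is realised on the centre. -/
theorem exists_lam (L : LineFrame Q) (hQ : (polarBilin Q).Nondegenerate)
    (hn : 7 ≤ finrank F V) {t : F} (ht : t ≠ 0) : ∃ l : Lev L, l.lam = t := by
  obtain ⟨x, hx, y, hy, hp⟩ := exists_pair_in (L.W_inf_perp hQ)
    (by have := L.finrank_W; omega)
  have hfix : ∀ z, polar Q x z = 0 → polar Q y z = 0 →
      (pairScale Q x y t : V ≃ₗ[F] V) z = z := fun z h1 h2 => pairScale_fix hp ht h1 h2
  refine ⟨scalL L (g := pairScale Q L.u L.u' t * pairScale Q x y t) (α := t) (β := 1)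
    (pairScale_mul_mem hQ (by omega) L.hu hp ht) (by rwa [mul_one]) ?_ ?_ ?_, ?_⟩
  · rw [orth_mul_apply, hfix _ (by rw [polar_comm, LineFrame.W_u hx])
      (by rw [polar_comm, LineFrame.W_u hy]), pairScale_left L.hu ht]
  · rw [orth_mul_apply, hfix _ (by rw [polar_comm, LineFrame.W_v hx])
      (by rw [polar_comm, LineFrame.W_v hy]), pairScale_fix L.hu ht L.uv L.u'v, one_smul]
  · intro w hw
    rw [orth_mul_apply]
    have h2 : (pairScale Q x y t : V ≃ₗ[F] V) w ∈ L.W := by
      rw [hp.pairScale_apply ht]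
      exact add_mem (add_mem (Submodule.smul_mem _ _ hx) (Submodule.smul_mem _ _ hy))
        (sub_mem (sub_mem hw (Submodule.smul_mem _ _ hx)) (Submodule.smul_mem _ _ hy))
    rw [pairScale_fix L.hu ht (LineFrame.W_u h2) (LineFrame.W_u' h2)]
    exact h2
  · simp [scalL]

end Lev

/-- The translates of a set of pairs by translations centralising the centre. -/
def trans (L : LineFrame Q) (A : Set (V × V)) : Set (Set (V × V)) :=
  {S | ∃ l : Lev L, l.lam = 1 ∧ S = l.φ '' A}

variable [Finite V]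

theorem card_le_trans {ι : Type*} {A : Set (V × V)} (l : ι → Lev L) (hl : ∀ i, (l i).lam = 1)
    (hinj : Function.Injective fun i => (l i).φ '' A) : Nat.card ι ≤ (trans L A).ncard := by
  rw [← Nat.card_range_of_injective hinj, Nat.card_coe_set_eq]
  exact Set.ncard_le_ncard (fun _ ⟨i, hi⟩ => ⟨l i, hl i, hi.symm⟩) (Set.toFinite _)

omit [Finite V] in
/-- A one-parameter family of translations either gives `q` translates or has a fixed member. -/
theorem exists_fix_of_few {A : Set (V × V)} (ψ : F → V × V → V × V)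
    (hψ : ∀ c d p, ψ c (ψ d p) = ψ (c + d) p) (h0 : ∀ p, ψ 0 p = p)
    (h : ¬Function.Injective fun c => ψ c '' A) : ∃ c, c ≠ 0 ∧ ∀ p ∈ A, ψ c p ∈ A := by
  rw [Function.not_injective_iff] at h
  obtain ⟨c, d, hcd, hne⟩ := h
  refine ⟨c - d, sub_ne_zero.2 hne, fun p hp => ?_⟩
  obtain ⟨r, hr, hre⟩ : ψ c p ∈ ψ d '' A := hcd ▸ ⟨p, hp, rfl⟩
  have h1 : ψ (c - d) p = r := by
    rw [show c - d = -d + c by ring, ← hψ, ← hre, hψ, neg_add_cancel, h0]
  rwa [h1]

/-- Few translates force the product of a subspace with itself. -/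
theorem exists_prod_of_few [Finite F] (A : AddSubgroup (V × V)) (hA : (A : Set (V × V)) ⊆ L.WW)
    (h : (trans L A).ncard < Nat.card F) :
    ∃ E : Submodule F V, E ≤ L.W ∧ ∀ p : V × V, p ∈ A ↔ p.1 ∈ E ∧ p.2 ∈ E := by
  have few : ∀ l : F → Lev L, (∀ c, (l c).lam = 1) →
      ¬Function.Injective fun c => (l c).φ '' (A : Set (V × V)) := fun l hl hi =>
    (card_le_trans l hl hi).not_gt h
  obtain ⟨c₀, hc₀, hup⟩ := exists_fix_of_few (fun c p => ((p.1, p.2 - c • p.1) : V × V))
    (fun c d p => by simp only [Prod.mk.injEq, true_and]; module) (fun p => by simp)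
    (few (Lev.upL L) fun _ => rfl)
  obtain ⟨d₀, hd₀, hum⟩ := exists_fix_of_few (fun c p => ((p.1 - c • p.2, p.2) : V × V))
    (fun c d p => by simp only [Prod.mk.injEq, and_true]; module) (fun p => by simp)
    (few (Lev.umL L) fun _ => rfl)
  let K₁ : AddSubgroup V := A.comap (AddMonoidHom.inl V V)
  let K₂ : AddSubgroup V := A.comap (AddMonoidHom.inr V V)
  have hK₁ : ∀ a, a ∈ K₁ ↔ ((a, 0) : V × V) ∈ A := fun a => Iff.rfl
  have hK₂ : ∀ b, b ∈ K₂ ↔ ((0, b) : V × V) ∈ A := fun b => Iff.rfl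
  have h12 : ∀ p ∈ A, c₀ • p.1 ∈ K₂ := fun p hp => by
    rw [hK₂]; convert A.sub_mem hp (hup p hp) using 1; ext <;> simp
  have h21 : ∀ p ∈ A, d₀ • p.2 ∈ K₁ := fun p hp => by
    rw [hK₁]; convert A.sub_mem hp (hum p hp) using 1; ext <;> simp
  -- both projections lie in the coordinate parts
  have hfst : ∀ p ∈ A, p.1 ∈ K₁ := by
    have hle : K₁ ≤ A.map (AddMonoidHom.fst V V) := fun a ha => ⟨(a, 0), ha, rfl⟩
    have hc : Nat.card (A.map (AddMonoidHom.fst V V)) ≤ Nat.card K₁ := by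
      refine Nat.card_le_card_of_injective (fun a => ⟨d₀ • c₀ • (a : V), ?_⟩) ?_
      · obtain ⟨p, hp, hpa⟩ := a.2
        have := h21 _ ((hK₂ _).1 (h12 p hp))
        rwa [show p.1 = (a : V) from hpa] at this
      · intro a b hab
        exact Subtype.ext (smul_right_injective V hc₀ (smul_right_injective V hd₀
          (congrArg Subtype.val hab)))
    intro p hp
    rw [AddSubgroup.eq_of_le_of_card_ge hle hc]
    exact ⟨p, hp, rfl⟩
  have hsnd : ∀ p ∈ A, p.2 ∈ K₂ := fun p hp => by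
    rw [hK₂]; convert A.sub_mem hp (hfst p hp) using 1; ext <;> simp
  -- `K₂ = c₀ K₁`
  have hK21 : ∀ b ∈ K₂, ∃ a ∈ K₁, c₀ • a = b := by
    have hs : Function.Surjective fun a : K₁ => (⟨c₀ • (a : V), h12 _ a.2⟩ : K₂) := by
      have h1 : Function.Injective fun a : K₁ => (⟨c₀ • (a : V), h12 _ a.2⟩ : K₂) := fun a b hab =>
        Subtype.ext (smul_right_injective V hc₀ (congrArg Subtype.val hab))
      refine (h1.bijective_of_nat_card_le (Nat.card_le_card_of_injective
        (fun b : K₂ => (⟨d₀ • (b : V), h21 _ b.2⟩ : K₁)) fun a b hab => ?_)).2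
      exact Subtype.ext (smul_right_injective V hd₀ (congrArg Subtype.val hab))
    intro b hb
    obtain ⟨a, ha⟩ := hs ⟨b, hb⟩
    exact ⟨a, a.2, congrArg Subtype.val ha⟩
  -- the multipliers of `K₁` exhaust the field
  have hmul : ∀ μ : F, ∀ a ∈ K₁, μ • a ∈ K₁ := by
    intro μ a ha
    by_cases hμ : μ = 0
    · rw [hμ, zero_smul]; exact zero_mem _
    set s := c₀ / μ with hs
    have hs0 : s ≠ 0 := div_ne_zero hc₀ hμ
    obtain ⟨c, hc, hux⟩ := exists_fix_of_few
      (fun c p => ((p.1 + c • (s • p.1 - p.2), p.2 + (c * s) • (s • p.1 - p.2)) : V × V))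
      (fun c d p => by simp only [Prod.mk.injEq]; constructor <;> module) (fun p => by simp) (by
        have h0 := few (fun c => (Lev.upL L (-s)).comp ((Lev.umL L c).comp (Lev.upL L s)))
          (fun c => by simp [Lev.comp, Lev.upL, Lev.umL])
        have hφ : ∀ c : F, ((Lev.upL L (-s)).comp ((Lev.umL L c).comp (Lev.upL L s))).φ =
            fun p : V × V => (p.1 + c • (s • p.1 - p.2), p.2 + (c * s) • (s • p.1 - p.2)) := by
          intro c
          funext p
          simp only [Lev.comp, Lev.upL, Lev.umL, Function.comp_apply, Prod.mk.injEq]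
          constructor <;> module
        simp only [hφ] at h0
        exact h0)
    have h1 : ∀ x ∈ K₁, (c * s) • x ∈ K₁ := fun x hx => by
      have := K₁.sub_mem (hfst _ (hux (x, 0) hx)) hx
      simpa [smul_smul] using this
    have h2 : ∀ x ∈ K₁, (c * c₀) • x ∈ K₁ := fun x hx => by
      have := hfst _ (hux (0, c₀ • x) (h12 (x, 0) hx))
      simpa [smul_smul, neg_mem_iff] using this
    have hcs : c * s ≠ 0 := mul_ne_zero hc hs0
    obtain ⟨a', ha'⟩ := ((Function.Injective.bijective_of_nat_card_le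
      (f := fun x : K₁ => (⟨(c * s) • (x : V), h1 _ x.2⟩ : K₁))
      (fun x y hxy => Subtype.ext (smul_right_injective V hcs (congrArg Subtype.val hxy)))
      le_rfl)).2 ⟨a, ha⟩
    have h3 := h2 _ a'.2
    have h4 : (c * s) • (a' : V) = a := congrArg Subtype.val ha'
    rw [← h4, smul_smul, show μ * (c * s) = c * c₀ by rw [hs]; field_simp]
    exact h3
  let E : Submodule F V := { K₁ with smul_mem' := fun μ a ha => hmul μ a ha }
  have hE : ∀ a, a ∈ E ↔ a ∈ K₁ := fun a => Iff.rfl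
  have h2E : ∀ b, b ∈ K₂ ↔ b ∈ E := fun b => by
    rw [hE]
    constructor
    · intro hb
      obtain ⟨a, ha, rfl⟩ := hK21 b hb
      exact hmul c₀ a ha
    · intro hb
      have := h12 (c₀⁻¹ • b, 0) (hmul c₀⁻¹ b hb)
      rwa [smul_smul, mul_inv_cancel₀ hc₀, one_smul] at this
  refine ⟨E, fun a ha => (hA ha).1, fun p => ⟨fun hp => ⟨hfst p hp, (h2E _).1 (hsnd p hp)⟩,
    fun ⟨h1, h2⟩ => ?_⟩⟩
  have := A.add_mem h1 ((hK₂ _).1 ((h2E _).2 h2))
  simpa using this

variable [Finite F] [FiniteDimensional F V]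

/-- Eichler transformations of the complement moving a totally isotropic subspace to many
different places. -/
theorem exists_moves (hQ : (polarBilin Q).Nondegenerate) (hn : 7 ≤ finrank F V)
    {E : Submodule F V} (hE : E ≤ L.W) (hE0 : E ≠ ⊥) :
    ∃ e ∈ L.W, Q e = 0 ∧ ∃ T : Set V, (∀ a ∈ T, a ∈ L.W ∧ polar Q e a = 0) ∧
      Nat.card F ^ (finrank F L.W - 1 - finrank F E) ≤ T.ncard ∧
      ∀ a ∈ T, ∀ b ∈ T, (∀ y ∈ E, (eich Q e (a - b) : V ≃ₗ[F] V) y ∈ E) → a = b := by
  obtain ⟨y, hy, hy0⟩ := Submodule.exists_mem_ne_zero_of_ne_bot hE0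
  have hW := L.W_inf_perp hQ
  obtain ⟨e', he'q, he'y⟩ := H4.exists_polar_singular (H5.restrict_nondegenerate hW)
    (by have := L.finrank_W; omega) (m := (⟨y, hE hy⟩ : L.W))
    (fun h => hy0 (congrArg Subtype.val h))
  obtain ⟨e, he⟩ := e'
  have heq : Q e = 0 := he'q
  have hey : polar Q e y ≠ 0 := he'y
  refine ⟨e, he, heq, ?_⟩
  let M : Submodule F V := L.W ⊓ H5.perp Q (Submodule.span F {e})
  let S : Submodule F V := E ⊔ Submodule.span F {e}
  have hM : finrank F L.W ≤ finrank F M + 1 := by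
    have h1 := Submodule.finrank_sup_add_finrank_inf_eq L.W (H5.perp Q (Submodule.span F {e}))
    have h2 := Submodule.finrank_le (L.W ⊔ H5.perp Q (Submodule.span F {e}))
    have h3 := H5.finrank_perp_add hQ (Submodule.span F {e})
    rw [finrank_span_singleton (fun h0 => hey (by rw [h0, polar_zero_left]))] at h3
    change finrank F L.W ≤ finrank F ↥(L.W ⊓ H5.perp Q (Submodule.span F {e})) + 1
    omega
  let N : Submodule F M := (S ⊓ M).comap M.subtype
  have hN : finrank F N ≤ finrank F E := by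
    rw [(Submodule.comapSubtypeEquivOfLe inf_le_right).finrank_eq]
    have hlt : S ⊓ M < S := lt_of_le_of_ne inf_le_left fun heq' => hey
      (H5.mem_perp_span.1 ((inf_eq_left.1 heq') (Submodule.mem_sup_left hy)).2)
    have h1 := Submodule.finrank_lt_finrank_of_lt hlt
    have h2 : finrank F S ≤ finrank F E + 1 := by
      refine (Submodule.finrank_add_le_finrank_add_finrank _ _).trans (Nat.add_le_add_left ?_ _)
      exact (finrank_span_le_card _).trans (by simp)
    omega
  refine ⟨Set.range fun z : M ⧸ N => ((z.out : M) : V), ?_, ?_, ?_⟩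
  · rintro _ ⟨z, rfl⟩
    exact ⟨(z.out : M).2.1, H5.mem_perp_span.1 (z.out : M).2.2⟩
  · rw [← Nat.card_coe_set_eq, Nat.card_range_of_injective fun z z' h => by
      rw [← Quotient.out_inj]; exact Subtype.ext h]
    haveI : Finite (M ⧸ N) := Finite.of_surjective _ (Submodule.Quotient.mk_surjective N)
    rw [Module.natCard_eq_pow_finrank (K := F) (V := M ⧸ N)]
    refine Nat.pow_le_pow_right Nat.card_pos ?_
    have := Submodule.finrank_quotient_add_finrank N
    omega
  · rintro _ ⟨z, rfl⟩ _ ⟨z', rfl⟩ hfix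
    have hz : z = z' := by
      rw [← Submodule.Quotient.mk_out z, ← Submodule.Quotient.mk_out z',
        Submodule.Quotient.eq]
      refine ⟨?_, ((z.out : M) - z'.out).2⟩
      set d := ((z.out : M) : V) - ((z'.out : M) : V)
      have hd : polar Q e d = 0 := by
        rw [polar_sub_right, H5.mem_perp_span.1 (z.out : M).2.2,
          H5.mem_perp_span.1 (z'.out : M).2.2, sub_zero]
      have h1 := hfix y hy
      rw [eich_apply heq hd] at h1
      change d ∈ S
      have h2 : polar Q e y • d ∈ S := by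
        have h3 := Submodule.add_mem_sup (sub_mem h1 hy)
          (Submodule.smul_mem _ (polar Q d y + Q d * polar Q e y)
            (Submodule.mem_span_singleton_self (R := F) e))
        convert h3 using 1
        module
      exact (Submodule.smul_mem_iff _ hey).1 h2
    rw [hz]

/-- A product of a totally isotropic subspace with itself has many translates. -/
theorem pow_le_trans_prod (hQ : (polarBilin Q).Nondegenerate) (hn : 7 ≤ finrank F V)
    {E : Submodule F V} (hE : E ≤ L.W) (hE0 : E ≠ ⊥) {A : Set (V × V)}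
    (hA : ∀ p : V × V, p ∈ A ↔ p.1 ∈ E ∧ p.2 ∈ E) {E₀ : Submodule F V} (hE₀ : E₀ ≤ E)
    (hE₀0 : E₀ ≠ ⊥)
    (hchar : ∀ k : orth Q, (∀ y ∈ E, (k : V ≃ₗ[F] V) y ∈ E) →
      ∀ y ∈ E₀, (k : V ≃ₗ[F] V) y ∈ E₀) :
    Nat.card F ^ (finrank F L.W - 1 - finrank F E₀) ≤ (trans L A).ncard := by
  obtain ⟨e, he, heq, T, hT, hTc, hTinj⟩ := exists_moves hQ hn (hE₀.trans hE) hE₀0
  refine hTc.trans ?_
  rw [← Nat.card_coe_set_eq]
  refine card_le_trans (fun a : T => Lev.wL L he (hT a a.2).1 heq (hT a a.2).2)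
    (fun a => Lev.wL_lam L _ _ _ _) fun a b hab => Subtype.ext (hTinj a a.2 b b.2 ?_)
  refine hchar _ fun y hy => ?_
  have hya : (((eich Q e (a : V) : V ≃ₗ[F] V) y), (0 : V)) ∈
      (Lev.wL L he (hT a a.2).1 heq (hT a a.2).2).φ '' A :=
    ⟨(y, 0), (hA _).2 ⟨hy, zero_mem _⟩, by simp [Lev.wL_φ]⟩
  rw [show (Lev.wL L he (hT a a.2).1 heq (hT a a.2).2).φ '' A = _ from hab] at hya
  obtain ⟨p, hp, hpe⟩ := hya
  rw [Lev.wL_φ] at hpe
  have h1 : (eich Q e (b : V) : V ≃ₗ[F] V) p.1 = (eich Q e (a : V) : V ≃ₗ[F] V) y :=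
    congrArg Prod.fst hpe
  have hb : polar Q e (b : V) = 0 := (hT b b.2).2
  rw [show ((a : V) - b) = -(b : V) + a by abel, ← eich_mul heq
    (by rw [polar_neg_right, hb, neg_zero]) (hT a a.2).2, ← eich_inv heq hb, orth_mul_apply, ← h1,
    H5.orth_inv_apply_apply]
  exact ((hA p).1 hp).1

end Cfsg.Agent.H3.OIdx
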